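import Cfsg.Agent.H4.Jor2
import Cfsg.Agent.H3.CTI

open Cfsg CfsgH3 Module
open scoped ComplexConjugate Pointwise

namespace CfsgH4.BL

section gen
variable {H K : Type*} [Group H] [Group K] [Fintype H] [Fintype K] {a : H → ℂ}

theorem triv_comp (ha : IsCharacter H a) (f : K →* H) :
    ∃ d : ℕ, classInner (fun k => a (f k)) (fun _ => 1) = classInner a (fun _ => 1) + d := by
  obtain ⟨m, hm⟩ := ha.exists_nat_classInner isCharacter_one
  obtain ⟨d, hd⟩ := ((ha.sub_constituent isIrr_one hm le_rfl).comp f).exists_nat_classInner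
    isCharacter_one
  refine ⟨d, ?_⟩
  have : (fun k => a (f k)) = (fun k => (a - (m : ℂ) • fun _ : H => (1 : ℂ) : H → ℂ) (f k)) +
      (m : ℂ) • fun _ => (1 : ℂ) := by
    ext k; simp
  rw [this, classInner_add_left, hd, hm, classInner_smul_left, isIrr_one.classInner_self]
  ring

theorem triv_deg (ha : IsCharacter H a) : ∃ d : ℕ, a 1 = classInner a (fun _ => 1) + d := by
  obtain ⟨m, hm⟩ := ha.exists_nat_classInner isCharacter_one
  obtain ⟨d, hd⟩ := (ha.sub_constituent isIrr_one hm le_rfl).exists_nat_apply_one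
  refine ⟨d, ?_⟩
  simp only [Pi.sub_apply, Pi.smul_apply, smul_eq_mul, mul_one] at hd
  rw [hm, ← hd]; ring

theorem norm_eq_triv (a : H → ℂ) :
    classInner (a * fun g => conj (a g)) (fun _ => 1) = classInner a a := by
  simp [classInner]

end gen

variable {p : ℕ} {N : Type*} [Group N]

/-- local structure -/
structure Lc (p : ℕ) (P : Subgroup N) : Prop where
  nor : P.Normal
  pg : IsPGroup p P
  idx : ¬ p ∣ P.index
  cen : ∀ x ∈ P, x ≠ 1 → Subgroup.centralizer ({x} : Set N) = Subgroup.centralizer (P : Set N)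

local notation "C[" P "]" => Subgroup.centralizer (SetLike.coe P)

variable {P : Subgroup N}

theorem Lc.le (h : Lc p P) : P ≤ C[P] := fun y hy => by
  by_cases h1 : y = 1
  · rw [h1]; exact one_mem _
  · rw [← h.cen y hy h1]; exact Subgroup.mem_centralizer_singleton_iff.2 rfl

theorem Lc.nc (h : Lc p P) : (C[P]).Normal := by haveI := h.nor; infer_instance

theorem Lc.central (h : Lc p P) {u : N} (hu : u ∈ P) :
    (⟨u, h.le hu⟩ : C[P]) ∈ Subgroup.center C[P] := by
  rw [Subgroup.mem_center_iff]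
  intro g
  exact Subtype.ext (g.2 u hu).symm

variable [Fintype N]

theorem Lc.inert (h : Lc p P) {φ : C[P] → ℂ} (hφ : IsIrrCharacter _ φ)
    (h1 : ∃ u, ∃ hu : u ∈ P, φ ⟨u, h.le hu⟩ ≠ φ 1) :
    haveI := h.nc; inertia φ ≤ C[P] := by
  haveI := h.nc
  haveI := h.nor
  intro g hg
  by_contra hgC
  obtain ⟨w, hw, hne⟩ := h1
  let F : P → P := fun u => ⟨g * u * g⁻¹ * (u : N)⁻¹, mul_mem (h.nor.conj_mem _ u.2 g) (inv_mem u.2)⟩
  have hF : Function.Injective F := fun u v huv => by
    by_contra hne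
    apply hgC
    have h2 : g * u * g⁻¹ * (u : N)⁻¹ = g * v * g⁻¹ * (v : N)⁻¹ := congrArg Subtype.val huv
    have h3 : (v : N)⁻¹ * u ≠ 1 := fun h => hne (Subtype.ext (inv_mul_eq_one.1 h).symm)
    rw [← h.cen _ (mul_mem (inv_mem v.2) u.2) h3, Subgroup.mem_centralizer_singleton_iff]
    have h4 : (v : N)⁻¹ * u = u * (v : N)⁻¹ := h.le u.2 _ (inv_mem v.2)
    calc g * ((v : N)⁻¹ * u) = g * (v : N)⁻¹ * g⁻¹ * (g * u * g⁻¹ * (u : N)⁻¹) * u * g := by group
      _ = _ := by rw [h2]; group
  obtain ⟨u, hu⟩ := (Finite.injective_iff_surjective.1 hF) ⟨w, hw⟩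
  have h2 : g * u * g⁻¹ * (u : N)⁻¹ = w := congrArg Subtype.val hu
  have h3 := mem_inertia'.1 hg ⟨u, h.le u.2⟩
  have h4 := hφ.norm_apply_of_mem_center (h.central u.2)
  have h5 := hφ.isCharacter.apply_mul_of_norm_eq h4 ⟨w, h.le hw⟩
  have h6 : (⟨w, h.le hw⟩ * ⟨u, h.le u.2⟩ : C[P]) = ⟨g * u * g⁻¹, h.nc.conj_mem _ (h.le u.2) g⟩ :=
    Subtype.ext (by simp [← h2])
  rw [h6, h3] at h5
  have h7 : φ ⟨u, h.le u.2⟩ ≠ 0 := norm_ne_zero_iff.1 (h4 ▸ norm_ne_zero_iff.2 hφ.apply_one_ne_zero)
  exact hne (mul_right_cancel₀ h7 h5).symm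

/-- characters not containing `P` in the kernel -/
def Y (P : Subgroup N) (θ : N → ℂ) : Prop := ∃ u ∈ P, θ u ≠ θ 1

/-- agreement on `p`-regular elements -/
def Eqv (p : ℕ) (a b : N → ℂ) : Prop := ∀ n, ¬ p ∣ orderOf n → a n = b n

theorem Lc.ind_irr (h : Lc p P) {φ : C[P] → ℂ} (hφ : IsIrrCharacter _ φ)
    (h1 : ∃ u, ∃ hu : u ∈ P, φ ⟨u, h.le hu⟩ ≠ φ 1) :
    IsIrrCharacter N (indFun C[P] φ) ∧ Y P (indFun C[P] φ) := by
  haveI := h.nc
  haveI := Fintype.ofFinite C[P]
  have h2 := isIrr_indFun_of_inertia_le hφ (h.inert hφ h1)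
  refine ⟨h2, ?_⟩
  obtain ⟨u, hu, hne⟩ := h1
  refine ⟨u, hu, fun h3 => hne ?_⟩
  refine (h2.isCharacter.restrict C[P]).apply_eq_of_constituent hφ ?_ h3
  rw [← classInner_indFun_right _ h2.isClassFunction, h2.classInner_self]
  exact one_ne_zero

theorem Lc.eq_ind (h : Lc p P) {θ : N → ℂ} (hθ : IsIrrCharacter N θ) (hY : Y P θ) :
    ∃ φ, IsIrrCharacter C[P] φ ∧ θ = indFun C[P] φ := by
  haveI := Fintype.ofFinite C[P]
  obtain ⟨u, hu, hne⟩ := hY
  obtain ⟨m, hm, he⟩ := (hθ.isCharacter.restrict C[P]).exists_eq_sum_irr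
  obtain ⟨φ, h0, hφ⟩ : ∃ φ : IrrCharacter C[P], m φ ≠ 0 ∧ φ.1 ⟨u, h.le hu⟩ ≠ φ.1 1 := by
    by_contra hc
    push Not at hc
    apply hne
    have a1 := congrFun he ⟨u, h.le hu⟩
    have a2 := congrFun he 1
    simp only [Finset.sum_apply, Pi.smul_apply, smul_eq_mul, OneMemClass.coe_one] at a1 a2
    rw [a1, a2]
    refine Finset.sum_congr rfl fun φ _ => ?_
    by_cases h0 : m φ = 0
    · simp [h0]
    · rw [hc φ h0]
  refine ⟨φ, φ.2, hθ.eq_of_classInner_ne_zero (h.ind_irr φ.2 ⟨u, hu, hφ⟩).1 ?_⟩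
  rw [classInner_indFun_right _ hθ.isClassFunction, hm]
  exact_mod_cast h0

theorem Lc.deg (h : Lc p P) {θ : N → ℂ} (hθ : IsIrrCharacter N θ) (hY : Y P θ) :
    C[P].index ≤ charDegree θ := by
  obtain ⟨φ, hφ, rfl⟩ := h.eq_ind hθ hY
  rw [deg_indFun hφ.isCharacter]
  exact Nat.le_mul_of_pos_right _ (charDegree_pos hφ)

theorem Lc.norm [Fintype C[P]] (h : Lc p P) {θ : N → ℂ} (hθ : IsIrrCharacter N θ) (hY : Y P θ) :
    classInner (fun c : C[P] => θ c) (fun c : C[P] => θ c) = C[P].index := by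
  haveI := h.nc
  rw [classInner_restrict_eq, hθ.classInner_self, mul_one]
  obtain ⟨φ, hφ, rfl⟩ := h.eq_ind hθ hY
  exact fun g hg => indFun_eq_zero_of_not_mem _ hg

theorem Lc.fam [Fact p.Prime] (h : Lc p P) {φ : C[P] → ℂ} (hφ : IsIrrCharacter _ φ) :
    ∃ S : Finset (IrrCharacter N), (∀ θ ∈ S, Y P θ.1 ∧ Eqv p θ.1 (indFun C[P] φ)) ∧
      Nat.card P ≤ C[P].index * S.card + 1 := by
  classical
  haveI := h.nc
  set Q := P.subgroupOf C[P] with hQ
  haveI : Q.Normal := h.nor.subgroupOf _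
  have hQc : Nat.card Q = Nat.card P := Nat.card_congr (Subgroup.subgroupOfEquivOfLe h.le).toEquiv
  have hQz : ∀ u ∈ Q, u ∈ Subgroup.center C[P] := fun u hu => h.central hu
  have hΛ : Nat.card (Q →* ℂˣ) = Nat.card P := by
    rw [card_unitsHom_of_comm, hQc]
    exact fun a b => Subtype.ext (Subgroup.mem_center_iff.1 (hQz _ b.2) a)
  obtain ⟨k, hk⟩ := h.pg.exists_card_eq
  have hext : ∀ l : Q →* ℂˣ, ∃ μ : C[P] →* ℂˣ, (∀ n : Q, μ n = l n) ∧
      ∀ c, ¬ p ∣ orderOf c → μ c = 1 := fun l => by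
    have a1 : orderOf l ∣ p ^ k := hk ▸ hQc ▸ orderOf_lin_dvd_card l
    have hp : p.Prime := Fact.out
    obtain ⟨μ, h1, h2⟩ := exists_lin_ext_of_coprime (l := l) (fun g n => by
      congr 1
      exact Subtype.ext (by
        show g * n * g⁻¹ = n
        rw [Subgroup.mem_center_iff.1 (hQz _ n.2) g, mul_inv_cancel_right]))
      (Nat.Coprime.coprime_dvd_right a1 (Nat.Coprime.pow_right _
        ((Nat.Prime.coprime_iff_not_dvd hp).2 fun h2 => h.idx
          (h2.trans (Subgroup.relIndex_dvd_index_of_le h.le))).symm))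
    refine ⟨μ, h1, fun c hc => ?_⟩
    have a2 : orderOf (μ c) ∣ p ^ k := (orderOf_dvd_of_pow_eq_one (lin_pow_orderOf μ c)).trans (h2 ▸ a1)
    have a3 : orderOf (μ c) ∣ orderOf c := orderOf_map_dvd μ c
    rw [← orderOf_eq_one_iff]
    exact Nat.eq_one_of_dvd_coprimes (Nat.Coprime.pow_left _
      ((Nat.Prime.coprime_iff_not_dvd hp).2 hc)) a2 a3
  choose μ hμ1 hμ2 using hext
  haveI : Finite (Q →* ℂˣ) := Nat.finite_of_card_ne_zero (hΛ ▸ Nat.card_pos.ne')
  haveI := Fintype.ofFinite (Q →* ℂˣ)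
  set f : (Q →* ℂˣ) → (C[P] → ℂ) := fun l => φ * fun c => (μ l c : ℂ) with hf
  have hfi : ∀ l, IsIrrCharacter _ (f l) := fun l => hφ.mul_linear _
  have hφ0 : ∀ n : Q, φ n ≠ 0 := fun n => norm_ne_zero_iff.1
    (hφ.norm_apply_of_mem_center (hQz _ n.2) ▸ norm_ne_zero_iff.2 hφ.apply_one_ne_zero)
  have hinj : ∀ l l', (∀ n : Q, f l n = f l' n) → l = l' := fun l l' hl => by
    ext n
    have := hl n
    simp only [hf, Pi.mul_apply, hμ1] at this
    exact mul_left_cancel₀ (hφ0 n) this
  set good := Finset.univ.filter fun l => ∃ u, ∃ hu : u ∈ P, f l ⟨u, h.le hu⟩ ≠ f l 1 with hgood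
  have h1 : Nat.card P ≤ good.card + 1 := by
    rw [← hΛ, Nat.card_eq_fintype_card, ← Finset.card_univ, ← Finset.card_filter_add_card_filter_not
      (fun l => ∃ u, ∃ hu : u ∈ P, f l ⟨u, h.le hu⟩ ≠ f l 1)]
    refine Nat.add_le_add_left (Finset.card_le_one.2 fun l hl l' hl' => hinj l l' fun n => ?_) _
    simp only [Finset.mem_filter, Finset.mem_univ, true_and, not_exists, not_not] at hl hl'
    have a1 := hl n.1.1 n.2
    have a2 := hl' n.1.1 n.2
    simp only [Subtype.coe_eta] at a1 a2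
    rw [a1, a2]
    simp [hf]
  let F : good → IrrCharacter N := fun l => ⟨_, (h.ind_irr (hfi l.1) (Finset.mem_filter.1 l.2).2).1⟩
  refine ⟨Finset.univ.image F, fun θ hθ => ?_, h1.trans (Nat.add_le_add_right ?_ _)⟩
  · obtain ⟨l, -, rfl⟩ := Finset.mem_image.1 hθ
    refine ⟨(h.ind_irr (hfi l.1) (Finset.mem_filter.1 l.2).2).2, fun n hn => ?_⟩
    rw [← sub_eq_zero]
    show (indFun C[P] (f l) - indFun C[P] φ) n = 0
    rw [← indFun_sub]
    refine indFun_eq_zero_of_forall _ fun x hx => ?_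
    have : orderOf (⟨_, hx⟩ : C[P]) = orderOf n := by
      rw [← Subgroup.orderOf_coe]
      simpa using (MulAut.conj x⁻¹).orderOf_eq n
    simp [hf, hμ2 l.1 _ (this ▸ hn)]
  · have : good.card = (Finset.univ : Finset good).card := by simp
    rw [this]
    refine Finset.card_le_mul_card_image _ _ fun θ hθ => ?_
    obtain ⟨l, -, rfl⟩ := Finset.mem_image.1 hθ
    have hl := (Finset.mem_filter.1 l.2).2
    have a1 : (cjOrbit (f l)).card = C[P].index := by
      rw [card_cjOrbit, le_antisymm (h.inert (hfi l) hl) (le_inertia (hfi l).isClassFunction)]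
    rw [← a1]
    refine Finset.card_le_card_of_injOn (fun l' => f l'.1) (fun l' hl' => ?_)
      fun a _ b _ hab => Subtype.ext (hinj _ _ fun n => congrFun hab n)
    have a2 : indFun C[P] (f l') = indFun C[P] (f l) :=
      congrArg Subtype.val (Finset.mem_filter.1 hl').2
    by_contra h3
    have := classInner_indFun_indFun_of_not_mem (hfi l) (hfi l') h3
    rw [a2, (F l).2.classInner_self] at this
    exact one_ne_zero this

theorem Y.triv [P.Normal] {K : Subgroup N} [K.Normal] [Fintype K] (hK : P ≤ K) {θ : N → ℂ}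
    (hθ : IsIrrCharacter N θ) (hY : Y P θ) : classInner (fun c : K => θ c) (fun _ => 1) = 0 := by
  by_contra h
  obtain ⟨u, hu, hne⟩ := hY
  exact hne (apply_eq_of_classInner_one hθ h (hK hu))

theorem Lc.cnt [Fintype P] (h : Lc p P) {a : N → ℂ} {m : IrrCharacter N → ℕ}
    (he : a = ∑ φ : IrrCharacter N, (m φ : ℂ) • φ.1) {D : ℕ}
    (hD : a 1 = classInner (fun u : P => a u) (fun _ => 1) + D) (S : Finset (IrrCharacter N))
    (hS : ∀ θ ∈ S, Y P θ.1 ∧ m θ ≠ 0) : C[P].index * S.card ≤ D := by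
  classical
  haveI := h.nor
  have h1 : (D : ℂ) = ∑ φ : IrrCharacter N, ((if Y P φ.1 then m φ * charDegree φ.1 else 0 : ℕ) : ℂ) := by
    rw [← sub_eq_iff_eq_add'] at hD
    have : (fun u : P => a u) = ∑ φ : IrrCharacter N, (m φ : ℂ) • fun u : P => φ.1 u := by
      ext u; rw [he]; simp
    rw [← hD, this, classInner_sum_left, he, Finset.sum_apply, ← Finset.sum_sub_distrib]
    refine Finset.sum_congr rfl fun φ _ => ?_
    rw [classInner_smul_left]
    split_ifs with h2
    · rw [h2.triv le_rfl φ.2]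
      simp [coe_charDegree φ.2.isCharacter]
    · have : (fun u : P => φ.1 u) = φ.1 1 • fun _ => (1 : ℂ) := by
        ext u
        simp only [Y, not_exists, not_and, not_not] at h2
        simp [h2 u u.2]
      rw [this, classInner_smul_left, isIrr_one.classInner_self]
      simp
  have h2 : D = ∑ φ : IrrCharacter N, (if Y P φ.1 then m φ * charDegree φ.1 else 0) := by
    exact_mod_cast h1
  rw [h2, mul_comm, ← smul_eq_mul, ← Finset.sum_const]
  refine le_trans (Finset.sum_le_sum fun θ hθ => ?_) (Finset.sum_le_sum_of_subset (Finset.subset_univ S))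
  rw [if_pos (hS θ hθ).1]
  exact (h.deg θ.2 (hS θ hθ).1).trans (Nat.le_mul_of_pos_left _ (Nat.pos_of_ne_zero (hS θ hθ).2))

variable {G : Type*} [Group G] [Fintype G] {H : Subgroup G} [Fintype H] {P : Subgroup H}

omit [Fintype H] in
theorem res_ind (hT : ∀ n : H, p ∣ orderOf n → ∀ g : G, g⁻¹ * n * g ∈ H → g ∈ H) {a b : H → ℂ}
    (ha : IsClassFunction H a) (hb : IsClassFunction H b) (h : Eqv p a b) :
    (fun n : H => indFun H (a - b) n) = a - b := by
  ext n
  refine indFun_apply_of_ti (ha.sub hb) n fun g hg h2 => ?_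
  have : orderOf (⟨_, h2⟩ : H) = orderOf n := by
    rw [← Subgroup.orderOf_coe, ← Subgroup.orderOf_coe]
    simpa using (MulAut.conj g⁻¹).orderOf_eq (n : G)
  rw [Pi.sub_apply, h _ fun h3 => hg (hT n (this ▸ h3) g h2), sub_self]

theorem pair [Fact p.Prime] (hT : ∀ n : H, p ∣ orderOf n → ∀ g : G, g⁻¹ * n * g ∈ H → g ∈ H)
    {a b : H → ℂ} (ha : IsIrrCharacter H a) (hb : IsIrrCharacter H b) (h : Eqv p a b) {ψ : G → ℂ}
    (hψ : IsIrrCharacter G ψ) (h1 : classInner (fun n : H => ψ n) a ≠ 0)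
    (h2 : classInner (fun n : H => ψ n) b = 0) :
    ∃ ξ, IsIrrCharacter G ξ ∧ ψ ≠ ξ ∧ indFun H (a - b) = ψ - ξ := by
  have hab : a ≠ b := fun h => h1 (h ▸ h2)
  obtain ⟨x, y, hx, hy, hxy, he⟩ := ((ha.isGen.sub hb.isGen).ind).exists_sub_of_norm_two (by
      rw [classInner_indFun_left _ (isClassFunction_indFun _),
        res_ind hT ha.isClassFunction hb.isClassFunction h, classInner_sub_left, classInner_sub_right,
        classInner_sub_right, ha.classInner_self, hb.classInner_self, ha.classInner_of_ne hb hab,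
        hb.classInner_of_ne ha hab.symm]
      norm_num) (by
      rw [indFun_apply_one, Pi.sub_apply, h 1 (by simp [(Fact.out : p.Prime).ne_one]), sub_self, mul_zero])
  have h3 := classInner_indFun_right (a - b) hψ.isClassFunction
  obtain ⟨k, hk⟩ := (hψ.isCharacter.restrict H).exists_nat_classInner ha.isCharacter
  rw [he, classInner_sub_right, classInner_sub_right, h2, hk, hψ.classInner_eq_ite hx,
    hψ.classInner_eq_ite hy] at h3
  have hk0 : k ≠ 0 := fun h0 => h1 (by rw [hk, h0]; simp)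
  have h4 : ψ = x := by
    by_contra h4
    rw [if_neg h4] at h3
    split_ifs at h3
    · have : ((k + 1 : ℕ) : ℂ) = 0 := by push_cast; linear_combination -h3
      exact absurd (Nat.cast_eq_zero.1 this) (by omega)
    · exact hk0 ((Nat.cast_eq_zero (R := ℂ)).1 (by linear_combination -h3))
  exact ⟨y, hy, h4 ▸ hxy, h4 ▸ he⟩

theorem small [Fact p.Prime] [Fintype P] [Fintype C[P]] (h : Lc p P)
    (hT : ∀ n : H, p ∣ orderOf n → ∀ g : G, g⁻¹ * n * g ∈ H → g ∈ H) {ψ : G → ℂ}
    (hψ : IsIrrCharacter G ψ) (hY : Y P fun n : H => ψ n) {D : ℕ}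
    (hD : ψ 1 = classInner (fun u : P => ψ u) (fun _ => 1) + D)
    (h1 : D + C[P].index + 1 < Nat.card P) (h2 : C[P].index ^ 2 + 1 < Nat.card P) :
    classInner (fun c : C[P] => ψ c) (fun _ => 1) = 0 := by
  classical
  haveI := h.nor
  haveI := h.nc
  set e := C[P].index with he
  have hψ1 : ψ ≠ fun _ => 1 := by
    rintro rfl
    obtain ⟨u, -, hu⟩ := hY
    exact hu rfl
  obtain ⟨m, hm, hs⟩ := (hψ.isCharacter.restrict H).exists_eq_sum_irr
  have zero : ∀ S : Finset (IrrCharacter H), (∀ θ ∈ S, Y P θ.1) → Nat.card P ≤ e * S.card + 1 →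
      1 < (S.filter fun θ => m θ = 0).card := fun S hS h3 => by
    have a1 := h.cnt hs hD (S.filter fun θ => ¬ m θ = 0) fun θ hθ =>
      ⟨hS θ (Finset.mem_filter.1 hθ).1, (Finset.mem_filter.1 hθ).2⟩
    have a2 := Finset.card_filter_add_card_filter_not (s := S) fun θ => m θ = 0
    rw [← he] at a1
    by_contra a3
    have : e * S.card ≤ e * ((S.filter fun θ => ¬ m θ = 0).card + 1) := Nat.mul_le_mul_left _ (by omega)
    rw [mul_add, mul_one] at this
    omega
  obtain ⟨θ, hθ0, hθY⟩ : ∃ θ : IrrCharacter H, m θ ≠ 0 ∧ Y P θ.1 := by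
    by_contra hc
    push Not at hc
    obtain ⟨u, hu, hne⟩ := hY
    apply hne
    rw [hs]
    simp only [Finset.sum_apply, Pi.smul_apply, smul_eq_mul]
    refine Finset.sum_congr rfl fun φ _ => ?_
    by_cases h0 : m φ = 0
    · simp [h0]
    · have := hc φ h0
      simp only [Y, not_exists, not_and, not_not] at this
      rw [this u hu]
  obtain ⟨φ, hφ, hθφ⟩ := h.eq_ind θ.2 hθY
  obtain ⟨S, hS, hSc⟩ := h.fam hφ
  rw [← hθφ] at hS
  obtain ⟨S0, hS0, hS0c⟩ := h.fam (isIrr_one (G := C[P]))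
  obtain ⟨l, hl⟩ := Finset.card_pos.1 (zero_lt_one.trans (zero S0 (fun θ hθ => (hS0 θ hθ).1) hS0c))
  obtain ⟨hl1, hl2⟩ := Finset.mem_filter.1 hl
  set Z := S.filter fun θ => m θ = 0 with hZ
  have pr : ∀ a b : IrrCharacter H, Eqv p a.1 θ.1 → b ∈ Z → m a ≠ 0 →
      ∃ ξ, IsIrrCharacter G ξ ∧ ψ ≠ ξ ∧ indFun H (a.1 - b.1) = ψ - ξ := fun a b ha hb h0 =>
    pair hT a.2 b.2 (fun n hn => (ha n hn).trans ((hS b (Finset.mem_filter.1 hb).1).2 n hn).symm) hψ
      (by rw [hm]; exact_mod_cast h0) (by rw [hm, (Finset.mem_filter.1 hb).2]; simp)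
  have io : ∀ a b : IrrCharacter H, a ≠ b → classInner a.1 b.1 = 0 := fun a b hab =>
    a.2.classInner_of_ne b.2 fun h => hab (Subtype.ext h)
  have hZc : e ≤ Z.card := by
    obtain ⟨z, hz, w, hw, hzw⟩ := Finset.one_lt_card.1 (zero S (fun θ hθ => (hS θ hθ).1) hSc)
    have a1 : (S.filter fun θ => ¬ m θ = 0).card ≤ 1 := by
      refine (Finset.card_le_card (t := {θ}) fun a ha => ?_).trans (by simp)
      obtain ⟨ha1, ha2⟩ := Finset.mem_filter.1 ha
      rw [Finset.mem_singleton]
      by_contra hne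
      obtain ⟨x, hx, hx1, hx2⟩ := pr a z (hS a ha1).2 hz ha2
      obtain ⟨y, hy, hy1, hy2⟩ := pr θ w (fun _ _ => rfl) hw hθ0
      have b1 := classInner_indFun_left (a.1 - z.1) (isClassFunction_indFun (H := H) (θ.1 - w.1))
      have z0 := (Finset.mem_filter.1 hz).2
      have w0 := (Finset.mem_filter.1 hw).2
      rw [res_ind hT θ.2.isClassFunction w.2.isClassFunction
        (fun n hn => ((hS w (Finset.mem_filter.1 hw).1).2 n hn).symm), hx2, hy2] at b1
      simp only [classInner_sub_left, classInner_sub_right] at b1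
      rw [io a θ hne, io a w (fun h => ha2 (h ▸ w0)), io z θ (fun h => hθ0 (h ▸ z0)), io z w hzw,
        hψ.classInner_self, hψ.classInner_of_ne hy hy1, hx.classInner_of_ne hψ hx1.symm,
        hx.classInner_eq_ite hy] at b1
      split_ifs at b1 <;> norm_num at b1
    have a2 := Finset.card_filter_add_card_filter_not (s := S) fun θ => m θ = 0
    have a3 : e < S.card := by
      by_contra a3
      have := Nat.mul_le_mul_left e (not_lt.1 a3)
      nlinarith
    rw [← hZ] at a2
    omega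
  set β := indFun C[P] fun _ => (1 : ℂ) with hβ
  have hβc : IsCharacter H β := isCharacter_one.ind
  have hβY : ∀ a : IrrCharacter H, Y P a.1 → classInner β a.1 = 0 := fun a ha => by
    rw [hβ, classInner_indFun_left _ a.2.isClassFunction, classInner_eq_zero_comm]
    exact ha.triv h.le a.2
  have hlE : Eqv p β l.1 := fun n hn => ((hS0 l hl1).2 n hn).symm
  obtain ⟨n, hn, hη, hnorm⟩ := ((hβc.isGen.sub l.2.isGen).ind).exists_eq_sum_irr
  have hββ : classInner β β = e := by
    rw [hβ, classInner_indFun_left _ (isClassFunction_indFun _),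
      restrict_indFun_of_invariant (fun _ => rfl), classInner_smul_right, isIrr_one.classInner_self]
    simp [he]
  rw [classInner_indFun_left _ (isClassFunction_indFun _),
    res_ind hT hβc.isClassFunction l.2.isClassFunction hlE, classInner_sub_left, classInner_sub_right,
    classInner_sub_right, hββ, hβY l (hS0 l hl1).1, classInner_eq_zero_comm.1 (hβY l (hS0 l hl1).1),
    l.2.classInner_self] at hnorm
  have hnorm' : ∑ φ, n φ ^ 2 = e + 1 := by
    rw [← Int.cast_inj (α := ℂ), ← hnorm]; push_cast; ring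
  obtain ⟨γ, hγ⟩ := ((hψ.isCharacter.restrict H).restrict C[P]).exists_nat_classInner isCharacter_one
  rw [hγ]
  by_contra hγ0
  have hγ1 : 0 < γ := Nat.pos_of_ne_zero fun h => hγ0 (by simp [h])
  have nψ : classInner (indFun H (β - l.1)) ψ = γ := by
    rw [classInner_indFun_left _ hψ.isClassFunction, classInner_sub_left, hβ,
      classInner_indFun_left _ (hψ.isClassFunction.restrict H), ← conj_classInner, hγ,
      ← conj_classInner, hm, hl2]
    simp
  have n1 : n ⟨_, isIrr_one⟩ = 1 := by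
    have := hn ⟨_, isIrr_one⟩
    rw [classInner_indFun_left _ (isClassFunction_const 1), classInner_sub_left, hβ,
      classInner_indFun_left _ (isClassFunction_const 1), isIrr_one.classInner_self,
      l.2.classInner_of_ne isIrr_one (fun h => by
        obtain ⟨u, -, hu⟩ := (hS0 l hl1).1
        rw [h] at hu; exact hu rfl), sub_zero] at this
    exact_mod_cast this.symm
  choose! ξ hξ1 hξ2 hξ3 using fun b hb => pr θ b (fun _ _ => rfl) hb hθ0
  have hres : ∀ z ∈ Z, (fun x : H => (ψ - ξ z) x) = θ.1 - z.1 := fun z hz => by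
    rw [← hξ3 z hz]
    exact res_ind hT θ.2.isClassFunction z.2.isClassFunction
      fun n hn => ((hS z (Finset.mem_filter.1 hz).1).2 n hn).symm
  obtain ⟨x0, hx0⟩ : ∃ x : IrrCharacter G, n x < 0 := by
    by_contra hc
    push Not at hc
    have a1 := congrFun hη 1
    rw [indFun_apply_one, Pi.sub_apply, hlE 1 (by simp [(Fact.out : p.Prime).ne_one]), sub_self,
      mul_zero] at a1
    simp only [Finset.sum_apply, Pi.smul_apply, smul_eq_mul] at a1
    have a2 : (0 : ℤ) = ∑ φ : IrrCharacter G, n φ * charDegree φ.1 := by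
      rw [← Int.cast_inj (α := ℂ)]
      push_cast
      rw [a1]
      exact Finset.sum_congr rfl fun φ _ => by rw [coe_charDegree φ.2.isCharacter]
    have a3 := Finset.single_le_sum (f := fun φ : IrrCharacter G => n φ * charDegree φ.1)
      (fun φ _ => mul_nonneg (hc φ) (Int.natCast_nonneg _)) (Finset.mem_univ ⟨_, isIrr_one⟩)
    have a4 := charDegree_pos (isIrr_one (G := G))
    simp only [n1, ← a2] at a3
    omega
  let F : Z.erase l → IrrCharacter G := fun z => ⟨ξ z, hξ1 _ (Finset.mem_of_mem_erase z.2)⟩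
  have hF : Function.Injective F := fun z w hzw => by
    have a1 : ξ z = ξ w := congrArg Subtype.val hzw
    have a2 := hres z (Finset.mem_of_mem_erase z.2)
    rw [a1, hres w (Finset.mem_of_mem_erase w.2), sub_right_inj] at a2
    exact Subtype.ext (Subtype.ext a2.symm)
  have nF : ∀ z, n (F z) = γ := fun z => by
    have hz := Finset.mem_of_mem_erase z.2
    have a1 := classInner_indFun_left (β - l.1) (hψ.isClassFunction.sub (F z).2.isClassFunction)
    rw [hres z hz, classInner_sub_right, nψ, hn] at a1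
    simp only [classInner_sub_left, classInner_sub_right] at a1
    rw [hβY θ hθY, hβY z (hS z (Finset.mem_filter.1 hz).1).1, io l θ (fun h => hθ0 (h ▸ hl2)),
      io l z (Finset.ne_of_mem_erase z.2).symm] at a1
    have : ((n (F z) : ℤ) : ℂ) = ((γ : ℤ) : ℂ) := by push_cast; linear_combination -a1
    exact_mod_cast this
  have nψ' : n ⟨ψ, hψ⟩ = γ := by
    have := hn ⟨ψ, hψ⟩
    rw [nψ] at this
    exact_mod_cast this.symm
  have F1 : ∀ z, F z ≠ ⟨_, isIrr_one⟩ := fun z hz1 => by
    have hz := Finset.mem_of_mem_erase z.2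
    have a0 : ξ z = fun _ => 1 := congrArg Subtype.val hz1
    have a1 := classInner_indFun_left (θ.1 - z.1.1) (isClassFunction_const (G := G) 1)
    have ne1 : ∀ a : IrrCharacter H, Y P a.1 → classInner a.1 (fun _ => 1) = 0 := fun a ha =>
      a.2.classInner_of_ne isIrr_one fun h => by
        obtain ⟨u, -, hu⟩ := ha
        rw [h] at hu; exact hu rfl
    rw [hξ3 z hz, a0, classInner_sub_left, classInner_sub_left, isIrr_one.classInner_self,
      hψ.classInner_of_ne isIrr_one hψ1, ne1 θ hθY, ne1 z (hS z (Finset.mem_filter.1 hz).1).1] at a1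
    norm_num at a1
  set T : Finset (IrrCharacter G) :=
    insert x0 (insert ⟨_, isIrr_one⟩ (insert ⟨ψ, hψ⟩ (Finset.univ.image F))) with hTd
  have hTc : T.card = (Z.erase l).card + 3 := by
    rw [hTd, Finset.card_insert_of_notMem, Finset.card_insert_of_notMem, Finset.card_insert_of_notMem,
      Finset.card_image_of_injective _ hF]
    · simp
    · simp only [Finset.mem_image, Finset.mem_univ, true_and, not_exists]
      exact fun z hz => hξ2 z (Finset.mem_of_mem_erase z.2) (congrArg Subtype.val hz).symm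
    · simp only [Finset.mem_insert, Finset.mem_image, Finset.mem_univ, true_and, not_or, not_exists]
      exact ⟨fun h => hψ1 (congrArg Subtype.val h).symm, F1⟩
    · simp only [Finset.mem_insert, Finset.mem_image, Finset.mem_univ, true_and, not_or, not_exists]
      refine ⟨?_, ?_, fun z => ?_⟩
      · rintro rfl; omega
      · rintro rfl; omega
      · rintro rfl; have := nF z; omega
  have a1 : (T.card : ℤ) ≤ ∑ φ, n φ ^ 2 := by
    refine le_trans ?_ (Finset.sum_le_sum_of_subset_of_nonneg (Finset.subset_univ T)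
      fun _ _ _ => sq_nonneg _)
    rw [Finset.card_eq_sum_ones]
    push_cast
    refine Finset.sum_le_sum fun x hx => ?_
    have : n x ≠ 0 := by
      simp only [hTd, Finset.mem_insert, Finset.mem_image, Finset.mem_univ, true_and] at hx
      rcases hx with rfl | rfl | rfl | ⟨z, rfl⟩
      · omega
      · omega
      · omega
      · have := nF z; omega
    have := sq_pos_of_ne_zero this
    omega
  have a2 := Finset.pred_card_le_card_erase (s := Z) (a := l)
  omega

theorem core [Fact p.Prime] (h : Lc p P)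
    (hT : ∀ n : H, p ∣ orderOf n → ∀ g : G, g⁻¹ * n * g ∈ H → g ∈ H)
    (hg : ∀ K : Subgroup G, K.Normal → (∀ u ∈ P, (u : G) ∈ K) → K = ⊤) {χ : G → ℂ}
    (hχ : IsIrrCharacter G χ) (h1 : χ ≠ fun _ => 1) (hd : charDegree χ ^ 2 + 1 < Nat.card P) :
    C[P] = ⊤ ∧ charDegree χ = 1 := by
  classical
  haveI := h.nor
  haveI := h.nc
  haveI := Fintype.ofFinite P
  haveI := Fintype.ofFinite C[P]
  have hY : ∀ ψ, IsIrrCharacter G ψ → (ψ ≠ fun _ => 1) → Y P fun n : H => ψ n := fun ψ hψ h1 => by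
    by_contra hc
    simp only [Y, not_exists, not_and, not_not] at hc
    exact hψ.charKer_ne_top h1 (hg _ hψ.isCharacter.charKer_normal fun u hu =>
      hψ.isCharacter.mem_charKer.2 (hc u hu))
  have hr := hχ.isCharacter.restrict H
  obtain ⟨m, hm, hs⟩ := hr.exists_eq_sum_irr
  obtain ⟨θ, hθ0, hθY⟩ : ∃ θ : IrrCharacter H, m θ ≠ 0 ∧ Y P θ.1 := by
    by_contra hc
    push Not at hc
    obtain ⟨u, hu, hne⟩ := hY χ hχ h1
    apply hne
    rw [hs]
    simp only [Finset.sum_apply, Pi.smul_apply, smul_eq_mul]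
    refine Finset.sum_congr rfl fun φ _ => ?_
    by_cases h0 : m φ = 0
    · simp [h0]
    · have := hc φ h0
      simp only [Y, not_exists, not_and, not_not] at this
      rw [this u hu]
  have hθ1 : classInner (fun n : H => χ n) θ.1 ≠ 0 := by rw [hm]; exact_mod_cast hθ0
  have he : C[P].index ≤ charDegree χ := (h.deg θ.2 hθY).trans (deg_le_of_under θ.2 hχ.isCharacter hθ1)
  have hrC := hr.restrict C[P]
  have hθC := θ.2.isCharacter.restrict C[P]
  obtain ⟨a, ha⟩ := hrC.exists_nat_classInner hrC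
  obtain ⟨b, hb⟩ := hrC.exists_nat_classInner hθC
  have hsub : IsCharacter C[P] ((fun c : C[P] => χ c) - fun c : C[P] => θ.1 c) :=
    (hr.sub_of_constituent θ.2 hθ1).restrict C[P]
  have hea : C[P].index ≤ a := (nat_le_of_sub_isCharacter hsub hθC (h.norm θ.2 hθY) hb).trans
    (nat_le_of_sub_isCharacter hsub hrC (by rw [hθC.classInner_comm hrC, hb]) ha)
  set w := χ * fun g => conj (χ g) with hw
  have hwc : IsCharacter G w := hχ.isCharacter.mul hχ.isCharacter.conj
  have hw1 : w 1 = (charDegree χ ^ 2 : ℕ) := by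
    simp [hw, conj_apply_one hχ.isCharacter, coe_charDegree hχ.isCharacter, sq]
  have haC : classInner (fun c : C[P] => w c) (fun _ => 1) = a := (norm_eq_triv _).trans ha
  obtain ⟨d, hd1⟩ := triv_comp ((hwc.restrict H).restrict C[P]) (Subgroup.inclusion h.le)
  rw [haC] at hd1
  obtain ⟨k, hk, hks⟩ := hwc.exists_eq_sum_irr
  have ha1 : a = 1 := by
    have a1 : (fun c : C[P] => w c) = ∑ φ : IrrCharacter G, (k φ : ℂ) • fun c : C[P] => φ.1 c := by
      ext u; rw [hks]; simp
    rw [a1, classInner_sum_left, Finset.sum_eq_single ⟨_, isIrr_one⟩, classInner_smul_left,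
      isIrr_one.classInner_self, ← hk, mul_one, hw, norm_eq_triv, hχ.classInner_self] at haC
    · exact_mod_cast haC.symm
    · intro φ _ hφ
      rw [classInner_smul_left]
      by_cases h0 : k φ = 0
      · simp [h0]
      have b1 := hwc.sub_of_constituent φ.2 (by rw [hk]; exact_mod_cast h0)
      obtain ⟨D, hD⟩ := triv_deg ((φ.2.isCharacter.restrict H).restrict P)
      obtain ⟨D', hD'⟩ := triv_deg ((b1.restrict H).restrict P)
      have b2 : (fun u : P => (w - φ.1) u) = (fun u : P => w u) - fun u : P => φ.1 u := rfl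
      have b3 : classInner (fun u : P => w u) (fun _ => 1) = a + d := hd1
      simp only [OneMemClass.coe_one] at hD hD'
      rw [b2, classInner_sub_left, b3, Pi.sub_apply, hw1, hD] at hD'
      have b4 : charDegree χ ^ 2 = a + d + D' + D := by
        rw [← Nat.cast_inj (R := ℂ)]; push_cast at hD' ⊢; linear_combination hD'
      rw [small h hT φ.2 (hY _ φ.2 fun h => hφ (Subtype.ext h)) hD (by omega)
        (lt_of_le_of_lt (Nat.add_le_add_right (Nat.pow_le_pow_left he 2) 1) hd), mul_zero]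
    · simp
  have hC : C[P] = ⊤ := Subgroup.index_eq_one.1
    (le_antisymm (ha1 ▸ hea) (Nat.pos_of_ne_zero Subgroup.index_ne_zero_of_finite))
  refine ⟨hC, ?_⟩
  have hirr := hrC.isIrr_of_inner_eq_one (by rw [ha, ha1, Nat.cast_one])
  have hZ := hg _ hχ.isCharacter.charCenter_normal fun u hu =>
    hχ.isCharacter.mem_charCenter.2 (hirr.norm_apply_of_mem_center (h.central hu))
  have a1 := classInner_self_re χ
  rw [hχ.classInner_self, Finset.sum_congr rfl fun g _ => by
    rw [hχ.isCharacter.mem_charCenter.1 (hZ ▸ Subgroup.mem_top g), norm_one_eq hχ.isCharacter]] at a1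
  simp only [Complex.one_re, Finset.sum_const, Finset.card_univ, nsmul_eq_mul,
    ← Nat.card_eq_fintype_card] at a1
  rw [← mul_assoc, inv_mul_cancel₀ (by exact_mod_cast Nat.card_pos.ne'), one_mul] at a1
  have a2 : 1 = charDegree χ ^ 2 := by exact_mod_cast a1
  exact (Nat.pow_eq_one.1 a2.symm).resolve_right two_ne_zero

theorem main {G : Type*} [Group G] [Finite G] [Fact p.Prime] (P : Sylow p G)
    (hs : ∀ x ∈ (P : Subgroup G), x ≠ 1 →
      Subgroup.centralizer ({x} : Set G) = Subgroup.centralizer ((P : Subgroup G) : Set G))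
    (hg : ∀ K : Subgroup G, K.Normal → (P : Subgroup G) ≤ K → K = ⊤) {χ : G → ℂ}
    (hχ : IsIrrCharacter G χ) (h1 : χ ≠ fun _ => 1) (hd : charDegree χ ^ 2 + 1 < Nat.card P) :
    Subgroup.normalizer ((P : Subgroup G) : Set G) ≤ Subgroup.centralizer ((P : Subgroup G) : Set G) ∧
      charDegree χ = 1 := by
  haveI := Fintype.ofFinite G
  set H := Subgroup.normalizer ((P : Subgroup G) : Set G) with hH
  haveI := Fintype.ofFinite H
  have hle : (P : Subgroup G) ≤ H := Subgroup.le_normalizer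
  have hcen : ∀ g : H, g ∈ C[(P : Subgroup G).subgroupOf H] ↔
      (g : G) ∈ Subgroup.centralizer ((P : Subgroup G) : Set G) := fun g =>
    ⟨fun h u hu => congrArg Subtype.val (h ⟨u, hle hu⟩ hu), fun h u hu => Subtype.ext (h u hu)⟩
  have hL : Lc p ((P : Subgroup G).subgroupOf H) :=
    { nor := Subgroup.normal_in_normalizer
      pg := P.isPGroup'.comap_subtype
      idx := fun h => P.not_dvd_index (h.trans (Subgroup.relIndex_dvd_index_of_le hle))
      cen := fun x hx h1 => by
        ext g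
        rw [hcen, ← hs x hx fun h => h1 (Subtype.ext h), Subgroup.mem_centralizer_singleton_iff,
          Subgroup.mem_centralizer_singleton_iff, Subtype.ext_iff]
        rfl }
  have hpP : ∀ x ∈ H, orderOf x = p → x ∈ (P : Subgroup G) := fun x hx ho => by
    haveI := hL.nor
    have : orderOf (⟨x, hx⟩ : H) = p := by rw [← Subgroup.orderOf_coe]; exact ho
    obtain ⟨g, hg⟩ := Jor.exists_conj_mem Fact.out hL.idx this
    have := hL.nor.conj_mem _ hg g⁻¹
    simpa [mul_assoc, Subgroup.mem_subgroupOf] using this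
  have hab : (P : Subgroup G) ≤ Subgroup.centralizer ((P : Subgroup G) : Set G) := fun u hu =>
    (hcen ⟨u, hle hu⟩).1 (hL.le hu)
  obtain ⟨a, b⟩ := core (H := H) hL (fun n hn g hgn => by
      rw [← Subgroup.orderOf_coe] at hn
      set x := (n : G) ^ (orderOf (n : G) / p) with hx
      have x1 : orderOf x = p := orderOf_pow_orderOf_div (orderOf_pos _).ne' hn
      have x2 : x ∈ (P : Subgroup G) := hpP x (pow_mem n.2 _) x1
      have x3 : g⁻¹ * x * g ∈ (P : Subgroup G) := hpP _ (by
        have := pow_mem hgn (orderOf (n : G) / p)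
        rwa [show g⁻¹ * n * g = g⁻¹ * n * g⁻¹⁻¹ by simp, conj_pow, inv_inv] at this) (by
        rw [← x1]; simpa using (MulAut.conj g⁻¹).orderOf_eq x)
      have x4 : x ≠ 1 := by
        rintro h; rw [h, orderOf_one] at x1; exact (Fact.out : p.Prime).one_lt.ne x1
      have x5 : g⁻¹ * x * g ≠ 1 := fun h => x4 (by
        calc x = g * (g⁻¹ * x * g) * g⁻¹ := by group
          _ = 1 := by rw [h]; group)
      have key : ∀ (g x : G), x ∈ (P : Subgroup G) → x ≠ 1 → g⁻¹ * x * g ∈ (P : Subgroup G) →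
          g⁻¹ * x * g ≠ 1 → ∀ u ∈ (P : Subgroup G), g * u * g⁻¹ ∈ H := fun g x x2 x4 x3 x5 u hu => by
        apply Subgroup.centralizer_le_normalizer
        rw [← hs x x2 x4, Subgroup.mem_centralizer_singleton_iff]
        have := hab hu _ x3
        calc g * u * g⁻¹ * x = g * (u * (g⁻¹ * x * g)) * g⁻¹ := by group
          _ = _ := by rw [← this]; group
      have k1 := key g x x2 x4 x3 x5
      have hN : ∀ y ∈ H, (∃ k, y ^ p ^ k = 1) → y ∈ (P : Subgroup G) := fun y hy ⟨k, hk⟩ => by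
        haveI := hL.nor
        have a1 : orderOf ((⟨y, hy⟩ : H) : H ⧸ (P : Subgroup G).subgroupOf H) ∣ p ^ k :=
          orderOf_dvd_of_pow_eq_one (by
            rw [← QuotientGroup.mk_pow, show (⟨y, hy⟩ : H) ^ p ^ k = 1 from Subtype.ext hk]; rfl)
        have a2 := Nat.eq_one_of_dvd_coprimes (Nat.Coprime.pow_left _
          ((Nat.Prime.coprime_iff_not_dvd Fact.out).2 hL.idx)) a1 (orderOf_dvd_natCard _)
        rw [orderOf_eq_one_iff, QuotientGroup.eq_one_iff] at a2
        exact a2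
      refine Subgroup.mem_normalizer_fintype fun u hu => hN _ (k1 u hu) ?_
      obtain ⟨k, hk⟩ := P.isPGroup' ⟨u, hu⟩
      exact ⟨k, by rw [conj_pow, show u ^ p ^ k = 1 from congrArg Subtype.val hk]; simp⟩)
    (fun K hK h => hg K hK fun u hu => h ⟨u, hle hu⟩ hu) hχ h1
    (by rwa [Nat.card_congr (Subgroup.subgroupOfEquivOfLe hle).toEquiv])
  exact ⟨fun g hg => (hcen ⟨g, hg⟩).1 (a ▸ Subgroup.mem_top _), b⟩

universe u in
theorem normal_of_faithful [Fact p.Prime] : ∀ (n : ℕ) (G : Type u) [Group G] [Finite G] (P : Sylow p G),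
    Nat.card G = n → (∀ x ∈ (P : Subgroup G), x ≠ 1 →
      Subgroup.centralizer ({x} : Set G) = Subgroup.centralizer ((P : Subgroup G) : Set G)) →
    ∀ χ : G → ℂ, IsCharacter G χ → (∀ g : G, χ g = χ 1 → g = 1) → charDegree χ ^ 2 + 1 < Nat.card P →
      (P : Subgroup G).Normal := by
  intro n
  induction n using Nat.strong_induction_on with
  | _ n ih =>
  intro G _ _ P hn hs χ hχ hf hd
  by_cases hg : ∀ K : Subgroup G, K.Normal → (P : Subgroup G) ≤ K → K = ⊤
  · haveI := Fintype.ofFinite G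
    obtain ⟨m, hm, he⟩ := hχ.exists_eq_sum_irr
    have hc : ∀ g ∈ commutator G, g = 1 := fun g hg' => hf g (by
      rw [he]
      simp only [Finset.sum_apply, Pi.smul_apply, smul_eq_mul]
      refine Finset.sum_congr rfl fun φ _ => ?_
      by_cases h0 : m φ = 0
      · simp [h0]
      by_cases h1 : φ.1 = fun _ => 1
      · rw [h1]
      have a1 : charDegree φ.1 ≤ charDegree χ := hχ.degree_le_of_constituent φ.2
        (by rw [hm]; exact_mod_cast h0) (coe_charDegree φ.2.isCharacter).symm (coe_charDegree hχ).symm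
      have a2 := (main P hs hg φ.2 h1
        (lt_of_le_of_lt (Nat.add_le_add_right (Nat.pow_le_pow_left a1 2) 1) hd)).2
      rw [charDegree_eq_one φ.2.isCharacter] at a2
      rw [lin_comm φ.2.isCharacter a2 hg', a2])
    refine ⟨fun u hu g => ?_⟩
    have := hc _ (Subgroup.commutator_mem_commutator (Subgroup.mem_top g) (Subgroup.mem_top u))
    rw [commutatorElement_def, mul_inv_eq_one] at this
    rwa [this]
  push Not at hg
  obtain ⟨K, hK, hPK, hne⟩ := hg
  have h1 := ih _ (hn ▸ (K.card_le_card_group.lt_of_ne fun h => hne (Subgroup.eq_top_of_card_eq _ h))) K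
    (P.subtype hPK) rfl (fun x hx h1 => by
      ext g
      have := hs x hx fun h => h1 (Subtype.ext h)
      rw [Subgroup.mem_centralizer_singleton_iff, Subtype.ext_iff]
      refine (Subgroup.mem_centralizer_singleton_iff (g := (x : G)) (k := (g : G))).symm.trans ?_
      rw [this]
      exact ⟨fun h u hu => Subtype.ext (h u hu), fun h u hu => congrArg Subtype.val (h ⟨u, hPK hu⟩ hu)⟩)
    _ (hχ.restrict K) (fun g hg => Subtype.ext (hf g hg))
    (by rwa [Sylow.coe_subtype, Nat.card_congr (Subgroup.subgroupOfEquivOfLe hPK).toEquiv])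
  haveI := Sylow.characteristic_of_normal _ h1
  have := (ConjAct.normal_of_characteristic_of_normal :
    (((P.subtype hPK : Sylow p K) : Subgroup K).map K.subtype).Normal)
  rwa [Sylow.coe_subtype, Subgroup.subgroupOf_map_subtype, inf_eq_left.2 hPK] at this

end CfsgH4.BL
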