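import Cfsg.Agent.H4.Jor
import Cfsg.Agent.H4.BT

/-! Blichfeldt's sixty degree theorem for simple groups (Robinson's proof). -/

set_option autoImplicit false
open Cfsg CfsgH3 Module
open scoped ComplexConjugate InnerProductSpace

namespace CfsgH4.Jor

variable {G : Type*} [Group G] [Finite G]
variable {W : Type*} [NormedAddCommGroup W] [InnerProductSpace ℂ W] {σ : Representation ℂ G W}

theorem rob [FiniteDimensional ℂ W] [IsSimpleGroup G] (h : Uni σ) (irr : σ.IsIrreducible) {y : G}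
    (hy : y ≠ 1) {a : ℂ} {r : ℝ} (hr : r < 1) (hb : Bd σ y a r) (ha : ‖a‖ = 1) {v : W} (hv : v ≠ 0)
    (e : σ y v = a • v) (w : W) : σ y w = a • w := by
  haveI := FiniteDimensional.proper_rclike ℂ W
  let U : Set G → Submodule ℂ W := fun A => ⨅ g ∈ A, End.eigenspace (σ (g * y * g⁻¹)) a
  have mU : ∀ {A w}, w ∈ U A ↔ ∀ g ∈ A, σ (g * y * g⁻¹) w = a • w := by
    simp [U, End.mem_eigenspace_iff, -map_mul]
  have tU : ∀ t {A w}, w ∈ U A → σ t w ∈ U ((t * ·) '' A) := fun t A w hw => mU.2 (by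
    rintro _ ⟨g, hg, rfl⟩
    rw [← map_smul, ← mU.1 hw g hg, ← End.mul_apply, ← End.mul_apply, ← map_mul, ← map_mul]
    congr 2; group)
  obtain ⟨S, hS, mx⟩ := Set.exists_max_image {A | U A ≠ ⊥} Set.ncard (Set.toFinite _)
    ⟨{1}, (Submodule.ne_bot_iff _).2 ⟨v, mU.2 (by simpa using e), hv⟩⟩
  let F := {A | U A ≠ ⊥ ∧ A.ncard = S.ncard}
  have tF : ∀ t, ∀ A ∈ F, (t * ·) '' A ∈ F := fun t A ⟨h1, h2⟩ => by
    obtain ⟨w, a1, a2⟩ := (Submodule.ne_bot_iff _).1 h1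
    exact ⟨(Submodule.ne_bot_iff _).2 ⟨_, tU t a1, by rwa [← norm_ne_zero_iff, h.norm,
      norm_ne_zero_iff]⟩, by rwa [Set.ncard_image_of_injective _ (mul_right_injective t)]⟩
  have dj : ∀ A ∈ F, ∀ B ∈ F, ∀ w ∈ U A, w ∈ U B → A ≠ B → w = 0 :=
    fun A hA B hB w a1 a2 a3 => by_contra fun a4 => by
    have := mx (A ∪ B) ((Submodule.ne_bot_iff _).2 ⟨w, mU.2 fun g hg =>
      hg.elim (mU.1 a1 g) (mU.1 a2 g), a4⟩)
    exact a3 ((Set.eq_of_subset_of_ncard_le Set.subset_union_left (this.trans hA.2.ge)).trans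
      (Set.eq_of_subset_of_ncard_le Set.subset_union_right (this.trans hB.2.ge)).symm)
  let K : Set (W × W) := (Metric.sphere 0 1 ×ˢ Metric.sphere 0 1) ∩
    ⋃ x : {x : Set G × Set G // x.1 ∈ F ∧ x.2 ∈ F ∧ x.1 ≠ x.2}, (U x.1.1 : Set W) ×ˢ (U x.1.2 : Set W)
  have mK : ∀ {u w}, (u, w) ∈ K ↔ ‖u‖ = 1 ∧ ‖w‖ = 1 ∧ ∃ A ∈ F, ∃ B ∈ F, A ≠ B ∧ u ∈ U A ∧ w ∈ U B := by
    intro u w
    simp only [K, Set.mem_inter_iff, Set.mem_prod, mem_sphere_zero_iff_norm, Set.mem_iUnion,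
      Subtype.exists, Prod.exists, SetLike.mem_coe, and_assoc, exists_prop]
    exact and_congr_right fun _ => and_congr_right fun _ => ⟨fun ⟨A, B, a, b, c, d⟩ =>
      ⟨A, a, B, b, c, d⟩, fun ⟨A, a, B, b, c, d⟩ => ⟨A, B, a, b, c, d⟩⟩
  have cK : IsCompact K := ((isCompact_sphere _ _).prod (isCompact_sphere _ _)).inter_right
    (isClosed_iUnion_of_finite fun x => (Submodule.closed_of_finiteDimensional _).prod
      (Submodule.closed_of_finiteDimensional _))
  have k1 : ∀ g, ∀ B ∈ F, ∀ w ∈ U B, ‖w‖ = 1 → (g * y * g⁻¹ * ·) '' B ≠ B →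
      (σ (g * y * g⁻¹) w, a • w) ∈ K := fun g B hB w a1 a2 a3 =>
    mK.2 ⟨by rwa [h.norm], by rw [norm_smul, ha, a2, one_mul], _, tF _ B hB, B, hB, a3, tU _ a1,
      (U B).smul_mem _ a1⟩
  have key : ∀ x ∈ K, 1 ≤ ‖x.1 - x.2‖ := fun x hx => by
    obtain ⟨⟨u, w⟩, a1, a2⟩ := cK.exists_isMinOn ⟨x, hx⟩
      (f := fun x => ‖x.1 - x.2‖) (by fun_prop)
    refine le_trans ?_ (a2 hx)
    obtain ⟨b1, b2, A, hA, B, hB, b3, b4, b5⟩ := mK.1 a1
    have b6 : 0 < ‖u - w‖ := norm_pos_iff.2 (sub_ne_zero.2 fun e => by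
      rw [dj A hA B hB u b4 (e ▸ b5) b3, norm_zero] at b1; exact zero_ne_one b1)
    have b7 : ∀ g ∈ A, (g * y * g⁻¹ * ·) '' B = B := fun g hg => by_contra fun c => by
      have c1 : ‖u - w‖ ≤ ‖σ (g * y * g⁻¹) w - a • w‖ := a2 (k1 g B hB w b5 b2 c)
      have c2 := hb.conj h g (u - w)
      rw [map_sub, mU.1 b4 g hg, smul_sub, sub_sub_sub_cancel_left, norm_sub_rev] at c2
      nlinarith
    have b8 : (U B).starProjection u ∈ U A := mU.2 fun g hg => by
      rw [← map_smul, ← mU.1 b4 g hg]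
      refine (Submodule.eq_starProjection_of_mem_of_inner_eq_zero ((congrArg U (b7 g hg)).le (tU _
        ((U B).starProjection_apply_mem u))) fun z hz => ?_).symm
      have c1 := tU (g * y * g⁻¹)⁻¹ ((congrArg U (b7 g hg)).ge hz)
      simp only [Set.image_image, inv_mul_cancel_left, Set.image_id'] at c1
      rw [← map_sub, ← h (g * y * g⁻¹)⁻¹, ← End.mul_apply, ← map_mul, inv_mul_cancel, map_one,
        End.one_apply]
      exact Submodule.starProjection_inner_eq_zero u _ c1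
    have b9 := Submodule.starProjection_inner_eq_zero u _ b5
    rw [dj A hA B hB _ b8 ((U B).starProjection_apply_mem u) b3, sub_zero] at b9
    have := @norm_sub_sq ℂ _ _ _ _ u w
    rw [b9, b1, b2, map_zero] at this
    change 1 ≤ ‖u - w‖
    nlinarith
  let N : Subgroup G :=
    { carrier := {t | ∀ g, ∀ B ∈ F, (g * t * g⁻¹ * ·) '' B = B}
      mul_mem' := fun {s t} hs ht g B hB => by
        conv_rhs => rw [← hs g B hB, ← ht g B hB, Set.image_image]
        simp [mul_assoc]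
      one_mem' := fun g B hB => by simp
      inv_mem' := fun {t} ht g B hB => by
        conv_lhs => rw [← ht g B hB, Set.image_image]
        simp [mul_assoc] }
  have hN : N.Normal := ⟨fun t ht k g B hB => by simpa [mul_assoc] using ht (g * k) B hB⟩
  have yN : y ∈ N := fun g B hB => by_contra fun c => by
    obtain ⟨w, a1, a2⟩ := (Submodule.ne_bot_iff _).1 hB.1
    have a3 : ‖(‖w‖⁻¹ : ℂ) • w‖ = 1 := norm_smul_inv_norm a2
    have a4 := (key _ (k1 g B hB _ ((U B).smul_mem _ a1) a3 c)).trans (hb.conj h g _)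
    rw [a3] at a4
    linarith
  have hT := (hN.eq_bot_or_eq_top.resolve_left fun c => hy (Subgroup.mem_bot.1 (c ▸ yN)))
  have tS : ∀ t, (t * ·) '' S = S := fun t => by
    simpa using (hT.ge (Subgroup.mem_top t) : t ∈ N) 1 S ⟨hS, rfl⟩
  obtain ⟨s, hs⟩ : S.Nonempty := Set.nonempty_of_ncard_ne_zero (by
    have := mx {1} ((Submodule.ne_bot_iff _).2 ⟨v, mU.2 (by simpa using e), hv⟩)
    rw [Set.ncard_singleton] at this; omega)
  have := (irr.eq_bot_or_eq_top ⟨U S, fun t w hw => tS t ▸ tU t hw⟩).resolve_left fun c =>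
    hS (congrArg Subrepresentation.toSubmodule c)
  simpa using mU.1 (show w ∈ U S from (congrArg Subrepresentation.toSubmodule this).ge trivial) 1
    (tS s⁻¹ ▸ ⟨s, hs, inv_mul_cancel s⟩)

theorem box6 {z w : ℂ} (hz : ‖z‖ = 1) (hw : ‖w‖ = 1)
    (h : ⌊3 * (Real.pi - z.arg) / Real.pi⌋₊ = ⌊3 * (Real.pi - w.arg) / Real.pi⌋₊) :
    ‖z - w‖ < 1 := by
  have hp := Real.pi_pos
  have a1 : 0 ≤ 3 * (Real.pi - z.arg) / Real.pi := by
    have := Complex.arg_le_pi z; positivity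
  have a2 : 0 ≤ 3 * (Real.pi - w.arg) / Real.pi := by
    have := Complex.arg_le_pi w; positivity
  have b1 := Nat.floor_le a1
  have b2 := Nat.floor_le a2
  have c1 := Nat.lt_floor_add_one (3 * (Real.pi - z.arg) / Real.pi)
  have c2 := Nat.lt_floor_add_one (3 * (Real.pi - w.arg) / Real.pi)
  rw [h] at b1 c1
  have d1 : 3 * (Real.pi - z.arg) / Real.pi < 3 * (Real.pi - w.arg) / Real.pi + 1 := by linarith
  have d2 : 3 * (Real.pi - w.arg) / Real.pi < 3 * (Real.pi - z.arg) / Real.pi + 1 := by linarith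
  rw [div_add_one hp.ne', div_lt_div_iff_of_pos_right hp] at d1 d2
  have e1 : |w.arg - z.arg| < Real.pi / 3 := abs_lt.2 ⟨by linarith, by linarith⟩
  have e2 : 1 / 2 < Real.cos (w.arg - z.arg) := by
    rw [← Real.cos_abs, ← Real.cos_pi_div_three]
    exact Real.cos_lt_cos_of_nonneg_of_le_pi (abs_nonneg _) (by linarith) e1
  have f1 := Complex.cos_arg (norm_ne_zero_iff.1 (hz.trans_ne one_ne_zero))
  have f2 := Complex.cos_arg (norm_ne_zero_iff.1 (hw.trans_ne one_ne_zero))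
  have f3 := Complex.sin_arg z
  have f4 := Complex.sin_arg w
  rw [hz, div_one] at f1 f3
  rw [hw, div_one] at f2 f4
  rw [Real.cos_sub, f1, f2, f3, f4] at e2
  have g1 : z.re ^ 2 + z.im ^ 2 = 1 := by
    have := Complex.sq_norm z; rw [hz, Complex.normSq_apply] at this; nlinarith
  have g2 : w.re ^ 2 + w.im ^ 2 = 1 := by
    have := Complex.sq_norm w; rw [hw, Complex.normSq_apply] at this; nlinarith
  apply lt_of_pow_lt_pow_left₀ 2 (by norm_num)
  rw [Complex.sq_norm, Complex.normSq_apply, Complex.sub_re, Complex.sub_im]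
  nlinarith

theorem box6_lt (z : ℂ) : ⌊3 * (Real.pi - z.arg) / Real.pi⌋₊ < 6 := by
  have hp := Real.pi_pos
  have a1 : 0 ≤ 3 * (Real.pi - z.arg) / Real.pi := by
    have := Complex.arg_le_pi z; positivity
  rw [Nat.floor_lt a1, div_lt_iff₀ hp]
  have := Complex.neg_pi_lt_arg z
  push_cast
  linarith

theorem norm_sum_le {ι : Type*} (T : Finset ι) (e : ι → W)
    (o : ∀ i ∈ T, ∀ j ∈ T, i ≠ j → ⟪e i, e j⟫_ℂ = 0) (c : ι → ℂ) {r : ℝ} (h0 : 0 ≤ r)
    (hc : ∀ i ∈ T, ‖c i‖ ≤ r) : ‖∑ i ∈ T, c i • e i‖ ≤ r * ‖∑ i ∈ T, e i‖ := by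
  have e2 : ∀ c : ι → ℂ, ‖∑ i ∈ T, c i • e i‖ ^ 2 = ∑ i ∈ T, ‖c i‖ ^ 2 * ‖e i‖ ^ 2 := fun c => by
    rw [@norm_sq_eq_re_inner ℂ, sum_inner, map_sum]
    refine Finset.sum_congr rfl fun l hl => ?_
    rw [inner_sum, Finset.sum_eq_single_of_mem l hl, ← @norm_sq_eq_re_inner ℂ, norm_smul, mul_pow]
    intro m hm h
    rw [inner_smul_left, inner_smul_right, o _ hl _ hm h.symm]; simp
  have e3 := e2 fun _ => 1
  simp only [one_smul, norm_one, one_pow, one_mul] at e3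
  refine le_of_sq_le_sq ?_ (by positivity)
  rw [e2, mul_pow, e3, Finset.mul_sum]
  exact Finset.sum_le_sum fun l hl => by have := hc l hl; gcongr

theorem mult_dvd {p q b g₀ : ℕ} {M : Ideal AlgInt} [PMod p M] (hq : ¬ p ∣ q) {χ : IrrCharacter G}
    (hχ : χ ∈ principalBlock M G) (hd : q.Coprime (charDegree χ.1)) {x : G}
    (hx : (Subgroup.centralizer {x}).index ∣ q ^ b * g₀) {ζ : ℂ} (hζ : ζ ^ p = 1) {a : ℕ}
    (ha : ∑ k ∈ Finset.range p, χ.1 (x ^ k) * ζ ^ k = p * a) : charDegree χ.1 ∣ g₀ * a := by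
  have hp := PMod.prime M
  have h1 := coe_charDegree χ.2.isCharacter
  have h0 := χ.2.apply_one_ne_zero
  have d0 : charDegree χ.1 ≠ 0 := fun e => h0 (by rw [← h1, e, Nat.cast_zero])
  have z1 : IsIntegral ℤ ζ := ⟨Polynomial.X ^ p - 1, Polynomial.monic_X_pow_sub_C 1 hp.ne_zero,
    by simp [hζ]⟩
  have key : ∀ k : ℕ, IsIntegral ℤ (g₀ * χ.1 (x ^ k) / χ.1 1) ∧
      MemLocalIdeal M (g₀ * χ.1 (x ^ k) / χ.1 1 - g₀) := fun k => by
    obtain ⟨c, hc⟩ := (Subgroup.index_dvd_of_le (show Subgroup.centralizer {x} ≤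
      Subgroup.centralizer {x ^ k} from fun g hg => Subgroup.mem_centralizer_singleton_iff.2
        (Commute.pow_right (Subgroup.mem_centralizer_singleton_iff.1 hg) k))).trans hx
    replace hc : (q : ℂ) ^ b * g₀ = (Subgroup.centralizer {x ^ k}).index * c := by
      exact_mod_cast hc
    have e : (q : ℂ) ^ b * (g₀ * χ.1 (x ^ k) / χ.1 1) = c * centralChar χ.1 (x ^ k) := by
      rw [centralChar, mul_div_assoc, ← mul_assoc, hc]; ring
    have i1 : IsIntegral ℤ (g₀ * χ.1 (x ^ k) / χ.1 1) := by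
      obtain ⟨u, v, e1⟩ := Nat.isCoprime_iff_coprime.2 (hd.pow_left b)
      replace e1 : (u : ℂ) * q ^ b + v * χ.1 1 = 1 := by rw [← h1]; exact_mod_cast e1
      rw [← one_mul (_ / _), ← e1, add_mul, mul_assoc, e, mul_assoc, mul_div_cancel₀ _ h0]
      exact ((isIntegral_intCast u).mul ((isIntegral_natCast c).mul
        (isIntegral_centralChar χ.2 _))).add ((isIntegral_intCast v).mul
          ((isIntegral_natCast _).mul (χ.2.isCharacter.isIntegral _)))
    refine ⟨i1, (InP.or_of_mul (x := (q ^ b : ℕ)) (natCast_mem _ _) (sub_mem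
      (mem_Loc_of_isIntegral i1) (natCast_mem _ _)) ?_).resolve_left fun h =>
        hq (hp.dvd_of_dvd_pow ((InP_natCast_iff _).1 h))⟩
    have := InP.mul_left (natCast_mem _ c) (InP.symm (hχ (x ^ k)))
    rw [Nat.cast_pow, mul_sub, e, hc]
    convert this using 1
    simp only [centralChar]; ring
  have e : ∑ k ∈ Finset.range p, g₀ * χ.1 (x ^ k) / χ.1 1 * ζ ^ k =
      ((p * (g₀ * a) : ℕ) : ℂ) / charDegree χ.1 := by
    rw [h1, eq_div_iff h0, Finset.sum_mul, Nat.cast_mul, Nat.cast_mul, mul_left_comm, ← ha,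
      Finset.mul_sum]
    exact Finset.sum_congr rfl fun k _ => by field_simp
  obtain ⟨n, hn⟩ := nat_dvd_of_isIntegral_div d0 (e ▸ IsIntegral.sum _ fun k _ =>
    (key k).1.mul (z1.pow k))
  have e2 : MemLocalIdeal M (n : ℂ) := by
    have := InP.add (InP.sum (Finset.range p) _ fun k _ => InP.add (InP.mul_right (key k).2
      (mem_Loc_of_isIntegral (z1.pow k))) (InP.mul_left (natCast_mem _ g₀)
        (InP_sub_one_of_pow (M := M) (k := 1) (ζ := ζ ^ k)
          (by rw [pow_one, ← pow_mul, mul_comm, pow_mul, hζ, one_pow]))))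
      (InP.mul_left (natCast_mem _ g₀) (InP_p (M := M)))
    rw [hn, Nat.cast_mul, mul_div_cancel_left₀ _ (Nat.cast_ne_zero.2 d0)] at e
    rw [← e]
    convert this using 1
    rw [show (g₀ * p : ℂ) = ∑ _ ∈ Finset.range p, (g₀ : ℂ) by simp [mul_comm],
      ← Finset.sum_add_distrib]
    exact Finset.sum_congr rfl fun k _ => by ring
  obtain ⟨c, rfl⟩ := (InP_natCast_iff _).1 e2
  exact ⟨c, Nat.eq_of_mul_eq_mul_left hp.pos (by rw [hn]; ring)⟩

end CfsgH4.Jor
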