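import Cfsg.Agent.H4.Cy7

/-! Galois action on blocks of defect one. -/

set_option autoImplicit false
open Cfsg MonoidAlgebra CfsgL0 CfsgH1 CfsgH4
open CfsgH3 hiding cj cj_cj
open scoped ComplexConjugate Pointwise

namespace CfsgH4

local notation "C[" Q "]" => Subgroup.centralizer (SetLike.coe (Q : Subgroup _))
local notation "N[" Q "]" => Subgroup.normalizer (SetLike.coe (Q : Subgroup _))
local notation "Z[" u "]" => Subgroup.zpowers u

variable {G : Type*} [Group G] [Finite G] {M : Ideal AlgInt} {p : ℕ} [hM : PMod p M]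
  [hp : Fact p.Prime] {e : (Res M)[G]} {B : Set (IrrCharacter G)} {u : G}
  {β : Set (IrrCharacter C[Z[u]])} {e' : (Res M)[C[Z[u]]]}

/-- A linear character followed by a field endomorphism. -/
def linMap {A : Type*} [Group A] (σ : ℂ →+* ℂ) (l : A →* ℂˣ) : A →* ℂˣ :=
  (Units.map σ.toMonoidHom).comp l

@[simp] theorem linMap_apply {A : Type*} [Group A] (σ : ℂ →+* ℂ) (l : A →* ℂˣ) (a : A) :
    (linMap σ l a : ℂ) = σ (l a) := rfl

theorem linMap_ne_one {A : Type*} [Group A] (σ : ℂ →+* ℂ) {l : A →* ℂˣ} (h : l ≠ 1) :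
    linMap σ l ≠ 1 := fun h1 => h (MonoidHom.ext fun a => Units.ext (σ.injective (by
  simpa using congrArg (fun k : A →* ℂˣ => (k a : ℂ)) h1)))

variable (G p) in
/-- `σ` fixes the roots of unity of `p'`-order relevant for `G`. -/
def FixReg (σ : ℂ →+* ℂ) : Prop := ∀ g : G, ¬ p ∣ orderOf g → ∀ z : ℂ, z ^ orderOf g = 1 → σ z = z

omit hM hp in
theorem FixReg.apply {σ : ℂ →+* ℂ} (h : FixReg G p σ) {H : Type*} [Group H] [Finite H] {φ : H →* G}
    (hφ : Function.Injective φ) {θ : H → ℂ} (hθ : IsCharacter H θ) {g : H} (hg : ¬ p ∣ orderOf g) :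
    σ (θ g) = θ g := by
  rw [← orderOf_injective φ hφ] at hg
  simpa using hθ.map_apply_eq_pow σ (k := 1) (fun z hz => by simpa using h _ hg z hz)
    (orderOf_injective φ hφ g).symm.dvd

omit hM in
theorem fixReg_of {σ : ℂ →+* ℂ}
    (h : ∀ z : ℂ, z ^ (Nat.card G / p ^ (Nat.card G).factorization p) = 1 → σ z = z) :
    FixReg G p σ := fun g hg z hz => h z (by
  obtain ⟨k, hk⟩ := Nat.Coprime.dvd_of_dvd_mul_left
    (((hp.out.coprime_iff_not_dvd).2 hg).symm.pow_right _)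
    ((orderOf_dvd_natCard g).trans (Nat.ordProj_mul_ordCompl_eq_self _ p).symm.dvd)
  rw [hk, pow_mul, hz, one_pow])

theorem MaxPr.ext_of_sing {P : Subgroup G} (hm : MaxPr p (eB M B) P e) (hB : IsPBlock M B)
    {χ ψ : IrrCharacter G} (hχ : χ ∈ B) (hψ : ψ ∈ B) (f : ℂ → ℂ) (h0 : f 0 = 0)
    (h : ∀ g, ppart p g ∈ P → f (χ.1 g) = ψ.1 g) (g : G) : f (χ.1 g) = ψ.1 g := by
  by_cases h1 : ∃ x, x * ppart p g * x⁻¹ ∈ P
  · obtain ⟨x, hx⟩ := h1
    rw [← χ.2.isClassFunction g x, ← ψ.2.isClassFunction g x, h _ (by rwa [ppart_conj])]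
  · have h2 : ∀ ξ ∈ B, ξ.1 g = 0 := fun ξ hξ => by_contra fun h2 =>
      h1 (hB.exists_conj_mem hξ h2 (hB.isDefectGroup_iff.2 hm.isDef))
    rw [h2 χ hχ, h2 ψ hψ, h0]

namespace D1
variable [Fintype C[Z[u]]] {Φ : (Z[u] →* ℂˣ) → IrrCharacter C[Z[u]]} {X : Finset (IrrCharacter G)}
  {y : (Z[u] →* ℂˣ) → IrrCharacter G} {ε : IrrCharacter G → ℤ} {δ : ℤ}
  (h : D1 p e B u β e' Φ X y ε δ)
include h

theorem mem_cent {g : G} (hc : ppart p g ∈ Z[u]) (hg : p ∣ orderOf g) : g ∈ C[Z[u]] := by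
  rw [← zpowers_eq_of_mem h.d.ord hc fun h1 => ppart_eq_one_iff.1 h1 hg]
  exact mem_cent_ppart p g

theorem apply_rpart {c : C[Z[u]]} (hc : ppart p (c : G) ∈ Z[u]) :
    (Φ 1).1 c = (Φ 1).1 (rpart p c) := by
  conv_lhs => rw [← ppart_mul_rpart p c, h.apply_mul (by rwa [coe_ppart])]

theorem map_apply {σ : ℂ →+* ℂ} (hσ : FixReg G p σ) (l : Z[u] →* ℂˣ) {c : C[Z[u]]}
    (hc : ppart p (c : G) ∈ Z[u]) : σ ((Φ l).1 c) = (Φ (linMap σ l)).1 c := by
  rw [h.apply l (v := ⟨_, hc⟩) rfl, h.apply (linMap σ l) (v := ⟨_, hc⟩) rfl, map_mul, h.apply_rpart hc,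
    hσ.apply (C[Z[u]]).subtype_injective (Φ 1).2.isCharacter (reg_rpart p c), linMap_apply]

theorem galX {σ : ℂ →+* ℂ} (hσ : FixReg G p σ) {χ : IrrCharacter G} (hχ : χ ∈ X) (g : G) :
    σ (χ.1 g) = χ.1 g := by
  have := Fintype.ofFinite N[Z[u]]
  have h1 := h.s.mem_iff.2 (.inl hχ)
  refine h.d.hm.ext_of_sing h.d.hB h1 h1 σ (map_zero σ) (fun g hc => ?_) g
  by_cases hg : p ∣ orderOf g
  swap
  · exact hσ.apply (φ := MonoidHom.id G) (fun _ _ h => h) χ.2.isCharacter hg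
  have h2 := h.valX hχ (c := ⟨g, h.mem_cent hc hg⟩) hc hg
  have h3 := congrArg σ h2
  rw [map_mul, map_mul, map_natCast, map_neg, map_intCast, map_sum, Finset.sum_congr rfl fun t _ =>
    (h.map_apply hσ 1 (by rw [coe_cjC, ppart_conj]; exact conj_mem_of_norm t.2 _ hc)).trans
      (by rw [show linMap σ (1 : Z[u] →* ℂˣ) = 1 from MonoidHom.ext fun _ => Units.ext (by simp)]), ← h2] at h3
  exact mul_left_cancel₀ (Nat.cast_ne_zero.2 Nat.card_pos.ne') h3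

theorem galY {σ : ℂ →+* ℂ} (hσ : FixReg G p σ) {l : Z[u] →* ℂˣ} (hl : l ≠ 1) (g : G) :
    σ ((y l).1 g) = (y (linMap σ l)).1 g := by
  have := Fintype.ofFinite N[Z[u]]
  have hl' := linMap_ne_one σ hl
  refine h.d.hm.ext_of_sing h.d.hB ((h.s.mem _).2 (.inr ⟨l, hl, rfl⟩))
    ((h.s.mem _).2 (.inr ⟨_, hl', rfl⟩)) σ (map_zero σ) (fun g hc => ?_) g
  by_cases hg : p ∣ orderOf g
  swap
  · rw [hσ.apply (φ := MonoidHom.id G) (fun _ _ h => h) (y l).2.isCharacter hg,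
      h.s.apply_reg (mem_exc.2 ⟨_, hl, rfl⟩) hg, h.s.apply_reg (mem_exc.2 ⟨_, hl', rfl⟩) hg]
  have h3 := congrArg σ (h.valY hl (c := ⟨g, h.mem_cent hc hg⟩) hc hg)
  rw [map_mul, map_mul, map_natCast, map_intCast, map_sum, Finset.sum_congr rfl fun t _ =>
    h.map_apply hσ l (by rw [coe_cjC, ppart_conj]; exact conj_mem_of_norm t.2 _ hc),
    ← h.valY hl' hc hg] at h3
  exact mul_left_cancel₀ (Nat.cast_ne_zero.2 Nat.card_pos.ne') h3

end D1

end CfsgH4
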