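import Cfsg.Agent.H4.Br4
import Cfsg.Agent.S0157

/-! Groups with a self-centralizing Sylow subgroup of order `p` whose normalizer has order `2p`. -/

set_option autoImplicit false
open Cfsg MonoidAlgebra CfsgL0 CfsgH1 CfsgH4
open CfsgH3 hiding cj cj_cj
open scoped ComplexConjugate Pointwise

namespace CfsgH4

local notation "C[" Q "]" => Subgroup.centralizer (SetLike.coe (Q : Subgroup _))
local notation "N[" Q "]" => Subgroup.normalizer (SetLike.coe (Q : Subgroup _))
local notation "Z[" u "]" => Subgroup.zpowers u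
local notation "C1[" u "]" => Subgroup.centralizer (singleton u)
local notation "PSL2[" F "]" => Matrix.ProjectiveSpecialLinearGroup (Fin 2) F
local notation "SL2[" F "]" => Matrix.SpecialLinearGroup (Fin 2) F

variable {G : Type*} [Group G] [Finite G] {M : Ideal AlgInt} {p : ℕ} [hM : PMod p M] [hp : Fact p.Prime]
  {u : G} {X : Finset (IrrCharacter G)} {y : (Z[u] →* ℂˣ) → IrrCharacter G} {ε : IrrCharacter G → ℤ} {δ : ℤ}

omit hM in
theorem sum_eq_inner [Fintype G] (a b : G → ℂ) : ∑ g, a g * conj (b g) = Nat.card G * classInner a b := by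
  rw [classInner, mul_inv_cancel_left₀ (Nat.cast_ne_zero.2 Nat.card_pos.ne')]

theorem PB.two_small [Fintype G] (h : PB M p u 2 X y ε δ) (hC : C[Z[u]] = Z[u]) (hO : pPrimeCore p G = ⊥)
    (h3 : 3 < p) {φ : IrrCharacter G} (h1 : φ ≠ irrOne G) (h2 : φ.1 1 + sS u φ.1 = 0) :
    (N[Z[u]]).index = 1 ∨ Nat.card G = p * (p - 1) * (p - 2) ∧ ∃ (m : ℕ) (F : Type) (_ : Field F)
      (_ : Fintype F), Fintype.card F = 2 ^ m ∧ p = 2 ^ m + 1 ∧ Nonempty (G ≃* PSL2[F]) ∧
        Nonempty (G ≃* SL2[F]) := by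
  classical
  obtain ⟨ψ, hψ⟩ := Finset.card_pos.1 h.pos'
  obtain ⟨χ, hχ⟩ := Finset.card_eq_one.1 ((Finset.card_erase_of_mem h.one).trans (by rw [h.cardX]))
  have a := Finset.mem_erase.1 (hχ ▸ Finset.mem_singleton_self χ)
  have a1 : ∀ φ ∈ X, φ ≠ irrOne G → φ = χ := fun φ b c =>
    Finset.mem_singleton.1 (hχ ▸ Finset.mem_erase.2 ⟨c, b⟩)
  have a2 : ∀ g, ¬ p ∣ orderOf g → δ * ψ.1 g + (1 + ε χ * χ.1 g) = 0 := fun g hg => by
    have b := h.rel ψ hψ g hg
    rwa [← Finset.add_sum_erase _ _ h.one, h.eps_one, hχ, Finset.sum_singleton, Int.cast_one,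
      show (irrOne G).1 g = 1 from rfl, mul_one] at b
  have p1 : ¬ p ∣ orderOf (1 : G) := by simpa using hp.out.one_lt.ne'
  have a3 : δ * charDegree ψ.1 + (1 + ε χ * charDegree χ.1) = 0 := by
    exact_mod_cast coe_deg ψ ▸ coe_deg χ ▸ a2 1 p1
  have hu := Subgroup.mem_zpowers u
  choose A hA using fun g => exists_int_of_fixed (χ.2.isCharacter.isIntegral g) fun σ => by
    set χ' : IrrCharacter G := ⟨_, χ.2.map (σ : ℂ →+* ℂ)⟩
    have b : charDegree χ'.1 = charDegree χ.1 := Nat.cast_injective (R := ℂ) (by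
      rw [coe_deg χ']; exact (congrArg σ (coe_deg χ).symm).trans (map_natCast σ _))
    by_cases c : χ' ∈ X
    · exact congrFun (congrArg (·.1) (a1 _ c fun e => a.1 (Subtype.ext (funext fun g => σ.injective
        ((congrFun (congrArg (·.1) e) g).trans (map_one σ).symm))))) g
    by_cases d : χ' ∈ exc y
    · rw [h.degY_eq hψ d, b] at a3
      rcases h.sgn χ with e | e <;> rcases h.sgn' with rfl | rfl <;> rw [e] at a3 <;> omega
    have := h.out hC c d hu h.ne_one
    rw [show χ'.1 u = σ (χ.1 u) from rfl, h.vX a.2 hu h.ne_one, map_intCast, Int.cast_eq_zero] at this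
    rcases h.sgn χ with e | e <;> omega
  have a4 : ∀ g, |A g| ≤ charDegree χ.1 := fun g => by
    have := χ.2.isCharacter.norm_le g
    rw [hA, ← coe_deg, Complex.norm_intCast, Complex.norm_natCast] at this
    exact_mod_cast this
  have a5 : ∀ g, ψ.1 g = ψ.1 1 → g = 1 := h.faithful hO ψ.2.isCharacter fun e => by
    rw [h.sY hψ, ← coe_deg] at e
    have : δ * 2 = (p - 1) * charDegree ψ.1 := by exact_mod_cast e
    have := charDegree_pos ψ.2
    rcases h.sgn' with rfl | rfl <;> nlinarith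
  have hG : (Nat.card G : ℂ) = (N[Z[u]]).index * (2 * p) := by exact_mod_cast h.card_G hC
  have m1 := h.sum_split hC ψ.2.isClassFunction
  have m2 := h.sum_split hC (ψ.2.isClassFunction.mul ψ.2.isClassFunction.conj)
  have hs := h.sYY hψ hψ
  have m0 := sum_eq_inner ψ.1 (irrOne G).1
  rw [ψ.2.classInner_of_ne (irrOne G).2 fun e => h.ne_oneY hψ (Subtype.ext e)] at m0
  simp only [show ∀ g, (irrOne G).1 g = 1 from fun _ => rfl, map_one, mul_one, mul_zero] at m0
  rw [m0] at m1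
  simp only [Pi.mul_apply] at m2
  rw [sum_eq_inner, ψ.2.classInner_self, show (ψ.1 * fun g => conj (ψ.1 g)) =
    fun g => ψ.1 g * conj (ψ.1 g) from rfl, hs, if_pos rfl, ← coe_deg, hG] at m2
  rw [h.sY hψ, ← coe_deg] at m1
  have m3 := h.sum_split hC ((ψ.2.isClassFunction.mul ψ.2.isClassFunction.conj).mul χ.2.isClassFunction.conj)
  generalize hR : Finset.univ.filter (fun g : G => g ≠ 1 ∧ ¬ p ∣ orderOf g) = R at m1 m2 m3
  replace hR : ∀ {g}, g ∈ R → g ≠ 1 ∧ ¬ p ∣ orderOf g := fun hg => by simpa [← hR] using hg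
  set n := (N[Z[u]]).index
  by_cases c : φ ∈ X
  swap
  · have d : φ ∈ exc y := by
      by_contra d
      rw [h.sOut hC c d, add_zero, ← coe_deg, Nat.cast_eq_zero] at h2
      exact (charDegree_pos φ.2).ne' h2
    rw [h.sY d, ← coe_deg, h.degY_eq d hψ] at h2
    have d1 : charDegree ψ.1 + δ * 2 = 0 := by exact_mod_cast h2
    have := charDegree_pos χ.2
    obtain ⟨rfl, d2, d3, d4⟩ : δ = -1 ∧ ε χ = 1 ∧ charDegree ψ.1 = 2 ∧ charDegree χ.1 = 1 := by
      rcases h.sgn χ with e | e <;> rcases h.sgn' with rfl | rfl <;> rw [e] at a3 ⊢ <;> omega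
    have d5 : ∀ g ∈ R, ψ.1 g * conj (ψ.1 g) = ψ.1 g := fun g hg => by
      have hg := hR hg
      have e : ψ.1 g = (1 + A g : ℤ) := by
        have := a2 g hg.2
        rw [d2, hA] at this
        push_cast at this ⊢
        linear_combination -this
      have := abs_le.1 (d4 ▸ a4 g)
      have : A g ≠ 1 := fun e' => hg.1 (a5 g (by rw [e, e', ← coe_deg, d3]; norm_num))
      rw [e, map_intCast]
      obtain e | e : A g = 0 ∨ A g = -1 := by omega
      all_goals simp [e]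
    rw [Finset.sum_congr rfl d5, d3] at m2
    rw [d3] at m1
    exact .inl (Nat.cast_injective (R := ℂ) (by
      simp only [map_natCast] at m2
      push_cast at m1 m2 ⊢
      linear_combination (m2 - m1) / 2))
  obtain rfl := a1 φ c h1
  rw [h.sX c, ← coe_deg] at h2
  have d1 : charDegree φ.1 + (p - 1 : ℤ) * ε φ = 0 := by exact_mod_cast h2
  have := charDegree_pos ψ.2
  obtain ⟨rfl, d2, d3, d4⟩ : δ = 1 ∧ ε φ = -1 ∧ charDegree ψ.1 + 2 = p ∧ charDegree φ.1 + 1 = p := by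
    rcases h.sgn φ with e | e <;> rcases h.sgn' with rfl | rfl <;> rw [e] at a3 d1 ⊢ <;> omega
  have d5 : ∀ g ∈ R, ψ.1 g = (A g - 1 : ℤ) := fun g hg => by
    have := a2 g (hR hg).2
    rw [d2, hA] at this
    push_cast at this ⊢
    linear_combination this
  obtain ⟨k, hk⟩ := (ψ.2.isCharacter.mul ψ.2.isCharacter.conj).exists_nat_classInner φ.2.isCharacter
  have m4 := sum_eq_inner (ψ.1 * fun g => conj (ψ.1 g)) φ.1
  simp only [Pi.mul_apply] at m3 m4
  rw [m4, hk, hG, sS_congr (b := fun g => -1 * (ψ.1 g * conj (ψ.1 g)))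
    fun v h1 h2 => by simp [h.vX c h1 h2, d2], sS_mul, hs, if_pos rfl, ← coe_deg, ← coe_deg,
    Finset.sum_congr rfl (g := fun g => (((A g - 1) * (A g - 1) * A g : ℤ) : ℂ)) fun g hg => by
      rw [d5 g hg, hA]; simp] at m3
  rw [Finset.sum_congr rfl (g := fun g => (((A g - 1) * (A g - 1) : ℤ) : ℂ)) fun g hg => by
      rw [d5 g hg]; simp] at m2
  rw [Finset.sum_congr rfl d5] at m1
  simp only [map_natCast, ← Int.cast_sum] at m1 m2 m3
  have d0 : ∀ a : ℤ, 0 ≤ (a - 1) * a := fun a => by rcases le_or_gt a 0 with h | h <;> nlinarith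
  have d6 : ∑ g ∈ R, (A g - 1) * A g ≤ ∑ g ∈ R, (A g - 1) * A g * (p - 1 - A g) :=
    Finset.sum_le_sum fun g hg => le_mul_of_one_le_right (d0 _) (by
      have := abs_le.1 (a4 g)
      have : A g - 1 ≠ charDegree ψ.1 := fun e => (hR hg).1
        (a5 g (by rw [d5 g hg, e, ← coe_deg]; simp))
      omega)
  have d7 : 0 ≤ ∑ g ∈ R, (A g - 1) * A g := Finset.sum_nonneg fun g _ => d0 _
  have d8 : ∑ g ∈ R, (A g - 1) * A g = ∑ g ∈ R, (A g - 1) * (A g - 1) + ∑ g ∈ R, (A g - 1) := by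
    rw [← Finset.sum_add_distrib]; exact Finset.sum_congr rfl fun g _ => by ring
  have d9 : ∑ g ∈ R, (A g - 1) * A g * (p - 1 - A g) = (p - 2) * ∑ g ∈ R, (A g - 1) * A g -
      ∑ g ∈ R, (A g - 1) * (A g - 1) * A g := by
    rw [Finset.mul_sum, ← Finset.sum_sub_distrib]; exact Finset.sum_congr rfl fun g _ => by ring
  have d10 : 2 * n = (p - 1) * charDegree ψ.1 := by
    obtain ⟨d, rfl⟩ : ∃ d, p = d + 2 := ⟨_, d3.symm⟩
    have f1 : charDegree ψ.1 = d := by omega
    have f2 : charDegree φ.1 = d + 1 := by omega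
    rw [f1] at m1 m2 m3 ⊢
    rw [f2] at m3
    rw [d9, d8] at d6
    rw [d8] at d7
    generalize ∑ g ∈ R, (A g - 1) * (A g - 1) * A g = s3 at *
    generalize ∑ g ∈ R, (A g - 1) * (A g - 1) = s2 at *
    generalize ∑ g ∈ R, (A g - 1) = s1 at *
    have e1 : s1 = -d - 2 * n := Int.cast_injective (α := ℂ) (by push_cast at m1 ⊢; linear_combination -m1)
    have e2 : s2 = 4 * n - d * d := Int.cast_injective (α := ℂ) (by push_cast at m2 ⊢; linear_combination -m2)
    have e3 : s3 = 2 * n * (d + 2) * k + 2 * n * d - d * d * (d + 1) :=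
      Int.cast_injective (α := ℂ) (by push_cast at m3 ⊢; linear_combination -m3)
    subst e1 e2 e3
    have : (0 : ℤ) ≤ 2 * n * (d + 2) * k := by positivity
    zify [show 1 ≤ d + 2 by omega] at d6 ⊢
    nlinarith
  obtain ⟨j, hj⟩ := h.exists_n
  have e1 := h.cardY
  have e2 : (exc y).card * charDegree ψ.1 = j * p + 1 :=
    Nat.eq_of_mul_eq_mul_left two_pos (by rw [← hj, d10, ← mul_assoc]; congr 1; omega)
  refine (Nat.eq_zero_or_pos j).imp (fun e => hj.trans (by simp [e])) fun e => ?_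
  obtain d | d := h.caseA hC hj e (by omega) (fun χ b c => .inr (a1 χ b c ▸ ⟨d2, d4⟩))
    fun ψ' b => .inl ⟨rfl, h.degY_eq hψ b ▸ e2⟩
  · exact (d.2.2 rfl).elim
  obtain ⟨m, F, _, _, f1, f2, f3⟩ := sl2_of_elem (G := G) (q := p - 1) (by omega)
    (d.2.1 ▸ (((hp.out.even_sub_one (by omega)).two_dvd).mul_left p).mul_right _)
    (fun N _ hN => le_bot_iff.1 (hO ▸ le_pPrimeCore (by
      obtain ⟨k, hk⟩ := hN.exists_card_eq
      exact hk ▸ ((Nat.coprime_primes Nat.prime_two hp.out).2 (by omega)).pow_left k)))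
    fun v hv => ⟨by have := (d.2.2 v hv).1; omega, (d.2.2 v hv).2⟩
  exact ⟨d.2.1, m, F, _, _, f1, by omega, f3⟩

open MulAction in
omit hM in
theorem exists_small [Fintype G] {Ω : Type*} [MulAction G Ω] [Finite Ω] [IsPretransitive G Ω] {k : ℕ}
    (hΩ : Nat.card Ω = k * p) (hk : k = 1 ∨ k = 2 ∧ ¬ IsMultiplyPretransitive G Ω 2) (hu : orderOf u = p)
    (hf : ∀ v ∈ Z[u], v ≠ 1 → fixedBy Ω v = ∅) : ∃ φ, φ ≠ irrOne G ∧ φ.1 1 + sS u φ.1 = 0 := by
  classical
  have h2 := hp.out.two_le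
  have hπ := isCharacter_fixedBy (G := G) Ω
  obtain ⟨n, l, a1, a2, a3, a4⟩ := exists_decomp hπ u
  obtain ⟨n', b1, b2⟩ := hπ.exists_eq_sum_irr
  obtain rfl : n' = n := funext fun φ => Nat.cast_injective (R := ℂ) ((b1 φ).symm.trans (a1 φ))
  have : Nonempty Ω := (Nat.card_pos_iff.1 (by rcases hk with rfl | ⟨rfl, -⟩ <;> omega)).1
  have h0 : (p : ℂ) ≠ 0 := Nat.cast_ne_zero.2 hp.out.ne_zero
  have b3 : n' (irrOne G) = 1 := by
    have h := (a1 (irrOne G)).symm.trans (classInner_fixedBy_one Ω)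
    have := ((pretransitive_iff_unique_quotient_of_nonempty G Ω).1 inferInstance).some
    rw [Nat.card_unique] at h
    exact_mod_cast h
  have b4 : l (irrOne G) = 1 := by
    have := a2 (irrOne G)
    rw [show (irrOne G).1 = fun _ => 1 from rfl, sS_const, hu] at this
    exact_mod_cast mul_left_cancel₀ h0 (show (p : ℂ) * l _ = p * 1 by rw [← this]; ring)
  rw [sS_congr (b := fun _ => 0) fun v h1 h2 => by simp [hf v h1 h2], sS_const, hu] at a4
  simp only [fixedBy_one_eq_univ, Nat.card_coe_set_eq, Set.ncard_univ, hΩ] at a3 a4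
  replace a4 : k = ∑ φ, n' φ * l φ := Nat.cast_injective (R := ℂ)
    (mul_left_cancel₀ h0 (by rw [← a4]; push_cast; ring))
  rw [Nat.cast_inj, ← Finset.add_sum_erase _ _ (Finset.mem_univ (irrOne G)), b3, deg_irrOne] at a3
  rw [← Finset.add_sum_erase _ _ (Finset.mem_univ (irrOne G)), b3, b4] at a4
  by_contra! b5
  have b6 : ∑ φ ∈ Finset.univ.erase (irrOne G), n' φ ≤ ∑ φ ∈ Finset.univ.erase (irrOne G), n' φ * l φ :=
    Finset.sum_le_sum fun φ hφ => Nat.le_mul_of_pos_right _ (Nat.pos_of_ne_zero fun e =>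
      b5 φ (Finset.ne_of_mem_erase hφ) (by simp [a2, e]))
  obtain ⟨φ, c1, c2⟩ := Finset.exists_ne_zero_of_sum_ne_zero (s := Finset.univ.erase (irrOne G))
    (f := fun φ => n' φ * charDegree φ.1) (by rcases hk with rfl | ⟨rfl, -⟩ <;> omega)
  have c3 := Nat.pos_of_ne_zero (left_ne_zero_of_mul c2)
  rw [← Finset.add_sum_erase _ _ c1] at b6
  obtain rfl | ⟨rfl, hk⟩ := hk
  · omega
  refine hk ((Cfsg.Agent.S0157.result Ω (by omega)).1 ?_)
  convert φ.2 with g
  rw [congrFun b2 g, ← Finset.add_sum_erase _ _ (Finset.mem_univ (irrOne G)), ← Finset.add_sum_erase _ _ c1,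
    Finset.sum_eq_zero fun ψ hψ => by rw [Finset.sum_eq_zero_iff.1 (show ∑ x ∈ (Finset.univ.erase (irrOne G)).erase φ, n' x = 0 by omega) ψ hψ]; simp,
    b3, show n' φ = 1 by omega]
  simp [show (irrOne G).1 g = 1 from rfl]

open MulAction in
omit hM in
theorem perm_two {Ω : Type*} [MulAction G Ω] [Finite Ω] [FaithfulSMul G Ω] [IsPreprimitive G Ω] (h3 : 3 < p)
    {k : ℕ} (hΩ : Nat.card Ω = k * p) (hk : k = 1 ∨ k = 2 ∧ ¬ IsMultiplyPretransitive G Ω 2) (P : Sylow p G)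
    (hN : Nat.card N[(P : Subgroup G)] = 2 * p) : (P : Subgroup G).Normal ∧ k = 1 ∨ Nat.card G = p * (p - 1) * (p - 2) ∧
      ∃ (m : ℕ) (F : Type) (_ : Field F) (_ : Fintype F), Fintype.card F = 2 ^ m ∧ p = 2 ^ m + 1 ∧
        Nonempty (G ≃* PSL2[F]) ∧ Nonempty (G ≃* SL2[F]) := by
  have := Fintype.ofFinite G
  obtain ⟨a⟩ : Nonempty Ω := (Nat.card_pos_iff.1 (by rcases hk with rfl | ⟨rfl, -⟩ <;> omega)).1
  have a0 : ∀ (K : Subgroup G) [K.Normal], K ≠ ⊥ → k * p ∣ Nat.card K := fun K _ hK => by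
    have := IsQuasiPreprimitive.isPretransitive_of_normal (N := K) (X := Ω) fun e => hK
      (eq_bot_iff.2 fun g hg => eq_of_smul_eq_smul fun x : Ω => (e.ge trivial ⟨g, hg⟩).trans (one_smul G x).symm)
    exact ⟨_, hΩ ▸ CfsgH8.card_eq_mul_stabilizer (G := K) a⟩
  have a1 := CfsgH8.card_eq_mul_stabilizer (G := G) (Ω := Ω)
  have a2 : Nat.card P = p := by
    obtain ⟨j, hj⟩ := P.2.exists_card_eq
    have b1 : p ^ j ∣ p * 2 := hj ▸ mul_comm 2 p ▸ hN ▸ Subgroup.card_dvd_of_le Subgroup.le_normalizer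
    have b2 := P.dvd_card_of_dvd_card (a1 a ▸ hΩ ▸ (dvd_mul_left p k).mul_right _)
    rcases j with _ | _ | j
    · exact absurd (hj ▸ b2 :) hp.out.not_dvd_one
    · simpa using hj
    · rw [pow_succ', Nat.mul_dvd_mul_iff_left hp.out.pos] at b1
      have := Nat.le_of_dvd two_pos ((dvd_pow_self p j.succ_ne_zero).trans b1)
      omega
  obtain ⟨u, b1, b2, b3⟩ := exists_gen_sylow P a2
  have hO : pPrimeCore p G = ⊥ := by
    by_contra e
    exact not_dvd_card_pPrimeCore p ((dvd_mul_left p k).trans (a0 _ e))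
  have hC : C[Z[u]] = Z[u] := by
    rw [b3]
    have c1 : (P : Subgroup G) ≤ C[(P : Subgroup G)] := b3 ▸ Subgroup.le_centralizer_iff_isMulCommutative.2 inferInstance
    obtain ⟨j, hj⟩ := Subgroup.card_dvd_of_le c1
    have c2 := Subgroup.card_dvd_of_le (Subgroup.centralizer_le_normalizer (P : Set G))
    rw [P.coe_coe] at hj hN
    rw [hN, hj, a2, mul_comm, Nat.mul_dvd_mul_iff_right hp.out.pos, Nat.dvd_prime Nat.prime_two] at c2
    rcases c2 with rfl | rfl
    · exact (Subgroup.eq_of_le_of_card_ge c1 (by rw [P.coe_coe]; omega)).symm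
    have c3 := (Subgroup.eq_of_le_of_card_ge (Subgroup.centralizer_le_normalizer (P : Set G)) (by omega)).ge
    have c4 := (MonoidHom.ker_transferSylow_isComplement' P c3).card_mul
    rw [le_bot_iff.1 (hO.le.trans' (le_pPrimeCore (N := (MonoidHom.transferSylow P c3).ker) (Nat.coprime_comm.1 (hp.out.coprime_iff_not_dvd.2
      (MonoidHom.not_dvd_card_ker_transferSylow P c3))))), Subgroup.card_bot] at c4
    have := Subgroup.card_le_card_group (Subgroup.normalizer (P : Set G))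
    omega
  obtain ⟨M, hM⟩ := exists_pmod p
  obtain ⟨e, X, y, ε, δ, h⟩ := exists_pb (M := M) b1 b2
  obtain rfl : e = 2 := Nat.eq_of_mul_eq_mul_right hp.out.pos ((h.card_N hC).symm.trans (b3 ▸ hN))
  obtain ⟨φ, c1, c2⟩ := exists_small hΩ hk b1 fun v hv h1 => Set.eq_empty_of_forall_notMem fun x hx => b2 (by
    have c := (Z[u]).index_mul_card
    obtain ⟨j, hj⟩ := dvd_ord_of_mem b1 hv h1 ▸ (stabilizer G x).orderOf_dvd_natCard hx
    rw [h.card, a1 x, hΩ, hj] at c
    exact ⟨k * j, Nat.eq_of_mul_eq_mul_right hp.out.pos (c.trans (by ring))⟩)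
  refine (h.two_small hC hO h3 c1 c2).imp_left fun e => ?_
  have : (P : Subgroup G).Normal := b3 ▸ Subgroup.normalizer_eq_top_iff.1 (Subgroup.index_eq_one.1 e)
  have := Nat.le_of_dvd hp.out.pos (a2 ▸ a0 P fun e => by rw [e, Subgroup.card_bot] at a2; omega)
  exact ⟨‹_›, hk.resolve_right fun e => by rw [e.1] at this; omega⟩

end CfsgH4
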