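import Cfsg.Agent.H4.Di5
import Cfsg.Agent.H4.Prin

/-! The principal 2-block of a group with dihedral Sylow 2-subgroups. -/

set_option autoImplicit false
open Cfsg MonoidAlgebra CfsgL0 CfsgH1 CfsgH4
open CfsgH3 hiding cj cj_cj
open scoped ComplexConjugate Pointwise

namespace CfsgH4

local notation "C[" Q "]" => Subgroup.centralizer (SetLike.coe (Q : Subgroup _))
local notation "Z[" u "]" => Subgroup.zpowers u

variable {G : Type*} [Group G] [Fintype G] {P : Subgroup G} {x u : G} {n : ℕ} {M : Ideal AlgInt}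

theorem ct_congr {p : ℕ} [Fact p.Prime] [PMod p M] {b : (Res M)[G]} (hb : IsBlk C[Z[u]] C[Z[u]] b)
    {a a' : G → ℂ} (ha : IsClassFunction G a) (ha' : IsClassFunction G a')
    (h : ∀ g, ppart p g = u → a g = a' g) (c : G → ℂ) : ct p u b a c = ct p u b a' c := by
  classical
  rw [ct, ct]
  congr 1
  refine Finset.sum_congr rfl fun g hg => ?_
  simp only [Finset.mem_filter, Finset.mem_univ, true_and] at hg
  subst hg
  rw [ev_lft_congr hb (fun x _ y _ => ha x y) (fun x _ y _ => ha' x y) h]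

variable [hM : PMod 2 M]

theorem DiL.principal {β : Set (IrrCharacter C[Z[x ^ 2 ^ (n + 1)]])}
    {e' : (Res M)[C[Z[x ^ 2 ^ (n + 1)]]]}
    (h : DiL P x n (ie M C[P] (principalBlock M _)) (principalBlock M G) β e') :
    β = principalBlock M _ := h.hβ.ie_inj isPBlock_principal (h.ie_eq.trans
      ((ple_principal h.dh.pgrp (Subgroup.zpowers_le.2 (h.dh.le h.dh.z_mem))).eq_dn h.hm.pr).symm)

variable (M) in
include hM in
theorem Dh.npc (h : Dh P x n) (hS : IsSylowIn 2 P ⊤) (hu : u ∈ Z[x]) (h1 : u ≠ 1) :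
    CfsgH2.NPC 2 C[Z[u]] := by
  obtain ⟨β, e', hL⟩ := h.exists_diL (M := M) (maxPr_principal hS) isPBlock_principal
  exact (CfsgH2.npc_iff.1 (nil_principal_iff.1 (hL.principal ▸ hL.nil))).mono (h.cent_le hu h1)

theorem Dh.principal_apply (h : Dh P x n) (hS : IsSylowIn 2 P ⊤) {χ : IrrCharacter G}
    (hχ : χ ∈ principalBlock M G) {g : G} (hu : ppart 2 g ∈ Z[x]) (h1 : ppart 2 g ≠ 1) :
    χ.1 g = χ.1 (ppart 2 g) :=
  principal_apply_ppart (CfsgH2.npc_iff.2 (centralizer_zpowers (ppart 2 g) ▸ h.npc M hS hu h1)) hχ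

theorem Dh.exists_diD_principal (h : Dh P x n) (hS : IsSylowIn 2 P ⊤) :
    ∃ f, DiD P x n (ie M C[P] (principalBlock M _)) (principalBlock M G) f ∧
      ∀ χ ∈ principalBlock M G, ∀ j, j ≠ 0 → f χ.1 j = χ.1 (x ^ j.val) := by
  obtain ⟨β, e', hL⟩ := h.exists_diL (M := M) (maxPr_principal hS) isPBlock_principal
  obtain rfl := hL.principal
  obtain ⟨f, hf, h1⟩ := hL.exists_diD irrOne_mem_principal (by
    rw [height_principal irrOne_mem_principal]
    simp [charDegree, irrOne])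
  have h2 := h1 (irrOne G).1 fun _ => rfl
  have hc := (irrOne G).2.isClassFunction
  refine ⟨f, hf, fun χ hχ j hj => ?_⟩
  have h3 := hf.cP_eq _ _ χ.2.isClassFunction hc j hj
  have h4 := hf.cP_eq _ _ hc hc j hj
  rw [h2, map_one, mul_one] at h3 h4
  rw [← h3, cP, ct_congr (hf.hm.pr.pr_dn (Subgroup.zpowers_le.2 (hf.mem j))).blk
    χ.2.isClassFunction (hc.smul (χ.1 (x ^ j.val))) fun g hg => by
      rw [h.principal_apply hS hχ (hg ▸ pow_val_mem j) (hg ▸ pow_val_ne h.ord hj), hg]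
      exact (mul_one _).symm, ct_smul_left, mul_left_comm, ← cP, h4, mul_one]

end CfsgH4
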