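import Cfsg.Agent.H4.Di6
import Cfsg.Agent.H4.K4b

/-! Counting pairs of involutions in a group with dihedral Sylow 2-subgroups. -/

set_option autoImplicit false
open Cfsg MonoidAlgebra CfsgL0 CfsgH1 CfsgH4
open CfsgH3 hiding cj cj_cj
open scoped ComplexConjugate

namespace CfsgH4

local notation "C1[" x "]" => Subgroup.centralizer (singleton x : Set _)
local notation "Z[" u "]" => Subgroup.zpowers u

variable {G : Type*} [Group G] [Fintype G] {P : Subgroup G} {x y : G} {n : ℕ}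

open Classical in
theorem card_mul_sum_eqv (u : G) {F : G → G → ℂ} {t : G → G → G}
    (hF : ∀ h a b, F (h * a * h⁻¹) (h * b * h⁻¹) = F a b)
    (ht : ∀ h a b, t (h * a * h⁻¹) (h * b * h⁻¹) = h * t a b * h⁻¹) :
    (Nat.card C1[u] : ℂ) * ∑ a, ∑ b, F a b * classInd u (t a b) =
    Nat.card G * ∑ a, ∑ b, F a b * if t a b = u then 1 else 0 := by
  have h1 : ∀ g : G, (Nat.card C1[u] : ℂ) * classInd u g =
      ∑ h : G, if h * g * h⁻¹ = u then 1 else 0 := fun g => by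
    by_cases hg : IsConj u g
    · obtain ⟨c, rfl⟩ := isConj_iff.1 hg
      rw [classInd_of_isConj hg, mul_one, Finset.sum_boole, ← Fintype.card_subtype,
        ← Nat.card_eq_fintype_card]
      congr 1
      refine Nat.card_congr (Equiv.subtypeEquiv (Equiv.mulRight c⁻¹) fun h => ?_)
      simp [Subgroup.mem_centralizer_singleton_iff, mul_assoc, mul_inv_eq_iff_eq_mul,
        ← mul_assoc]
    · rw [classInd_of_not_isConj hg, mul_zero, Finset.sum_eq_zero]
      exact fun h _ => if_neg fun e => hg (isConj_iff.2 ⟨h, e⟩).symm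
  simp only [Finset.mul_sum, mul_left_comm (Nat.card C1[u] : ℂ), h1]
  rw [Finset.sum_congr rfl fun x _ => Finset.sum_comm, Finset.sum_comm]
  simp only [← Finset.mul_sum]
  rw [Nat.card_eq_fintype_card, ← Finset.card_univ, ← nsmul_eq_mul, ← Finset.sum_const]
  refine Finset.sum_congr rfl fun h _ => ?_
  rw [eq_comm, ← Equiv.sum_comp (MulAut.conj h).toEquiv]
  refine Finset.sum_congr rfl fun a _ => ?_
  rw [← Equiv.sum_comp (MulAut.conj h).toEquiv]
  refine Finset.sum_congr rfl fun b _ => ?_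
  show F (h * a * h⁻¹) (h * b * h⁻¹) * (if t (h * a * h⁻¹) (h * b * h⁻¹) = u then 1 else 0) = _
  rw [hF, ht]

theorem exists_retr {p : ℕ} [Fact p.Prime] (hS : CfsgH2.Syl p P ⊤)
    (hn : HasNormalPComplement p G) :
    ∃ π : G →* G, (∀ g, π g ∈ P) ∧ (∀ g ∈ P, π g = g) ∧ ∀ g, IsConj (ppart p g) (π g) := by
  set q := QuotientGroup.mk' (pPrimeCore p G)
  have hq : ∀ g, q g = 1 ↔ ¬ p ∣ orderOf g := fun g => by
    rw [QuotientGroup.mk'_apply, QuotientGroup.eq_one_iff]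
    exact ⟨fun h1 h2 => not_dvd_card_pPrimeCore p (h2.trans (Subgroup.orderOf_dvd_natCard _ h1)),
      npc_iff_reg.1 hn g⟩
  have hb : Function.Bijective (q.comp P.subtype) := by
    refine ⟨(injective_iff_map_eq_one _).2 fun a ha => Subtype.ext ?_, fun g => ?_⟩
    · rw [← ppart_of_pelt (CfsgH2.pgroup_mem_order hS.pg a.2)]
      exact ppart_of_reg ((hq _).1 ha)
    · obtain ⟨g, rfl⟩ := QuotientGroup.mk'_surjective _ g
      obtain ⟨v, hv, e⟩ : q g ∈ P.map q := by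
        rw [(hS.map q).eq_of_pgroup]
        · exact ⟨g, trivial, rfl⟩
        · obtain ⟨k, hk⟩ := npc_iff_index.1 hn
          exact (IsPGroup.of_card hk).to_subgroup _
      exact ⟨⟨v, hv⟩, e⟩
  set e := MulEquiv.ofBijective _ hb
  set π : G →* G := P.subtype.comp (e.symm.toMonoidHom.comp q)
  have h1 : ∀ g ∈ P, π g = g := fun g hg =>
    congrArg Subtype.val (e.symm_apply_apply ⟨g, hg⟩)
  refine ⟨π, fun g => (e.symm (q g)).2, h1, fun g => ?_⟩
  obtain ⟨c, -, hc⟩ := hS.exists_conj_le (isPGroup_zpowers_of_pelt (pelt_ppart p g)) le_top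
  have h2 := h1 _ (hc (CfsgH2.conj_mem_map_cj (Subgroup.mem_zpowers _)))
  have h3 : π (rpart p g) = 1 := by
    show ((e.symm (q _) : P) : G) = 1
    rw [(hq _).2 (ppart_eq_one_iff.1 (ppart_rpart p g)), map_one, Subgroup.coe_one]
  have h4 : π g = π (ppart p g) := by
    conv_lhs => rw [← ppart_mul_rpart (p := p) g, map_mul, h3, mul_one]
  rw [map_mul, map_mul, map_inv, ← h4] at h2
  exact (isConj_iff.2 ⟨c, h2.symm⟩).trans (isConj_iff.2 ⟨π c, rfl⟩).symm

theorem Dh.conj_out (h : Dh P x n) (hy : y ∈ P) (h1 : y ∉ Z[x]) {a : G} (ha : a ∈ P)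
    (h2 : a ∉ Z[x]) : IsConj y a ∨ IsConj (x * y) a := by
  have h3 : a * y ∈ Z[x] := by
    have := (Subgroup.mul_mem_iff_of_index_two h.idx (a := ⟨a, ha⟩) (b := ⟨y, hy⟩)).2
      (iff_of_false h2 h1)
    exact this
  obtain ⟨k, hk⟩ := (Subgroup.mem_zpowers_iff).1 h3
  have h4 : a = x ^ k * y := by rw [hk, mul_assoc, (h.out y hy h1).1, mul_one]
  have h5 : ∀ j : ℤ, x ^ j * y * (x ^ j)⁻¹ = x ^ (2 * j) * y := fun j => by
    have := h.inverts hy h1 (u := (x ^ j)⁻¹) (inv_mem (Subgroup.zpow_mem_zpowers x j))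
    rw [inv_inv, mul_inv_eq_iff_eq_mul] at this
    rw [mul_assoc, this, ← mul_assoc, ← zpow_add, two_mul]
  obtain ⟨j, rfl | rfl⟩ := Int.even_or_odd' k
  · exact Or.inl (isConj_iff.2 ⟨_, (h5 j).trans h4.symm⟩)
  · refine Or.inr (isConj_iff.2 ⟨x ^ j, ?_⟩)
    rw [h4, add_comm, zpow_add, zpow_one, mul_assoc x, ← h5]
    group

theorem Dh.not_conj (h : Dh P x n) (hy : y ∈ P) (h1 : y ∉ Z[x]) {c : G} (hc : c ∈ P) :
    c * y * c⁻¹ ≠ x * y := fun e => by
  have h5 : ∀ u ∈ Z[x], u * y * u⁻¹ ≠ x * y := fun u hu e => by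
    have := h.inverts hy h1 (inv_mem hu)
    rw [inv_inv, mul_inv_eq_iff_eq_mul] at this
    rw [mul_assoc, this, ← mul_assoc, mul_left_inj] at e
    obtain ⟨k, rfl⟩ := (Subgroup.mem_zpowers_iff).1 hu
    have h6 : x ^ (2 * k - 1) = 1 := by rw [zpow_sub, two_mul, zpow_add, e]; simp
    rw [← orderOf_dvd_iff_zpow_eq_one, h.ord] at h6
    have := (Dvd.intro_left _ (by push_cast; rw [pow_succ]) : (2 : ℤ) ∣ _).trans h6
    omega
  by_cases h2 : c ∈ Z[x]
  · exact h5 c h2 e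
  · refine h5 (c * y) ((Subgroup.mul_mem_iff_of_index_two h.idx (a := ⟨c, hc⟩)
      (b := ⟨y, hy⟩)).2 (iff_of_false h2 h1)) ?_
    rw [← e]
    group

open Classical in
theorem Dh.local_sum (h : Dh P x n) (hS : CfsgH2.Syl 2 P ⊤) (hn : HasNormalPComplement 2 G)
    {J : G} (hJ : J = x ^ 2 ^ (n + 1)) (hc : ∀ g, g * J = J * g) (hy : y ∈ P) (h1 : y ∉ Z[x])
    {Θ : G → ℂ} (hΘ : ∀ g, ∀ u ∈ Z[x], IsConj (ppart 2 g) u → Θ g = Θ u) (h0 : Θ 1 = 0)
    (h4 : ∀ u ∈ Z[x], Θ (u * J) + Θ u = 4) :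
    ∑ a, ∑ b, ((if orderOf a = 2 then 1 else 0) * (if orderOf b = 2 then 1 else 0) * Θ (a * b)) *
      (if (a * b) ^ (orderOf (a * b) / 2) = J then 1 else 0) =
      2 * ((C1[y].index : ℂ) + C1[x * y].index) ^ 2 := by
  obtain ⟨π, π1, π2, π3⟩ := exists_retr hS hn
  obtain ⟨F, hF⟩ : ∃ F : G → ℂ, ∀ a, F a = classInd y a + classInd (x * y) a := ⟨_, fun _ => rfl⟩
  have hJ2 : J * J = 1 := by rw [hJ]; exact h.z_sq
  have hJm : J ∈ Z[x] := by rw [hJ]; exact h.z_mem
  have hxy : x * y ∉ Z[x] := fun e => h1 ((mul_mem_cancel_left (Subgroup.mem_zpowers x)).1 e)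
  have hxy' := P.mul_mem h.mem hy
  have cJ : ∀ a, IsConj a J → a = J := fun a ha => by
    obtain ⟨c, e⟩ := isConj_iff.1 ha.symm
    rw [← e, hc, mul_inv_cancel_right]
  have inv : ∀ a, orderOf a = 2 → IsConj a (π a) := fun a ha => by
    simpa only [ppart_of_pelt (p := 2) ⟨1, ha⟩] using π3 a
  have out : ∀ a, orderOf a = 2 → a ≠ J → π a ∉ Z[x] := fun a ha h2 h3 => by
    obtain ⟨c, e⟩ := isConj_iff.1 (inv a ha)
    rw [← CfsgH2.orderOf_conj' c, e, orderOf_two_iff] at ha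
    exact h2 (cJ a (isConj_iff.2 ⟨c, e.trans ((h.eq_z h3 ha.2 ha.1).trans hJ.symm)⟩))
  have ord : ∀ v ∈ P, v ∉ Z[x] → ∀ a, IsConj v a → orderOf a = 2 ∧ a ≠ J := fun v hv h2 a ha => by
    refine ⟨?_, fun e => h2 (by rw [cJ v (e ▸ ha)]; exact hJm)⟩
    obtain ⟨c, rfl⟩ := isConj_iff.1 ha
    rw [CfsgH2.orderOf_conj', orderOf_two_iff]
    exact ⟨(h.out v hv h2).1, fun e => h2 (e ▸ one_mem _)⟩
  have nc : ¬ IsConj y (x * y) := fun e => by
    obtain ⟨c, e⟩ := isConj_iff.1 e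
    refine h.not_conj hy h1 (π1 c) ?_
    rw [← π2 _ hxy', ← e, map_mul, map_mul, map_inv, π2 y hy]
  have hF1 : ∀ a, F a = if orderOf a = 2 ∧ a ≠ J then 1 else 0 := fun a => by
    split_ifs with ha
    · rcases h.conj_out hy h1 (π1 a) (out a ha.1 ha.2) with e | e
      · have e' := e.trans (inv a ha.1).symm
        simp only [hF, classInd_of_isConj e', classInd_of_not_isConj fun e2 => nc (e'.trans e2.symm),
          add_zero]
      · have e' := e.trans (inv a ha.1).symm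
        simp only [hF, classInd_of_isConj e', classInd_of_not_isConj fun e2 => nc (e2.trans e'.symm),
          zero_add]
    · simp only [hF, classInd_of_not_isConj fun e => ha (ord _ hy h1 a e),
        classInd_of_not_isConj fun e => ha (ord _ hxy' hxy a e), add_zero]
  have mem : ∀ a b, orderOf a = 2 ∧ a ≠ J → orderOf b = 2 ∧ b ≠ J → π (a * b) ∈ Z[x] :=
    fun a b ha hb => by
      rw [map_mul]
      exact (Subgroup.mul_mem_iff_of_index_two h.idx (a := ⟨π a, π1 a⟩) (b := ⟨π b, π1 b⟩)).2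
        (iff_of_false (out a ha.1 ha.2) (out b hb.1 hb.2))
  have hJb : ∀ b, orderOf b = 2 → Θ (J * b) * (if (J * b) ^ (orderOf (J * b) / 2) = J then 1 else 0)
      = 0 := fun b hb => by
    rw [orderOf_two_iff] at hb
    by_cases e : J * b = 1
    · rw [e, h0, zero_mul]
    · have : orderOf (J * b) = 2 := orderOf_two_iff.2 ⟨by
        rw [mul_assoc, ← mul_assoc b, hc, mul_assoc, hb.1, mul_one, hJ2], e⟩
      rw [this, if_neg (by simpa using hb.2), mul_zero]
  have key : ∀ a b, ((if orderOf a = 2 then 1 else 0) * (if orderOf b = 2 then 1 else 0) *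
      Θ (a * b)) * (if (a * b) ^ (orderOf (a * b) / 2) = J then 1 else 0) =
      F a * F b * Θ (π (a * b)) := fun a b => by
    rw [hF1, hF1]
    by_cases ha : orderOf a = 2
    swap
    · simp [ha]
    by_cases hb : orderOf b = 2
    swap
    · simp [hb]
    by_cases ha' : a = J
    · rw [mul_assoc, ha', hJb b hb]; simp
    by_cases hb' : b = J
    · rw [mul_assoc, hb', hc, hJb a ha]; simp
    have hm := mem a b ⟨ha, ha'⟩ ⟨hb, hb'⟩
    simp only [ha, hb, ha', hb', if_true, ne_eq, not_false_eq_true, and_self, one_mul]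
    rw [hΘ _ _ hm (π3 _)]
    by_cases e : π (a * b) = 1
    · rw [e, h0, zero_mul]
    have h5 : 2 ∣ orderOf (a * b) := by
      by_contra h5
      exact e (isConj_one_right.1 (by simpa only [ppart_of_reg h5] using π3 (a * b)))
    have h6 : orderOf ((a * b) ^ (orderOf (a * b) / 2)) = 2 :=
      orderOf_pow_orderOf_div (orderOf_pos _).ne' h5
    rw [if_pos, mul_one]
    by_contra h7
    exact out _ h6 h7 (by rw [map_pow]; exact pow_mem hm _)
  have hw : ∀ v ∈ P, v ∉ Z[x] → x ^ 2 ^ n * v * (x ^ 2 ^ n)⁻¹ = v * J := fun v hv h2 => by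
    have := h.inverts hv h2 (u := (x ^ 2 ^ n)⁻¹) (inv_mem (Subgroup.npow_mem_zpowers x _))
    rw [inv_inv, mul_inv_eq_iff_eq_mul] at this
    rw [mul_assoc, this, ← mul_assoc, ← pow_add, ← two_mul, ← pow_succ', ← hJ, hc]
  have cF : IsClassFunction G F := fun a c => by
    simp only [hF, isClassFunction_classInd _ a c]
  have sF : ∑ a, F a = (C1[y].index : ℂ) + C1[x * y].index := by
    have e1 := sum_classInd_mul (ψ := fun _ : G => (1 : ℂ)) (fun _ _ => rfl)
    simp only [mul_one] at e1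
    simp only [hF, Finset.sum_add_distrib, e1]
  have key2 : ∀ a, 2 * ∑ b, F a * F b * Θ (π (a * b)) = ∑ b, 4 * (F a * F b) := fun a => by
    rw [two_mul]
    nth_rw 1 [← Equiv.sum_comp (MulAut.conj (x ^ 2 ^ n)).toEquiv]
    rw [← Finset.sum_add_distrib]
    refine Finset.sum_congr rfl fun b _ => ?_
    show F a * F (x ^ 2 ^ n * b * (x ^ 2 ^ n)⁻¹) * Θ (π (a * (x ^ 2 ^ n * b * (x ^ 2 ^ n)⁻¹))) + _
      = _
    rw [cF, ← mul_add, hF1, hF1]
    split_ifs with ha hb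
    · have e : π (a * (x ^ 2 ^ n * b * (x ^ 2 ^ n)⁻¹)) = π (a * b) * J := by
        rw [map_mul, map_mul, map_mul, map_inv, π2 _ (pow_mem h.mem _),
          hw _ (π1 b) (out b hb.1 hb.2), map_mul, mul_assoc]
      rw [e, h4 _ (mem a b ha hb), mul_comm]
    all_goals simp
  simp only [key]
  have : 2 * ∑ a, ∑ b, F a * F b * Θ (π (a * b)) = 4 * (∑ a, F a) ^ 2 := by
    rw [Finset.mul_sum, sq, Finset.sum_mul_sum, Finset.mul_sum]
    simp only [key2, Finset.mul_sum]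
  rw [← sF]
  linear_combination this / 2

theorem Dh.conj_z (h : Dh P x n) (hS : CfsgH2.Syl 2 P ⊤) (hy : y ∈ P) (h1 : y ∉ Z[x])
    (c1 : IsConj (x ^ 2 ^ (n + 1)) y) (c2 : IsConj (x ^ 2 ^ (n + 1)) (x * y)) {a : G} :
    IsConj (x ^ 2 ^ (n + 1)) a ↔ orderOf a = 2 := by
  refine ⟨fun e => ?_, fun ha => ?_⟩
  · obtain ⟨c, rfl⟩ := isConj_iff.1 e
    rw [CfsgH2.orderOf_conj', h.ord_z]
  obtain ⟨g, hg⟩ := GQ.exists_conj_mem hS ⟨1, ha⟩
  refine IsConj.trans ?_ (isConj_iff.2 ⟨g, rfl⟩).symm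
  rw [← CfsgH2.orderOf_conj' g, orderOf_two_iff] at ha
  by_cases h2 : g * a * g⁻¹ ∈ Z[x]
  · rw [h.eq_z h2 ha.2 ha.1]
  · exact (h.conj_out hy h1 hg h2).elim c1.trans c2.trans

theorem Dh.pair_sum (M : Ideal AlgInt) [PMod 2 M] (h : Dh P x n) (hS : CfsgH2.Syl 2 P ⊤)
    {J : G} (hJ : J = x ^ 2 ^ (n + 1)) (hy : y ∈ P) (h1 : y ∉ Z[x]) (c1 : IsConj J y)
    (c2 : IsConj J (x * y)) {Θ : G → ℂ} (cΘ : IsClassFunction G Θ)
    (hΘ : ∀ g, ∀ u ∈ Z[x], IsConj (ppart 2 g) u → Θ g = Θ u) (h0 : Θ 1 = 0)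
    (h4 : ∀ u ∈ Z[x], Θ (u * J) + Θ u = 4) :
    (Nat.card C1[J] : ℂ) * ∑ a, ∑ b, classInd J a * classInd J b * Θ (a * b) =
      Nat.card G * (2 * ((Nat.card C1[J] : ℂ) / Nat.card (C1[J] ⊓ C1[y] : Subgroup G) +
        Nat.card C1[J] / Nat.card (C1[J] ⊓ C1[x * y] : Subgroup G)) ^ 2) := by
  classical
  have hz : ∀ {a}, IsConj J a ↔ orderOf a = 2 := by
    subst hJ; exact h.conj_z hS hy h1 c1 c2
  have hJ2 : J⁻¹ = J := by rw [hJ]; exact inv_eq_of_mul_eq_one_right h.z_sq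
  have hl : P ≤ C1[J] := by rw [hJ, ← centralizer_zpowers]; exact h.le_cent
  have e1 : ∀ a b, classInd J a * classInd J b * Θ (a * b) = classInd J a * classInd J b *
      Θ (a * b) * classInd J ((a * b) ^ (orderOf (a * b) / 2)) := fun a b => by
    by_cases h5 : 2 ∣ orderOf (a * b)
    · rw [classInd_of_isConj (hz.2 (orderOf_pow_orderOf_div (orderOf_pos _).ne' h5)), mul_one]
    · rw [hΘ _ 1 (one_mem _) (by rw [ppart_of_reg h5]), h0, mul_zero, zero_mul]
  rw [Finset.sum_congr rfl fun a _ => Finset.sum_congr rfl fun b _ => e1 a b,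
    card_mul_sum_eqv J (F := fun a b => classInd J a * classInd J b * Θ (a * b))
    (t := fun a b => (a * b) ^ (orderOf (a * b) / 2)) (fun c a b => by
      simp only [isClassFunction_classInd _ _ c, conj_mul, cΘ _ c]) (fun c a b => by
      simp only [conj_mul, CfsgH2.orderOf_conj', conj_pow])]
  congr 1
  have e2 : ∀ a, classInd J a = if orderOf a = 2 then 1 else 0 := fun a => by
    simp only [classInd, hz]
  have hJm : J ∈ C1[J] := Subgroup.mem_centralizer_singleton_iff.2 rfl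
  have := (h.subgroupOf hl).local_sum (hS.mono hl le_top).subgroupOf (CfsgH2.npc_iff.2 (by
    rw [← centralizer_zpowers, hJ]
    exact h.npc M ⟨hS.le, hS.pg, hS.nd⟩ h.z_mem h.z_ne)) (J := ⟨J, hJm⟩) (Subtype.ext hJ)
    (fun g => Subtype.ext (Subgroup.mem_centralizer_singleton_iff.1 g.2)) (y := ⟨y, hl hy⟩) hy
    (fun e => h1 (by obtain ⟨k, e⟩ := e; exact ⟨k, congrArg Subtype.val e⟩))
    (Θ := fun g => Θ g) (fun g u ⟨k, hu⟩ e => hΘ _ _ ⟨k, congrArg Subtype.val hu⟩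
      (by rw [← coe_ppart]; exact (C1[J]).subtype.map_isConj e)) h0
    (fun u ⟨k, hu⟩ => h4 _ ⟨k, congrArg Subtype.val hu⟩)
  have e3 : ∀ v : C1[J], ((C1[v] : Subgroup C1[J]).index : ℂ) =
      (Nat.card C1[J] : ℂ) / Nat.card (C1[J] ⊓ C1[(v : G)] : Subgroup G) := fun v => by
    rw [← card_centralizer_coe, eq_div_iff (by exact_mod_cast Nat.card_pos.ne'), ← Nat.cast_mul,
      Subgroup.index_mul_card]
  rw [e3, e3] at this
  refine Eq.trans ?_ this
  have e4 : ∀ a b : G, a ∉ C1[J] ∨ b ∉ C1[J] → classInd J a * classInd J b * Θ (a * b) *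
      (if (a * b) ^ (orderOf (a * b) / 2) = J then 1 else 0) = 0 := fun a b hab => by
    rw [e2, e2]
    split_ifs with ha hb e
    · rw [orderOf_two_iff] at ha hb
      have i1 := inv_eq_of_mul_eq_one_right ha.1
      have i2 := inv_eq_of_mul_eq_one_right hb.1
      have e5 : ∀ c, c * (a * b) * c⁻¹ = (a * b)⁻¹ → c ∈ C1[J] := fun c hc => by
        rw [Subgroup.mem_centralizer_singleton_iff, ← mul_inv_eq_iff_eq_mul, ← e, ← conj_pow, hc,
          inv_pow, e, hJ2]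
      exact absurd hab (not_or.2 ⟨not_not.2 (e5 a (by
        rw [← mul_assoc, ha.1, one_mul, mul_inv_rev, i2])), not_not.2 (e5 b (by
        rw [mul_inv_rev, i1, i2, mul_assoc, mul_assoc, hb.1, mul_one]))⟩)
    all_goals simp
  rw [← Finset.sum_filter_of_ne (p := (· ∈ C1[J])) fun a _ ha => by
    by_contra e; exact ha (Finset.sum_eq_zero fun b _ => e4 a b (Or.inl e)), ← sum_subgroup_eq]
  refine Finset.sum_congr rfl fun a _ => ?_
  rw [← Finset.sum_filter_of_ne (p := (· ∈ C1[J])) fun b _ hb => by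
    by_contra e; exact hb (e4 a b (Or.inr e)), ← sum_subgroup_eq]
  refine Finset.sum_congr rfl fun b _ => ?_
  simp only [e2, Subtype.ext_iff, ← Subgroup.orderOf_coe, Subgroup.coe_mul, Subgroup.coe_pow]

end CfsgH4
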