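import Cfsg.Agent.H4.Mx
import Cfsg.Agent.H2.Core

/-! Averaging idempotents and kernels of blocks along Brauer pairs. -/

set_option autoImplicit false
open Cfsg MonoidAlgebra CfsgL0 CfsgH1 CfsgH4
open CfsgH3 hiding cj cj_cj
open scoped ComplexConjugate

namespace CfsgH4

variable {G : Type*} [Group G] [Finite G] {M : Ideal AlgInt}

local notation "C[" Q "]" => Subgroup.centralizer (SetLike.coe (Q : Subgroup _))
local notation "N[" Q "]" => Subgroup.normalizer (SetLike.coe (Q : Subgroup _))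

section Eps
variable {F : Type*} [Field F] {L L' K : Subgroup G} {a b : F[G]}

/-- `L` fixes `a` under left multiplication. -/
def Lf (L : Subgroup G) (a : F[G]) : Prop := ∀ l ∈ L, single l 1 * a = a

omit [Finite G] in
theorem Lf.mono (h : Lf L a) (h' : L' ≤ L) : Lf L' a := fun l hl => h l (h' hl)

omit [Finite G] in
theorem Lf.mul (h : Lf L a) (b : F[G]) : Lf L (a * b) := fun l hl => by
  rw [← mul_assoc, h l hl]

omit [Finite G] in
theorem Lf.cnj (h : Lf L a) (x : G) : Lf (cj x L) (cnj x a) := fun l hl => by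
  have := congrArg (CfsgH4.cnj x) (h _ (mem_cj.1 hl))
  rw [map_mul, cnj_single] at this
  simpa [mul_assoc] using this

variable (F) in
open Classical in
/-- The averaging element of `L`. -/
noncomputable def eps (L : Subgroup G) : F[G] := mk fun g => if g ∈ L then (Nat.card L : F)⁻¹ else 0

open Classical in
theorem coeff_eps (g : G) : (eps F L).coeff g = if g ∈ L then (Nat.card L : F)⁻¹ else 0 :=
  coeff_mk _ _

theorem supp_eps : Supp L (eps F L) := fun g hg => by rw [coeff_eps, if_neg hg]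

theorem cnj_eps (x : G) : cnj x (eps F L) = eps F (cj x L) := by
  refine ga_ext fun g => ?_
  classical
  rw [coeff_cnj, coeff_eps, coeff_eps, card_cj]
  by_cases h : g ∈ cj x L
  · rw [if_pos h, if_pos (mem_cj.1 h)]
  · rw [if_neg h, if_neg (fun h' => h (mem_cj.2 h'))]

theorem inv_eps (h : K ≤ N[L]) : Inv K (eps F L) := fun x hx => by
  rw [cnj_eps, mem_normalizer_iff_cj.1 (h hx)]

theorem lf_eps : Lf L (eps F L) := fun l hl => by
  refine ga_ext fun g => ?_
  have : (single l (1 : F) * eps F L).coeff g = (eps F L).coeff (l⁻¹ * g) := by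
    simp
  rw [this, coeff_eps, coeff_eps]
  by_cases h : g ∈ L
  · rw [if_pos h, if_pos (mul_mem (inv_mem hl) h)]
  · rw [if_neg h, if_neg (fun h' => h ((L.mul_mem_cancel_left (L.inv_mem hl)).1 h'))]

theorem eps_mul_of_fx (hL : (Nat.card L : F) ≠ 0) (h : Lf L a) : eps F L * a = a := by
  classical
  have := Fintype.ofFinite G
  rw [eq_sum_single (eps F L), Finset.sum_mul]
  have h1 : ∀ g, single g ((eps F L).coeff g) * a =
      if g ∈ L then (Nat.card L : F)⁻¹ • a else 0 := by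
    intro g
    rw [coeff_eps]
    split_ifs with hg
    · conv_rhs => rw [← h g hg]
      rw [← smul_mul_assoc, smul_single, smul_eq_mul, mul_one]
    · simp
  simp only [h1]
  rw [← Finset.sum_filter, Finset.sum_const, ← Nat.cast_smul_eq_nsmul F, smul_smul]
  have : (Finset.univ.filter (· ∈ L)).card = Nat.card L := by
    rw [Nat.card_eq_fintype_card, Fintype.card_subtype]
  rw [this, mul_inv_cancel₀ hL, one_smul]

theorem eps_mul_iff (hL : (Nat.card L : F) ≠ 0) : eps F L * a = a ↔ Lf L a :=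
  ⟨fun h => h ▸ lf_eps.mul a, eps_mul_of_fx hL⟩

theorem eps_idem (hL : (Nat.card L : F) ≠ 0) : eps F L * eps F L = eps F L :=
  eps_mul_of_fx hL lf_eps

variable {p : ℕ} [Fact p.Prime] [CharP F p] {P Q R : Subgroup G} {e f g : F[G]}

omit [Finite G] [Fact p.Prime] in
variable (F) in
theorem card_ne_zero_of_not_dvd (hL : ¬ p ∣ Nat.card L) : (Nat.card L : F) ≠ 0 := fun h =>
  hL ((CharP.cast_eq_zero_iff F p _).1 h)

theorem br_eps (hL : ¬ p ∣ Nat.card L) (hR : IsPGroup p R) (h : R ≤ N[L]) :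
    br R (eps F L) = eps F (L ⊓ C[R]) := by
  classical
  have h1 := card_ne_zero_of_not_dvd F hL
  have h2 : (Nat.card (L ⊓ C[R] : Subgroup G) : F) ≠ 0 := card_ne_zero_of_not_dvd F fun h =>
    hL (h.trans (Subgroup.card_dvd_of_le inf_le_left))
  have h3 : br R (eps F L) = ((Nat.card L : F)⁻¹ * Nat.card (L ⊓ C[R] : Subgroup G)) •
      eps F (L ⊓ C[R]) := by
    refine ga_ext fun g => ?_
    rw [br_def, coeff_cut, coeff_eps, coeff_smul, Finsupp.smul_apply, coeff_eps]
    generalize (Nat.card (L ⊓ C[R] : Subgroup G) : F) = c at h2 ⊢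
    by_cases h3 : g ∈ L <;> by_cases h4 : g ∈ C[R] <;> simp [h3, h4, h2]
  have h4 := br_idem hR (inv_eps (F := F) h) (eps_idem h1)
  rw [h3, smul_mul_smul_comm, eps_idem h2] at h4
  have h5 := congrArg (fun z : F[G] => z.coeff 1) h4
  simp only [coeff_smul, Finsupp.smul_apply, coeff_eps, one_mem, if_true, smul_eq_mul] at h5
  have h6 : (Nat.card L : F)⁻¹ * Nat.card (L ⊓ C[R] : Subgroup G) = 1 :=
    mul_right_cancel₀ (mul_ne_zero (inv_ne_zero h1) h2)
      ((mul_right_cancel₀ (inv_ne_zero h2) h5).trans (one_mul _).symm)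
  rw [h3, h6, one_smul]

theorem NSub.lf_iff (h : NSub p Q f P e) (hL : ¬ p ∣ Nat.card L) (h1 : L ≤ C[Q])
    (h2 : P ≤ N[L]) (h3 : C[Q] ≤ N[L]) : Lf (L ⊓ C[P]) e ↔ Lf L f := by
  have h4 := h.mul_iff (inv_eps h2) (inv_eps h3) (eps_idem (card_ne_zero_of_not_dvd F hL))
  rw [br_eps hL h.right.pgrp h2, br_of_supp (supp_eps.mono h1),
    eps_mul_iff (card_ne_zero_of_not_dvd F hL), eps_mul_iff] at h4
  · exact h4
  · exact card_ne_zero_of_not_dvd F fun h => hL (h.trans (Subgroup.card_dvd_of_le inf_le_left))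

/-- A normal `p'`-subgroup lies in the kernel of a block iff its fixed points lie in the kernel of
a Brauer pair belonging to the block. -/
theorem IsBlk.lf_iff (hb : IsBlk K K b) (hL : ¬ p ∣ Nat.card L) (h1 : L ≤ K) (h2 : K ≤ N[L])
    (hQ : IsPGroup p Q) (hQK : Q ≤ K) (hg : g ≠ 0) (h : br Q b * g = g) :
    Lf L b ↔ Lf (L ⊓ C[Q]) g := by
  have h0 := card_ne_zero_of_not_dvd F hL
  have h0' : (Nat.card (L ⊓ C[Q] : Subgroup G) : F) ≠ 0 :=
    card_ne_zero_of_not_dvd F fun h => hL (h.trans (Subgroup.card_dvd_of_le inf_le_left))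
  have h3 : br Q (eps F L * b) * g = eps F (L ⊓ C[Q]) * g := by
    rw [br_mul' hQ (inv_eps (hQK.trans h2)) (hb.inv.mono hQK), br_eps hL hQ (hQK.trans h2),
      mul_assoc, h]
  rw [← eps_mul_iff h0, ← eps_mul_iff h0', ← h3]
  refine ⟨fun h4 => by rw [h4, h], fun h4 => hb.mul_eq_of_ne ⟨supp_eps.mono h1, inv_eps h2⟩
    (eps_idem h0) fun h5 => hg ?_⟩
  rw [← h4, h5, map_zero, zero_mul]

theorem PLe.lf_down {ρ : Set ℕ} (hρ : p ∉ ρ) (h : PLe p Q f P e)
    (h1 : Lf (piCoreOf ρ C[P]) e) : Lf (piCoreOf ρ C[Q]) f := by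
  induction Q using up_ind generalizing f with
  | h Q ih =>
    rcases h.cases with ⟨rfl, rfl⟩ | ⟨R, g, h2, h3, h4⟩
    · exact h1
    refine (h3.lf_iff (fun hd => hρ (CfsgH2.piN_piCoreOf p Fact.out hd)) CfsgH2.piCoreOf_le
      (h3.norm.trans ((norm_le_norm_cent Q).trans CfsgH2.norm_le_norm_piCoreOf))
      CfsgH2.le_norm_piCoreOf).1 ((ih R h2 h4).mono ?_)
    exact CfsgH2.inf_piCoreOf_le (cent_anti h2.le)

theorem PLe.lf_up {S : G → Prop} (hS : ∀ x y, S y → S (x * y * x⁻¹)) (h : PLe p Q f P e)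
    (hL : ¬ p ∣ Nat.card L) (h1 : ∀ y, y ∈ L ↔ y ∈ C[Q] ∧ S y) (h2 : Lf L f) :
    Lf (L ⊓ C[P]) e := by
  have h3 : L ≤ C[Q] := fun y hy => ((h1 y).1 hy).1
  refine h.ind (X := fun R g => Lf (L ⊓ C[R]) g) (h2.mono inf_le_left) fun R g T k h4 h5 h6 => ?_
  have h7 : N[R] ≤ N[L ⊓ C[R]] := fun x hx => CfsgL0.mem_normalizer_of_conj_mem fun y hy => by
    have := CfsgL0.conj_mem_of_mem_normalizer (norm_le_norm_cent R hx) hy.2
    exact ⟨(h1 _).2 ⟨cent_anti h4.le this, hS _ _ ((h1 y).1 hy.1).2⟩, this⟩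
  refine ((h5.lf_iff (fun hd => hL (hd.trans (Subgroup.card_dvd_of_le inf_le_left))) inf_le_right
    (h5.norm.trans h7) ((cent_le_norm R).trans h7)).2 h6).mono ?_
  exact le_inf (inf_le_inf_left _ (cent_anti h5.le)) inf_le_right

theorem MaxPr.lf_down {ρ : Set ℕ} (hρ : p ∉ ρ) (hm : MaxPr p b P e)
    (h1 : Lf (piCoreOf ρ C[P]) e) (hQ : Pr p Q f) (h : br Q b * f = f) :
    Lf (piCoreOf ρ C[Q]) f := by
  obtain ⟨x, hx⟩ := hm.exists_cnj_ple hQ h
  have := (hx.lf_down hρ h1).cnj x⁻¹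
  rw [cnj_inv_cnj, ← cj_centralizer] at this
  refine this.mono (le_of_eq ?_)
  have h2 := CfsgH2.piCoreOf_map_cj (π := ρ) (M := C[Q]) x
  change piCoreOf ρ (cj x C[Q]) = cj x (piCoreOf ρ C[Q]) at h2
  rw [h2, cj_inv_cj]

end Eps

theorem lf_fB_iff {L : Subgroup G} {B : Set (IrrCharacter G)} :
    Lf L (fB B) ↔ ∀ l ∈ L, l ∈ blockKer B := by
  classical
  refine forall₂_congr fun l _ => ⟨fun h χ hχ => ?_, fun h => ?_⟩
  · have h1 := congrArg (ev χ.1) h
    rw [((inv_fB B).commute _).eq, ev_fB_mul_of_mem hχ, ev_single, one_mul] at h1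
    rw [h1, ← mul_one (fB B), ev_fB_mul_of_mem hχ, ev_one]
  · refine ga_ext fun g => ?_
    have : (single l (1 : ℂ) * fB B).coeff g = (fB B).coeff (l⁻¹ * g) := by simp
    rw [this, coeff_fB, coeff_fB, blockCoeff_eq, blockCoeff_eq]
    congr 1
    refine Finset.sum_congr rfl fun χ _ => ?_
    split_ifs with hχ
    · rw [χ.2.isCharacter.apply_mul_of_eq' (k := l⁻¹)]
      exact (χ.2.isCharacter.mem_charKer).1 (inv_mem ((χ.2.isCharacter.mem_charKer).2 (h χ hχ)))
    · rfl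

section PM
variable {p : ℕ} [hM : PMod p M]
include hM

theorem lf_eB_iff {L : Subgroup G} (hL : ¬ p ∣ Nat.card L) {B : Set (IrrCharacter G)}
    (hB : fB B ∈ LG G M) : Lf L (eB M B) ↔ ∀ l ∈ L, l ∈ blockKer B := by
  classical
  haveI : Fact p.Prime := ⟨PMod.prime M⟩
  rw [← lf_fB_iff]
  refine ⟨fun h => ?_, fun h l hl => ?_⟩
  · have h0 : (Nat.card L : ℂ) ≠ 0 := Nat.cast_ne_zero.2 Nat.card_pos.ne'
    have h1 : (Nat.card L : ℂ)⁻¹ ∈ Loc M := inv_natCast_mem_Loc hL
    have h2 : eps ℂ L ∈ LG G M := mk_mem_LG fun g => by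
      split_ifs
      · exact h1
      · exact zero_mem _
    have h3 : redG M (eps ℂ L) = eps (Res M) L := by
      refine ga_ext fun g => ?_
      rw [coeff_redG, coeff_eps, coeff_eps]
      split_ifs
      · refine eq_inv_of_mul_eq_one_left ?_
        rw [← red_natCast, ← red_mul h1 (natCast_mem _ _), inv_mul_cancel₀ h0, red_one]
      · exact red_zero
    have h4 := ((inv_fB B).commute (eps ℂ L)).eq
    rw [← eps_mul_iff h0]
    refine idem_eq_of_redG (mul_mem h2 hB) hB ?_ (fB_idem B) ?_ ?_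
    · rw [mul_assoc, ← mul_assoc (fB B), ← h4, mul_assoc, fB_idem, ← mul_assoc, eps_idem h0]
    · exact ((inv_fB B).commute _).eq
    · rw [redG_mul h2 hB, h3]
      exact eps_mul_of_fx (card_ne_zero_of_not_dvd _ hL) h
  · have := congrArg (redG M) (h l hl)
    rwa [redG_mul (single_one_mem_LG l) hB, redG_single_one] at this

theorem lf_ie_iff {K L : Subgroup G} (hL : ¬ p ∣ Nat.card L) (hLK : L ≤ K)
    {B : Set (IrrCharacter K)} (hB : fB B ∈ LG K M) :
    Lf L (ie M K B) ↔ ∀ l : K, (l : G) ∈ L → l ∈ blockKer B := by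
  refine Iff.trans ?_ (lf_eB_iff (L := L.subgroupOf K) (by
    rwa [Nat.card_congr (Subgroup.subgroupOfEquivOfLe hLK).toEquiv]) hB)
  refine ⟨fun h l hl => inc_injective K.subtype_injective ?_, fun h l hl => ?_⟩
  · rw [map_mul, inc_single]
    exact h l hl
  · have := congrArg (inc K.subtype) (h ⟨l, hLK hl⟩ hl)
    rwa [map_mul, inc_single] at this

end PM
end CfsgH4
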