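import Cfsg.Agent.H4.Gla3

/-! The Glauberman correspondence for a cyclic group of operators. -/

set_option autoImplicit false
open Cfsg CfsgH3 CfsgH1 Function
open CfsgH2 hiding cj
open scoped ComplexConjugate Pointwise

namespace CfsgH4

variable {Γ : Type*} [Group Γ] [Finite Γ] {G S C : Subgroup Γ} {a : Γ → ℂ} {s t : Γ}

/-- A group `G` with a coprime complement `S`. -/
structure GS (G S : Subgroup Γ) : Prop where
  nor : G.Normal
  cop : (Nat.card G).Coprime (Nat.card S)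
  top : G ⊔ S = ⊤

theorem GS.mk' (h1 : ∀ s ∈ S, ∀ g ∈ G, s * g * s⁻¹ ∈ G) (h2 : (Nat.card G).Coprime (Nat.card S))
    (h3 : G ⊔ S = ⊤) : GS G S :=
  ⟨Subgroup.normalizer_eq_top_iff.1 (eq_top_iff.2 (h3.ge.trans (sup_le Subgroup.le_normalizer
    fun s hs => mem_normalizer_of_conj_mem (h1 s hs)))), h2, h3⟩

namespace GS
variable (h : GS G S)
include h

theorem index : G.index = Nat.card S := by
  haveI := h.nor
  have := card_sup_of_coprime (Subgroup.le_normalizer_of_normal (H := G) (K := S)) h.cop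
  rw [h.top, Subgroup.card_top, ← G.card_mul_index] at this
  exact mul_left_cancel₀ Nat.card_pos.ne' this

theorem cop' : G.index.Coprime (Nat.card G) := h.index ▸ h.cop.symm

theorem ord (hs : s ∈ S) : orderOf s ∣ G.index := h.index ▸ orderOf_dvd_card_of_mem hs

omit [Finite Γ] in
theorem inv {χ : G → ℂ} (h1 : IsClassFunction G χ) (h2 : S ≤ aI χ) (x : Γ) :
    haveI := h.nor; cj x χ = χ :=
  haveI := h.nor
  mem_aI_iff_cj.1 ((h.top.ge.trans (sup_le (le_aI_self h1) h2)) trivial)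

theorem can {χ : G → ℂ} (h1 : IsIrrCharacter G χ) (h2 : IsIrrCharacter Γ a)
    (h3 : ∀ g : G, a g = χ g) (h4 : (detOrder a).Coprime (Nat.card S)) : Can G a :=
  ⟨h2, by rwa [funext h3], h.index ▸ h4.symm⟩

theorem gen_eq (ha : Can G a) (hs : Subgroup.zpowers s = S) (ht : Subgroup.zpowers t = S) {c : Γ}
    (hc : c ∈ G ⊓ C[S]) : a (c * t) = a (c * s) := by
  haveI := h.nor
  have h1 := hs ▸ Subgroup.mem_zpowers s
  obtain ⟨k, rfl⟩ := mem_powers_iff_mem_zpowers.2 ((ht.trans hs.symm) ▸ Subgroup.mem_zpowers t)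
  refine ha.apply_pow h.cop' ?_ hc.1 (hc.2 s h1).symm (h.ord h1)
  have h2 := (Nat.card_zpowers _).symm.trans (congrArg (fun H : Subgroup Γ => Nat.card H) ht)
  rw [orderOf_pow, ← Nat.card_zpowers, hs] at h2
  rw [h.index, Nat.Coprime, Nat.gcd_comm]
  exact ((Nat.div_eq_self).1 h2).resolve_left Nat.card_pos.ne'

end GS

omit [Finite Γ] in
theorem mem_range_of_cent (hC : G ⊓ C1[s] = C) (x : Γ) :
    x ∈ C.subtype.range ↔ x ∈ G ∧ Commute x s := by
  rw [Subgroup.range_subtype, ← hC, Subgroup.mem_inf, Subgroup.mem_centralizer_singleton_iff]; rfl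

omit [Finite Γ] in
theorem cent_gen (hs : Subgroup.zpowers s = S) : G ⊓ C1[s] = G ⊓ C[S] := by
  rw [← hs, Subgroup.zpowers_eq_closure, Subgroup.centralizer_closure]

omit [Finite Γ] in
theorem exists_gen (h : IsCyclic S) : ∃ s, Subgroup.zpowers s = S := by
  obtain ⟨s, hs⟩ := h.exists_generator
  exact ⟨s, le_antisymm (Subgroup.zpowers_le.2 s.2) fun x hx =>
    (hs ⟨x, hx⟩).imp fun k h => congrArg Subtype.val h⟩

/-- Isaacs, Theorem 13.32. -/
theorem exists_mod_of_frob {N : Subgroup Γ} [hG : G.Normal] [hN : N.Normal] (h : N ≤ G)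
    (hcyc : IsCyclic (Γ ⧸ G)) (hf : ∀ x ∉ G, ∀ g ∈ G, x * g * x⁻¹ * g⁻¹ ∈ N → g ∈ N)
    (hs : ∀ x ∉ G, x ^ G.index ∈ N) {θ : N → ℂ} (hθ : IsIrrCharacter N θ)
    (hinv : ∀ g : Γ, cj g θ = θ) (ha : IsCharacter Γ a) (h1 : IsIrrCharacter G fun g => a g) {e : ℕ}
    (h2 : ∀ n : N, a n = e * θ n) : ∃ q ε : ℤ, (ε = 1 ∨ ε = -1) ∧ e = G.index * q + ε := by
  classical
  by_cases h0 : G = ⊤
  · exact ⟨e - 1, 1, .inl rfl, by simp [h0]⟩
  obtain ⟨s, hs'⟩ := hcyc.exists_generator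
  obtain ⟨s, rfl⟩ := QuotientGroup.mk_surjective s
  have h3 : orderOf (s : Γ ⧸ G) = G.index := orderOf_eq_card_of_forall_mem_zpowers hs'
  have h4 : s ∉ G := fun h4 => h0 (by
    rwa [(QuotientGroup.eq_one_iff s).2 h4, orderOf_one, eq_comm, Subgroup.index_eq_one] at h3)
  set U := N ⊔ Subgroup.zpowers s
  have hU : N ≤ U := le_sup_left
  let s' : U := ⟨s, Subgroup.mem_sup_right (Subgroup.mem_zpowers s)⟩
  have h5 : ∀ x : U ⧸ N.subgroupOf U, x ∈ Subgroup.zpowers (s' : U ⧸ N.subgroupOf U) := fun x => by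
    obtain ⟨x, rfl⟩ := QuotientGroup.mk_surjective x
    obtain ⟨n, h5, _, ⟨k, rfl⟩, h6⟩ := mem_sup_normal_left.1 x.2
    refine ⟨k, ?_⟩
    rw [show x = ⟨n, hU h5⟩ * s' ^ k from Subtype.ext h6, QuotientGroup.mk_mul,
      (QuotientGroup.eq_one_iff (⟨n, hU h5⟩ : U)).2 (Subgroup.mem_subgroupOf.2 h5), one_mul]; rfl
  have h6 : ∀ k : ℤ, s ^ k ∈ G → s ^ k ∈ N := fun k hk => by
    obtain ⟨l, rfl⟩ : (G.index : ℤ) ∣ k := by
      rw [← h3, orderOf_dvd_iff_zpow_eq_one]; exact (QuotientGroup.eq_one_iff _).2 hk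
    rw [zpow_mul, zpow_natCast]; exact zpow_mem (hs s h4) l
  have h7 : Nat.card (U ⧸ N.subgroupOf U) = G.index := by
    rw [← orderOf_eq_card_of_forall_mem_zpowers h5, ← h3, orderOf_eq_orderOf_iff]
    intro k
    rw [← QuotientGroup.mk_pow, ← QuotientGroup.mk_pow, QuotientGroup.eq_one_iff,
      QuotientGroup.eq_one_iff, ← zpow_natCast s]
    exact ⟨fun h8 => h (zpow_natCast s k ▸ h8), fun h8 => ((zpow_natCast s k).subst
      (motive := (· ∈ N)) (h6 k h8) :)⟩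
  have h8 := (isIrr_subOf_iff hU).2 hθ
  obtain ⟨τ, h9, h10⟩ := exists_ext_of_cyclic h8 (fun g => by rw [cj_subOf, hinv]) ⟨_, h5⟩
  rw [← funext h10] at h8
  obtain ⟨η, h11, h12, h13⟩ := exists_eq_mul_of_over h9.isCharacter h8 (ha.restrict U) (e := e)
    fun n => by rw [h10]; exact h2 ⟨n, n.2⟩
  obtain ⟨ζ, h14, -, h15⟩ := h11.exists_deflation _ h12
  haveI := Fintype.ofFinite (U ⧸ N.subgroupOf U)
  haveI := Fintype.ofFinite (N.subgroupOf U)
  haveI := Fintype.ofFinite G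
  have h16 : ∀ x, x ≠ 1 → ‖ζ x‖ ^ 2 = 1 := fun x hx => by
    obtain ⟨k, rfl⟩ := h5 x
    have h16 : s ^ k ∉ G := fun h16 => hx ((QuotientGroup.eq_one_iff (s' ^ k)).2 (h6 k h16))
    have h17 := classInner_coset (j := U.subtype.comp (N.subgroupOf U).subtype) (s := s ^ k)
      (U.subtype_injective.comp (Subgroup.subtype_injective _)) (fun c => h c.2) (fun z hz c d h17 => by
        have h18 : z ∈ N := inv_mem_iff.1 (hf _ h16 _ (inv_mem hz) (by
          have h18 : ((d : U) : Γ) = z * ((c : U) * s ^ k) * z⁻¹ * (s ^ k)⁻¹ :=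
            eq_mul_inv_of_mul_eq h17.symm
          convert N.mul_mem (N.inv_mem (x := (c : U)) c.2) (hN.conj_mem' (d : U) d.2 z) using 1
          rw [h18]; group))
        exact ⟨⟨⟨z, hU h18⟩, h18⟩, rfl⟩) ha.isClassFunction ha.isClassFunction
    have h18 : (fun c : N.subgroupOf U => a ((U.subtype.comp (N.subgroupOf U).subtype) c * s ^ k)) =
        η (s' ^ k) • fun c : N.subgroupOf U => τ (c * s' ^ k) := funext fun c =>
      (congrFun h13 (c * s' ^ k)).trans (by rw [Pi.mul_apply, h11.apply_mul_of_eq' (h12 _ c.2)]; rfl)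
    rw [classInner_coset_self ha h1, h18, classInner_smul_left, classInner_smul_right,
      classInner_coset_self h9.isCharacter h8, mul_one, Complex.mul_conj', ← h15] at h17
    exact_mod_cast h17.symm
  obtain ⟨q, ε, -, h17, h18, -⟩ := near_regular (fun x y => by
    obtain ⟨k, rfl⟩ := h5 x
    obtain ⟨l, rfl⟩ := h5 y
    exact zpow_mul_comm _ _ _) h14.isGen (by
      rw [Finset.sum_congr rfl fun x hx => h16 x (Finset.ne_of_mem_erase hx)]
      simp [Nat.cast_sub (Fintype.card_pos (α := U ⧸ N.subgroupOf U))]) fun h17 => by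
    rw [Nat.card_eq_one_iff_exists]
    exact ⟨1, fun x => by_contra fun hx => by simpa [h17 x hx] using h16 x hx⟩
  have h19 := congrFun h13 1
  rw [Pi.mul_apply, ← h15, show τ 1 = θ 1 from h10 1, show a (1 : U) = _ from h2 1, QuotientGroup.mk_one,
    h18, h7] at h19
  exact ⟨q, ε, h17, by exact_mod_cast mul_right_cancel₀ hθ.apply_one_ne_zero h19⟩

end CfsgH4
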