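import Cfsg.Agent.H3.Rg

/-! Transfer of the Glauberman correspondence along an isomorphism of character triples. -/

set_option autoImplicit false
open Cfsg CfsgH3 CfsgH4 CfsgH1 CfsgRg Function
open CfsgH2 hiding cj cj_apply isPGroup_pCore le_pCore isNilpotent_map card_mul_relIndex
open scoped ComplexConjugate CfsgH2

namespace CfsgH4

section Br
variable {W X Y : Type*} [Group W] [Group X] [Group Y] [Fintype W] [Fintype X] [Fintype Y]

theorem avg_surj {a : W →* X} (ha : Surjective a) [Fintype a.ker] (F : X → ℂ) {G : W → ℂ}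
    (h : ∀ w, (Nat.card a.ker : ℂ)⁻¹ * ∑ n : a.ker, G (n * w) = 1) :
    (Nat.card W : ℂ)⁻¹ * ∑ w, F (a w) * G w = (Nat.card X : ℂ)⁻¹ * ∑ x, F x := by
  have h0 : ∀ (n : a.ker) x, a (n * surjInv ha x) = x := fun n x => by
    rw [map_mul, MonoidHom.mem_ker.1 n.2, one_mul, surjInv_eq ha]
  have h1 : Bijective fun y : X × a.ker => y.2 * surjInv ha y.1 := ⟨fun ⟨x, n⟩ ⟨y, m⟩ e => by
    obtain rfl : x = y := (h0 n x).symm.trans ((congrArg a e).trans (h0 m y))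
    rw [Subtype.ext (mul_right_cancel e : n.1 = m.1)], fun w =>
    ⟨⟨a w, w * (surjInv ha (a w))⁻¹, by simp [surjInv_eq ha]⟩, by simp⟩⟩
  rw [← h1.sum_comp, ← Nat.card_congr (Equiv.ofBijective _ h1), Nat.card_prod,
    Fintype.sum_prod_type, Nat.cast_mul, mul_inv, mul_assoc, Finset.mul_sum]
  refine congrArg _ (Finset.sum_congr rfl fun x _ => ?_)
  simp only [h0]
  rw [← Finset.mul_sum, mul_left_comm, h, mul_one]

theorem classInner_surj {a : W →* X} (ha : Surjective a) (f g : X → ℂ) :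
    classInner (fun w => f (a w)) (fun w => g (a w)) = classInner f g := by
  have := Fintype.ofFinite a.ker
  simpa [classInner] using avg_surj ha (fun x => f x * conj (g x)) (G := fun _ => 1) fun w => by
    rw [Finset.sum_const, Finset.card_univ, ← Nat.card_eq_fintype_card, nsmul_one,
      inv_mul_cancel₀ (natCard_ne_zero _)]

theorem isGen_of_comp {a : W →* X} (ha : Surjective a) {f : X → ℂ}
    (h : IsGeneralizedCharacter W fun w => f (a w)) : IsGeneralizedCharacter X f :=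
  isGen_of_inner_int (fun x y => by
    obtain ⟨x, rfl⟩ := ha x
    obtain ⟨y, rfl⟩ := ha y
    simpa using h.isClassFunction x y) fun φ hφ => by
    rw [← classInner_surj ha]; exact h.exists_int_classInner (hφ.isCharacter.comp a).isGen

theorem exists_defl {a : W →* X} (ha : Surjective a) {ξ : W → ℂ} (h : IsIrrCharacter W ξ)
    (h1 : ∀ n ∈ a.ker, ξ n = ξ 1) : ∃ β, IsIrrCharacter X β ∧ ∀ w, β (a w) = ξ w :=
  let ⟨β, e⟩ := exists_irrComp_eq_of_ker ha (ξ := ⟨ξ, h⟩) h1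
  ⟨β.1, β.2, congrFun (congrArg Subtype.val e)⟩

theorem inner_br {a : W →* X} {b : W →* Y} (ha : Surjective a) (hb : Surjective b) {τ : W → ℂ}
    (h1 : IsCharacter W τ) (h2 : IsIrrCharacter b.ker fun x => τ x) {β β' : Y → ℂ} {ψ ψ' : X → ℂ}
    (r : ∀ w, ψ (a w) = β (b w) * τ w) (r' : ∀ w, ψ' (a w) = β' (b w) * τ w) :
    classInner ψ ψ' = classInner β β' := by
  have := Fintype.ofFinite b.ker
  rw [← classInner_surj ha]
  refine Eq.trans ?_ (avg_surj hb (fun y => β y * conj (β' y)) (G := fun w => τ w * conj (τ w))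
    (classInner_coset_self h1 h2))
  simp only [classInner, r, r', map_mul]
  exact congrArg _ (Finset.sum_congr rfl fun w _ => by ring)

end Br

variable {Γ : Type*} [Group Γ] [Finite Γ] {Q U : Subgroup Γ}

theorem res_eq_smul (h : Q ≤ U) {θ : Q → ℂ} (hθ : IsIrrCharacter Q θ) (hU : U ≤ aI θ) {ψ : U → ℂ}
    (hψ : IsIrrCharacter U ψ) (o : Ov h ψ θ) : resLE h ψ = classInner (resLE h ψ) θ • θ := by
  obtain ⟨m, h1, h2⟩ := (hψ.isCharacter.resLE h).exists_eq_sum_irr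
  rw [h1 ⟨θ, hθ⟩]
  refine h2.trans (Finset.sum_eq_single _ (fun φ _ hφ => ?_) (by simp))
  by_contra h3
  obtain ⟨k, hk, e⟩ := exists_cA_eq h (hU.trans aI_le) hψ hθ φ.2 o
    (by rw [h1]; exact left_ne_zero_of_smul h3)
  exact hφ (Subtype.ext (e.trans (hU hk).2))

theorem ov_of_mid {D : Subgroup Γ} (h1 : Q ≤ D) (h2 : D ≤ U) {θ : Q → ℂ} (hθ : IsIrrCharacter Q θ)
    (hU : U ≤ aI θ) {ψ : U → ℂ} (hψ : IsIrrCharacter U ψ) (o : Ov (h1.trans h2) ψ θ) {η : D → ℂ}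
    (hη : IsIrrCharacter D η) (o' : Ov h2 ψ η) : Ov h1 η θ := by
  obtain ⟨φ, a, b⟩ := exists_irr_under' h1 hη
  obtain ⟨k, hk, e⟩ := exists_cA_eq (h1.trans h2) (hU.trans aI_le) hψ hθ a o
    (over_trans h1 h2 hψ.isCharacter hη a.isCharacter o' b)
  rwa [e, (hU hk).2] at b

variable {H Γ' : Type*} [Group H] [Finite H] [Group Γ'] [Finite Γ'] {π : H →* Γ} {q : H →* Γ'}
  {τ : H → ℂ} {Q' U' : Subgroup Γ'} {p : ℕ}

variable (π q) in
/-- matching subgroups -/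
structure Mt (U : Subgroup Γ) (U' : Subgroup Γ') : Prop where
  l : U ≤ π.range
  r : U' ≤ q.range
  iff : ∀ w, π w ∈ U ↔ q w ∈ U'

variable (π q τ) in
/-- matching characters -/
def Rl (β : U' → ℂ) (ψ : U → ℂ) : Prop :=
  ∀ w (h : π w ∈ U) (h' : q w ∈ U'), ψ ⟨π w, h⟩ = β ⟨q w, h'⟩ * τ w

variable (π q τ) in
structure Cx : Prop where
  chr : IsCharacter H τ
  irr : IsIrrCharacter q.ker fun x => τ x
  cent : π.ker ≤ Subgroup.center H

omit [Finite Γ] [Finite Γ'] [Finite H] in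
theorem Rl.res {β : U' → ℂ} {ψ : U → ℂ} (r : Rl π q τ β ψ) (h : Q ≤ U) (h' : Q' ≤ U') :
    Rl π q τ (resLE h' β) (resLE h ψ) := fun w a b => r w (h a) (h' b)

namespace Mt
variable (m : Mt π q U U') {β β' : U' → ℂ} {ψ ψ' : U → ℂ}
include m

/-- the second projection -/
def b : U.comap π →* U' := (q.comp (U.comap π).subtype).codRestrict U' fun w => (m.iff w).1 w.2

omit [Finite Γ] [Finite Γ'] [Finite H] in
theorem sa : Surjective (π.subgroupComap U) := fun ⟨_, hx⟩ => by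
  obtain ⟨w, rfl⟩ := m.l hx
  exact ⟨⟨w, hx⟩, rfl⟩

omit [Finite Γ] [Finite Γ'] [Finite H] in
theorem sb : Surjective m.b := fun ⟨_, hx⟩ => by
  obtain ⟨w, rfl⟩ := m.r hx
  exact ⟨⟨w, (m.iff w).2 hx⟩, rfl⟩

omit [Finite Γ] [Finite Γ'] [Finite H] in
theorem ker_le : q.ker ≤ U.comap π := fun w hw => (m.iff w).2 (MonoidHom.mem_ker.1 hw ▸ one_mem _)

omit [Finite Γ] [Finite Γ'] [Finite H] in
theorem ker_b : m.b.ker = q.ker.subgroupOf (U.comap π) := by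
  ext x
  rw [MonoidHom.mem_ker, Subtype.ext_iff]; rfl

omit [Finite Γ] [Finite Γ'] in
theorem irr (c : Cx π q τ) : IsIrrCharacter m.b.ker fun x => τ x := by
  rw [m.ker_b]
  exact (isIrr_subOf_iff m.ker_le).2 c.irr

theorem inner (c : Cx π q τ) (r : Rl π q τ β ψ) (r' : Rl π q τ β' ψ') :
    classInner ψ ψ' = classInner β β' :=
  inner_br m.sa m.sb (c.chr.restrict _) (m.irr c) (fun w => r w _ _) fun w => r' w _ _

omit [Finite Γ] [Finite Γ'] [Finite H] in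
theorem fn (r : Rl π q τ β ψ) (r' : Rl π q τ β ψ') : ψ = ψ' := funext fun ⟨_, hx⟩ => by
  obtain ⟨w, rfl⟩ := m.l hx
  rw [r w hx ((m.iff w).1 hx), r']

theorem inj (c : Cx π q τ) (r : Rl π q τ β ψ) (r' : Rl π q τ β' ψ) : β = β' := by
  have : Rl π q τ (β - β') (0 : U → ℂ) := fun w a b => by
    rw [Pi.sub_apply, sub_mul, ← r w a, ← r' w a, sub_self]; rfl
  rw [← sub_eq_zero, ← classInner_self_eq_zero, ← m.inner c this this, classInner_zero_left]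

theorem gen (c : Cx π q τ) (r : Rl π q τ β ψ) (h : IsGeneralizedCharacter U' β) :
    IsGeneralizedCharacter U ψ := isGen_of_comp m.sa (by
  convert (h.comp m.b).mul (c.chr.restrict _).isGen using 1
  exact funext fun w => r w _ _)

omit [Finite Γ] [Finite Γ'] in
theorem cA (c : Cx π q τ) (r : Rl π q τ β ψ) {s : H} (h : π s ∈ N[U]) (h' : q s ∈ N[U']) :
    Rl π q τ (cA h' β) (cA h ψ) := fun w a b => by
  have e : π (s * w * s⁻¹) = π s * π w * (π s)⁻¹ := by simp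
  have e' : q (s * w * s⁻¹) = q s * q w * (q s)⁻¹ := by simp
  have := r (s * w * s⁻¹) (e ▸ conj_mem_of_mem_normalizer h a)
    (e' ▸ conj_mem_of_mem_normalizer h' b)
  rw [c.chr.isClassFunction] at this
  simpa only [cA_apply, e, e'] using this

theorem inv (c : Cx π q τ) (r : Rl π q τ β ψ) {S : Subgroup H} (h : S.map π ≤ N[U])
    (h' : S.map q ≤ N[U']) : S.map q ≤ aI β ↔ S.map π ≤ aI ψ := by
  refine ⟨fun a => ?_, fun a => ?_⟩ <;> rintro _ ⟨s, hs, rfl⟩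
  · have := m.cA c r (h ⟨s, hs, rfl⟩) (h' ⟨s, hs, rfl⟩)
    rw [(a ⟨s, hs, rfl⟩).2] at this
    exact ⟨_, m.fn this r⟩
  · have := m.cA c r (h ⟨s, hs, rfl⟩) (h' ⟨s, hs, rfl⟩)
    rw [(a ⟨s, hs, rfl⟩).2] at this
    exact ⟨_, m.inj c this r⟩

variable (c : Cx π q τ) (n : Mt π q Q Q') (h : Q ≤ U) (h' : Q' ≤ U') {θ : Q → ℂ} {μ : Q' → ℂ}
  (r : Rl π q τ μ θ) (h1 : μ 1 = 1)
include c n r h1

theorem up (hθ : IsIrrCharacter Q θ) (hU : U ≤ aI θ) (hψ : IsIrrCharacter U ψ) (o : Ov h ψ θ) :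
    ∃ β, IsIrrCharacter U' β ∧ Ov h' β μ ∧ Rl π q τ β ψ := by
  obtain ⟨ξ, a1, a2, a3⟩ := exists_eq_mul_of_restrict_irr (N := m.b.ker) (c.chr.restrict _) (m.irr c)
    (hψ.comp_of_surjective _ m.sa) (by
      have : (fun x : m.b.ker => ψ (π.subgroupComap U x)) =
          classInner (resLE h ψ) θ • fun x : m.b.ker => τ x := funext fun x => by
        have hx : q x = 1 := congrArg Subtype.val (MonoidHom.mem_ker.1 x.2)
        have h3 : π x ∈ Q := n.ker_le (MonoidHom.mem_ker.2 hx)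
        have := congrFun (res_eq_smul h hθ hU hψ o) ⟨_, h3⟩
        rw [Pi.smul_apply, r _ h3 (hx ▸ one_mem _), show (⟨q x, _⟩ : Q') = 1 from Subtype.ext hx,
          h1, one_mul] at this
        exact this
      rw [this, classInner_smul_left, (m.irr c).classInner_self, mul_one]
      exact o)
  obtain ⟨β, b1, b2⟩ := exists_defl m.sb a1 a2
  have b3 : Rl π q τ β ψ := fun w a _ => (congrFun a3 ⟨w, a⟩).trans (by rw [Pi.mul_apply, ← b2]; rfl)
  exact ⟨β, b1, by rwa [Ov, ← n.inner c (b3.res h h') r], b3⟩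

theorem down (hμ : IsIrrCharacter Q' μ) (hU : U' ≤ aI μ) (hβ : IsIrrCharacter U' β)
    (o : Ov h' β μ) : ∃ ψ, IsIrrCharacter U ψ ∧ Ov h ψ θ ∧ Rl π q τ β ψ := by
  have a0 := res_eq_smul h' hμ hU hβ o
  obtain ⟨ψ, b1, b2⟩ := exists_defl m.sa (isIrr_mul_of_restrict_irr (c.chr.restrict _) (m.irr c)
    (hβ.comp_of_surjective _ m.sb) fun x hx => by rw [MonoidHom.mem_ker.1 hx, map_one])
    fun z hz => by
      have a1 : π z = 1 := congrArg Subtype.val (MonoidHom.mem_ker.1 hz)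
      have a2 : q z ∈ Q' := (n.iff _).1 (a1 ▸ one_mem _)
      have a3 := r z (a1 ▸ one_mem _) a2
      have a4 := r 1 (map_one π ▸ one_mem _) (map_one q ▸ one_mem _)
      simp only [a1, map_one] at a3 a4
      have a5 : β (m.b z) = _ := congrFun a0 ⟨_, a2⟩
      have a6 : β 1 = _ := congrFun a0 1
      simp only [Pi.mul_apply, map_one, a5, a6, Pi.smul_apply, smul_eq_mul, mul_assoc, ← a3]
      exact congrArg _ a4
  have b3 : Rl π q τ β ψ := fun w a _ => b2 ⟨w, a⟩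
  exact ⟨ψ, b1, by rwa [Ov, n.inner c (b3.res h h') r], b3⟩

end Mt

theorem go_transfer (hp : p.Prime) (c : Cx π q τ) {D T : Subgroup Γ} {D' T' : Subgroup Γ'}
    (mQ : Mt π q Q Q') (mD : Mt π q D D') (mT : Mt π q T T') {h1 : Q ≤ D} {h2 : D ≤ T}
    {h1' : Q' ≤ D'} {h2' : D' ≤ T'} {θ : Q → ℂ} {μ : Q' → ℂ} (r : Rl π q τ μ θ) (h0 : μ 1 = 1)
    (hθ : IsIrrCharacter Q θ) (hμ : IsIrrCharacter Q' μ) (hT : T ≤ aI θ) (hT' : T' ≤ aI μ)
    {S : Subgroup H} (n : S.map π ≤ N[T]) (n' : S.map q ≤ N[T'])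
    (a : GO p (S.map q) h1' h2' μ) : GO p (S.map π) h1 h2 θ := by
  have g : ∀ {β ψ γ η}, Rl π q τ β ψ → Rl π q τ γ η → GR p h2' β γ → GR p h2 ψ η :=
    fun {β ψ γ η} r1 r2 ⟨ε, Δ, a1, a2, a3⟩ => by
    have h3 : (p : ℂ) ≠ 0 := Nat.cast_ne_zero.2 hp.ne_zero
    refine ⟨ε, (p : ℂ)⁻¹ • (resLE h2 ψ - (ε : ℂ) • η), a1, mD.gen c (fun w b b' => ?_) a2, by
      rw [smul_inv_smul₀ h3, sub_add_cancel]⟩
    have := congrFun a3 ⟨_, b'⟩
    simp only [Pi.smul_apply, Pi.sub_apply, Pi.add_apply, smul_eq_mul] at this ⊢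
    rw [r1.res h2 h2' w b b', r2 w b b', this]
    field_simp
    ring
  have a7 : ∀ {ψ}, IsIrrCharacter T ψ → Ov (h1.trans h2) ψ θ → S.map π ≤ aI ψ → ∃ β γ η,
      IsIrrCharacter _ β ∧ Ov (h1'.trans h2') β μ ∧ Rl π q τ β ψ ∧ S.map q ≤ aI β ∧
      IsIrrCharacter _ γ ∧ GR p h2' β γ ∧ IsIrrCharacter D η ∧ Ov h1 η θ ∧ Rl π q τ γ η ∧
        GR p h2 ψ η := fun b1 b2 b3 => by
    obtain ⟨β, b4, b5, b6⟩ := mT.up c mQ (h1.trans h2) (h1'.trans h2') r h0 hθ hT b1 b2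
    have b7 := (mT.inv c b6 n n').2 b3
    obtain ⟨γ, b8, b9, b10⟩ := a.ex b4 b5 b7
    obtain ⟨η, c1, c2, c3⟩ := mD.down c mQ h1 h1' r h0 hμ (h2'.trans hT') b8 b9
    exact ⟨β, γ, η, b4, b5, b6, b7, b8, b10, c1, c2, c3, g b6 c3 b10⟩
  refine ⟨fun b1 b2 b3 => ?_, fun b1 b2 b3 b4 b5 b6 b7 b8 b9 => ?_, fun b1 b2 => ?_⟩
  · obtain ⟨-, -, η, -, -, -, -, -, -, b4, b5, -, b6⟩ := a7 b1 b2 b3
    exact ⟨η, b4, b5, b6⟩
  · obtain ⟨β, γ, η, c1, c2, c3, c4, c5, c6, c7, -, c8, c9⟩ := a7 b1 b4 b6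
    obtain ⟨β', γ', η', d1, d2, d3, d4, d5, d6, d7, -, d8, d9⟩ := a7 b2 b5 b7
    obtain rfl := b8.unique hp c9 b1.isCharacter b3 c7
    obtain rfl := b9.unique hp d9 b2.isCharacter c7 d7
    obtain rfl := mD.inj c c8 d8
    obtain rfl := a.inj c1 d1 c5 c2 d2 c4 d4 c6 d6
    exact mT.fn c3 d3
  · obtain ⟨γ, b3, b4, b5⟩ := mD.up c mQ h1 h1' r h0 hθ (h2.trans hT) b1 b2
    obtain ⟨β, b6, b7, b8, b9⟩ := a.surj b3 b4
    obtain ⟨ψ, c1, c2, c3⟩ := mT.down c mQ (h1.trans h2) (h1'.trans h2') r h0 hμ hT' b6 b7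
    exact ⟨ψ, c1, c2, (mT.inv c c3 n n').1 b8, g c3 b5 b9⟩

end CfsgH4
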