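import Cfsg.Agent.H4.Isa1
import Cfsg.Agent.H2.PG3

/-! Isaacs' correspondence over a central character. -/

set_option autoImplicit false
open Cfsg CfsgH3 CfsgH4 CfsgH1 CfsgRg Function
open CfsgH2 hiding cj cj_apply isPGroup_pCore le_pCore isNilpotent_map card_mul_relIndex
open scoped ComplexConjugate CfsgH2 commutatorElement

namespace CfsgH4

variable {Γ : Type*} [Group Γ] [Finite Γ] {D I K S T U V Z : Subgroup Γ}

theorem lin_of_ov (h : K ≤ U) (hab : ⁅U, U⁆ ≤ K) {φ : K → ℂ} (hφ : IsIrrCharacter K φ)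
    {η ζ : U → ℂ} (hη : IsIrrCharacter U η) (hζ : IsIrrCharacter U ζ) (a : Ov h η φ) (b : Ov h ζ φ) :
    ∃ l : U →* ℂˣ, (∀ x : U, x.1 ∈ K → l x = 1) ∧ ζ = fun g => l g * η g :=
  exists_lin_mul_eq (N := K.subgroupOf U) (fun x y => hab (Subgroup.commutator_mem_commutator x.2 y.2))
    hη hζ (by
      rw [← subOf_resLE h, ← subOf_resLE h, classInner_subOf h]
      exact classInner_ne_zero_of_common (hη.isCharacter.resLE h) (hζ.isCharacter.resLE h) hφ a b)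

theorem le_aI_of_over (h : K ≤ T) (hT : T ≤ N[K]) (hc : ∀ s ∈ I, ∀ t ∈ T, s * t * s⁻¹ * t⁻¹ ∈ K)
    (cop : (K.relIndex T).Coprime (Nat.card I)) {φ : K → ℂ} (hφ : IsIrrCharacter K φ)
    (h0 : I ≤ aI φ) {ψ : T → ℂ} (hψ : IsIrrCharacter T ψ) (o : Ov h ψ φ) : I ≤ aI ψ := by
  have n : ∀ U, K ≤ U → U ≤ T → I ≤ N[U] := fun U a b s hs => mem_normalizer_of_conj_mem
    fun x hx => by simpa using mul_mem (a (hc s hs x (b hx))) hx
  refine fun s hs => ⟨n T h le_rfl hs, funext fun g => ?_⟩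
  have h2 : K ⊔ Subgroup.zpowers g.1 ≤ T := sup_le h (Subgroup.zpowers_le.2 g.2)
  have h3 := Subgroup.zpowers_le.2 (hT g.2)
  have hg : g.1 ∈ K ⊔ Subgroup.zpowers g.1 := Subgroup.mem_sup_right (Subgroup.mem_zpowers _)
  have hab : ⁅K ⊔ Subgroup.zpowers g.1, K ⊔ Subgroup.zpowers g.1⁆ ≤ K :=
    Subgroup.commutator_le.2 fun x hx y hy => by
    obtain ⟨a, ha, b, hb, rfl⟩ := (mem_sup_of_norm' h3).1 hx
    obtain ⟨c, hc, d, hd, rfl⟩ := (mem_sup_of_norm' h3).1 hy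
    rw [show ⁅a * b, c * d⁆ = a * (b * c * b⁻¹) * (b * d * (d * b)⁻¹) * (d * a⁻¹ * d⁻¹) * c⁻¹ by
      rw [commutatorElement_def]; group, commute_of_mem_zpowers hb hd, mul_inv_cancel, mul_one]
    exact mul_mem (mul_mem (mul_mem ha (conj_mem_of_mem_normalizer (h3 hb) hc))
      (conj_mem_of_mem_normalizer (h3 hd) (inv_mem ha))) (inv_mem hc)
  obtain ⟨m, h4, h5⟩ := (hψ.isCharacter.resLE h2).exists_eq_sum_irr
  have h6 := n _ le_sup_left h2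
  refine (congrFun h5 ⟨_, conj_mem_of_mem_normalizer (h6 hs) hg⟩).trans
    (Eq.trans ?_ (congrFun h5 ⟨_, hg⟩).symm)
  rw [Finset.sum_apply, Finset.sum_apply]
  refine Finset.sum_congr rfl fun η _ => ?_
  by_cases h7 : (m η : ℂ) = 0
  · simp [h7]
  obtain ⟨φ', a1, a2⟩ := exists_irr_under' le_sup_left η.2
  obtain ⟨x, hx, rfl⟩ := exists_cA_eq h hT hψ hφ a1 o
    (over_trans _ h2 hψ.isCharacter η.2 a1.isCharacter (h4 η ▸ h7) a2)
  obtain ⟨ζ, b1, b2, b3⟩ := exists_inv_over_ab h6 (cop.coprime_dvd_left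
    (Dvd.intro _ (Subgroup.relIndex_mul_relIndex _ _ _ le_sup_left h2))) le_sup_left hab a1
    fun t ht => mem_aI_cA _ (by
      have := mul_mem (h0 ht) (le_aI_self hφ.isClassFunction (hc _ (inv_mem ht) x hx))
      simpa [mul_assoc] using this)
  obtain ⟨l, c1, c2⟩ := lin_of_ov le_sup_left hab a1 b1 η.2 b2 a2
  have c3 := c1 (⟨_, conj_mem_of_mem_normalizer (h6 hs) hg⟩ * ⟨_, hg⟩⁻¹) (hc s hs g g.2)
  rw [map_mul, map_inv, mul_inv_eq_one] at c3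
  simp only [Pi.smul_apply, c2, c3]
  exact congrArg (fun z => (m η : ℂ) • (_ * z)) (congrFun (b3 hs).2 ⟨_, hg⟩)

theorem eq_of_inv (h : Z ≤ V) (hab : ⁅V, V⁆ ≤ Z) (n : S ≤ N[V])
    (cop : (Nat.card S).Coprime (Nat.card V)) (hs : Group.IsSolvable V) (hC : V ⊓ C[S] ≤ Z)
    {μ : Z → ℂ} (hμ : IsIrrCharacter Z μ) {φ φ' : V → ℂ} (a : IsIrrCharacter V φ)
    (a' : IsIrrCharacter V φ') (o : Ov h φ μ) (o' : Ov h φ' μ) (i : S ≤ aI φ) (i' : S ≤ aI φ') :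
    φ' = φ := by
  obtain ⟨l, h1, h2⟩ := lin_of_ov h hab hμ a a' o o'
  let Y : Subgroup Γ :=
    { carrier := {k | ∃ hk : k ∈ V, ∀ s (hs : s ∈ S),
        l ⟨_, conj_mem_of_mem_normalizer (n hs) hk⟩ = l ⟨k, hk⟩}
      mul_mem' := fun ⟨a, b⟩ ⟨c, d⟩ => ⟨mul_mem a c, fun s hs => by
        rw [show (⟨_, mul_mem a c⟩ : V) = ⟨_, a⟩ * ⟨_, c⟩ from rfl, map_mul, ← b s hs, ← d s hs,
          ← map_mul]
        exact congrArg l (Subtype.ext (by simp))⟩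
      one_mem' := ⟨one_mem _, fun s hs => by simp⟩
      inv_mem' := fun ⟨a, b⟩ => ⟨inv_mem a, fun s hs => by
        rw [show (⟨_, inv_mem a⟩ : V) = ⟨_, a⟩⁻¹ from rfl, map_inv, ← b s hs, ← map_inv]
        exact congrArg l (Subtype.ext (by simp [mul_assoc]))⟩ }
  have hY : Y ≤ V := fun _ h => h.1
  have h3 : Y ≤ l.ker.map V.subtype := by
    rw [← coprime_comm_sup_cent (A := S) (K := Y) (fun t ht => mem_normalizer_of_conj_mem
      fun k ⟨hk, e⟩ => ⟨conj_mem_of_mem_normalizer (n ht) hk, fun s hs => by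
        rw [e t ht, ← e _ (mul_mem hs ht)]; exact congrArg l (Subtype.ext (by simp [mul_assoc]))⟩)
      (cop.coprime_dvd_right (Subgroup.card_dvd_of_le hY))
      (.inr (solvable_of_solvable_injective (Subgroup.inclusion_injective hY)))]
    refine sup_le (Subgroup.commutator_le.2 fun k ⟨hk, e⟩ s hs => ?_) fun k hk =>
      ⟨⟨k, hY hk.1⟩, h1 _ (hC ⟨hY hk.1, hk.2⟩), rfl⟩
    refine ⟨⟨k, hk⟩ * ⟨_, conj_mem_of_mem_normalizer (n hs) hk⟩⁻¹, ?_, by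
      simp [commutatorElement_def, mul_assoc]⟩
    rw [SetLike.mem_coe, MonoidHom.mem_ker, map_mul, map_inv, e s hs, mul_inv_cancel]
  refine h2.trans (funext fun k => ?_)
  by_cases h4 : φ k = 0
  · simp [h4]
  obtain ⟨x, h5, h6⟩ := h3 (show k.1 ∈ Y from ⟨k.2, fun s hs => Units.ext (mul_right_cancel₀ h4 (by
    have := congrFun (i' hs).2 k
    rw [cA_apply, h2] at this
    exact (congrArg _ (congrFun (i hs).2 k).symm).trans this))⟩)
  rw [← Subtype.ext h6, MonoidHom.mem_ker.1 h5, Units.val_one, one_mul]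

theorem go_central {h1 : Z ≤ D} {h2 : D ≤ T} (h3 : Z ≤ V) (h4 : V ⊔ D = T) (n1 : T ≤ N[V])
    (n2 : S ≤ N[T]) (n3 : S ≤ N[V]) (hab : ⁅V, V⁆ ≤ Z) (hC : V ⊓ C[S] ≤ Z) (ho : Odd (Nat.card T))
    (cop : (Nat.card S).Coprime (Nat.card T)) (hs : Group.IsSolvable T) {ι : Γ} (i1 : ι ^ 2 ^ 1 = 1)
    (i2 : ι ∈ N[V]) (i3 : ι ∈ C[S]) (hD : D = T ⊓ C[Subgroup.zpowers ι]) (c : S ≤ C[D])
    {μ : Z → ℂ} (hμ : IsIrrCharacter Z μ) (hT : T ≤ aI μ) : GO 2 S h1 h2 μ := by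
  have hV : V ≤ T := h4 ▸ le_sup_left
  have i4 : Subgroup.zpowers ι ≤ C[D] := Subgroup.le_centralizer_iff.1 (hD.le.trans inf_le_right)
  have i5 := Subgroup.zpowers_le.2 i2
  have hc : ∀ s ∈ Subgroup.zpowers ι, ∀ t ∈ T, s * t * s⁻¹ * t⁻¹ ∈ V := fun s hs t ht => by
    obtain ⟨v, hv, d, hd, rfl⟩ := (mem_sup_of_norm' (h2.trans n1)).1 (h4.ge ht)
    rw [← mul_assoc, mul_assoc _ d, ← inv_inv d, ← mul_inv_rev, ← i4 hs _ (inv_mem hd)]
    simpa [mul_assoc] using mul_mem (conj_mem_of_mem_normalizer (i5 hs) hv) (inv_mem hv)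
  have i6 : ι ∈ N[T] := mem_normalizer_of_conj_mem fun x hx => by
    simpa using mul_mem (hV (hc ι (Subgroup.mem_zpowers ι) x hx)) hx
  have i7 : (Nat.card T).Coprime (Nat.card (Subgroup.zpowers ι)) := by
    rw [Nat.card_zpowers]
    exact (Nat.coprime_two_right.2 ho).coprime_dvd_right (orderOf_dvd_of_pow_eq_one i1)
  have a := gc_cast (gc_pgroup Nat.prime_two (CfsgH2.isPGroup_zpowers i1)
    (Subgroup.zpowers_le.2 i6) i7) h2 hD
  have key : ∀ {ψ}, IsIrrCharacter T ψ → Ov (h1.trans h2) ψ μ → S ≤ aI ψ →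
      Subgroup.zpowers ι ≤ aI ψ := fun b1 b2 b3 => by
    obtain ⟨φ, c1, c2, c3⟩ := exists_inv_under n3 hV n1 (cop.symm.coprime_dvd_left
      (Subgroup.relIndex_dvd_card _ _)) (.inr (isSolvable_qt hs)) b1 b3
    have c4 := ov_of_mid h3 hV hμ hT b1 b2 c1 c2
    have c5 : ι ∈ aI μ := cent_le_aI (Subgroup.centralizer_le h1 (i4 (Subgroup.mem_zpowers ι)))
    exact le_aI_of_over hV n1 hc (i7.coprime_dvd_left (Subgroup.relIndex_dvd_card _ _)) c1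
      (Subgroup.zpowers_le.2 ⟨i2, eq_of_inv h3 hab n3 (cop.coprime_dvd_right
        (Subgroup.card_dvd_of_le hV)) (solvable_of_solvable_injective
        (Subgroup.inclusion_injective hV)) hC hμ c1 (irr_cA c1 i2) c4 (c5.2 ▸ c4.cA i2 c5.1) c3
        (le_aI_cA i2 (Subgroup.centralizer_le_normalizer _ i3) c3)⟩) b1 c2
  refine ⟨fun b1 b2 b3 => ?_, fun b1 b2 b3 b4 b5 b6 b7 => a.inj b1 b2 b3 (key b1 b4 b6)
    (key b2 b5 b7), fun b1 b2 => ?_⟩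
  · obtain ⟨η, b4, b5⟩ := a.ex _ b1 (key b1 b2 b3)
    obtain ⟨m, b6, b7⟩ := b5.not_dvd Nat.prime_two b1.isCharacter b4
    exact ⟨η, b4, ov_of_mid h1 h2 hμ hT b1 b2 b4 (b6.trans_ne (Nat.cast_ne_zero.2 fun e =>
      b7 (e ▸ dvd_zero 2))), b5⟩
  · obtain ⟨ψ, b3, b4, b5⟩ := a.surj _ b1
    obtain ⟨m, b6, b7⟩ := b5.not_dvd Nat.prime_two b3.isCharacter b1
    exact ⟨ψ, b3, over_trans h1 h2 b3.isCharacter b1 hμ.isCharacter (b6.trans_ne
      (Nat.cast_ne_zero.2 fun e => b7 (e ▸ dvd_zero 2))) b2, a.le_aI b5 b3 b1 n2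
      ((Subgroup.le_centralizer_iff.1 (Subgroup.zpowers_le.2 i3)).trans
        (Subgroup.centralizer_le_normalizer _)) b4 (c.trans cent_le_aI), b5⟩

theorem fit_mem {A B : Subgroup Γ} [Z.Normal] (hn : B ≤ N[A]) (hab : ⁅A, A⁆ ≤ Z)
    (cop : (Nat.card B).Coprime (Nat.card A)) {x : Γ} (h1 : x ∈ ⁅A, B⁆ ⊔ Z) (h2 : x ∈ C[B]) :
    x ∈ Z := by
  let φ := QuotientGroup.mk' Z
  have h0 : Z.map φ = ⊥ := QuotientGroup.map_mk'_self Z
  have h3 := coprime_comm_inf_cent (V := A.map φ) (A := B.map φ) (by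
    rw [← Subgroup.le_centralizer_iff_isMulCommutative,
      ← Subgroup.commutator_eq_bot_iff_le_centralizer, ← Subgroup.map_commutator, eq_bot_iff, ← h0]
    exact Subgroup.map_mono hab) (map_le_norm_map φ hn)
    ((cop.coprime_dvd_left (Subgroup.card_map_dvd _ _)).coprime_dvd_right (Subgroup.card_map_dvd _ _))
  rw [← QuotientGroup.eq_one_iff]
  refine Subgroup.mem_bot.1 (h3.le ⟨?_, ?_⟩)
  · have := Subgroup.mem_map_of_mem φ h1
    rwa [Subgroup.map_sup, h0, sup_bot_eq, Subgroup.map_commutator] at this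
  · rintro _ ⟨b, hb, rfl⟩
    exact (map_mul φ _ _).symm.trans ((congrArg φ (h2 b hb)).trans (map_mul φ _ _))

theorem exists_invol (hZ : Z ≤ Subgroup.center Γ) (hV : V ≤ ⁅V, S⁆ ⊔ Z) (h3 : Z ≤ V) (h1 : V ≤ T)
    (h2 : D ≤ T) (ht : V ⊔ (D ⊔ S) = ⊤) [V.Normal] (hab : ⁅V, V⁆ ≤ Z) (c : D ≤ C[S])
    (cop : (Nat.card S).Coprime (Nat.card T)) : ∃ f : Γ →* Γ, (∀ x, f (f x) = x) ∧
      (∀ x ∈ D ⊔ S, f x = x) ∧ ∀ v ∈ V, v * f v ∈ Z := by
  haveI : Z.Normal := ⟨fun z hz g => by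
    rwa [Subgroup.mem_center_iff.1 (hZ hz) g, mul_inv_cancel_right]⟩
  let Δ : Γ →* Γ × Γ := (MonoidHom.id Γ).prod (MonoidHom.id Γ)
  haveI : (Z.map Δ).Normal := ⟨by
    rintro _ ⟨z, hz, rfl⟩ g
    refine ⟨z, hz, Prod.ext ?_ ?_⟩ <;> simp [Δ, Subgroup.mem_center_iff.1 (hZ hz)]⟩
  have hc : ∀ a ∈ V, ∀ b ∈ V, a * b * a⁻¹ * b⁻¹ ∈ Z := fun a ha b hb =>
    hab (Subgroup.commutator_mem_commutator ha hb)
  let X : Subgroup (Γ × Γ) :=
    { carrier := {y | y.1 ∈ V ∧ y.1 * y.2 ∈ Z}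
      mul_mem' := fun {a b} ⟨a1, a2⟩ ⟨b1, b2⟩ => ⟨mul_mem a1 b1, by
        have := mul_mem (hc _ a1 _ b1) (Subgroup.Normal.conj_mem ‹_› _ (mul_mem a2
          (Subgroup.Normal.conj_mem ‹_› _ b2 b.1⁻¹)) b.1)
        simpa [mul_assoc] using this⟩
      one_mem' := ⟨one_mem _, by simp⟩
      inv_mem' := fun {a} ⟨a1, a2⟩ => ⟨inv_mem a1, by
        simpa [mul_assoc] using Subgroup.Normal.conj_mem ‹_› _ (inv_mem a2) a.2⟩ }
  have x2 : ∀ y ∈ X, y.2 ∈ V := fun y hy => (V.mul_mem_cancel_left hy.1).1 (h3 hy.2)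
  have nX : ∀ A : Subgroup Γ, A.map Δ ≤ N[X] := by
    rintro A _ ⟨g, -, rfl⟩
    exact mem_normalizer_of_conj_mem fun y hy => ⟨Subgroup.Normal.conj_mem ‹_› _ hy.1 g, by
      simpa [Δ, mul_assoc] using Subgroup.Normal.conj_mem ‹_› _ hy.2 g⟩
  have zX : Z.map Δ ≤ X := by
    rintro _ ⟨z, hz, rfl⟩; exact ⟨h3 hz, mul_mem hz hz⟩
  have yX : ⁅X, S.map Δ⁆ ⊔ Z.map Δ ≤ X := sup_le (comm_le_left (nX S)) zX
  have nS : D ⊔ S ≤ N[S] := sup_le (c.trans (Subgroup.centralizer_le_normalizer _))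
    Subgroup.le_normalizer
  have nY : (D ⊔ S).map Δ ≤ N[⁅X, S.map Δ⁆ ⊔ Z.map Δ] := le_norm_sup
    (le_norm_commutator (nX _) (map_le_norm_map Δ nS)) Subgroup.le_normalizer_of_normal
  have cV := cop.coprime_dvd_right (Subgroup.card_dvd_of_le h1)
  have abX : ⁅X, X⁆ ≤ Z.map Δ := Subgroup.commutator_le.2 fun a ha b hb => by
    refine ⟨_, hc _ ha.1 _ hb.1, Prod.ext rfl ?_⟩
    have e1 := Subgroup.mem_center_iff.1 (hZ ha.2)
    have e2 := Subgroup.mem_center_iff.1 (hZ hb.2)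
    have e3 := Subgroup.mem_center_iff.1 (hZ (hc _ ha.1 _ hb.1))
    change a.1 * b.1 * a.1⁻¹ * b.1⁻¹ = a.2 * b.2 * a.2⁻¹ * b.2⁻¹
    generalize a.1 = u, b.1 = v at *
    obtain ⟨y, hy⟩ : ∃ y, a.2 = u⁻¹ * y := ⟨u * a.2, by group⟩
    obtain ⟨z, hz⟩ : ∃ z, b.2 = v⁻¹ * z := ⟨v * b.2, by group⟩
    rw [hy, mul_inv_cancel_left] at e1
    rw [hz, mul_inv_cancel_left] at e2
    rw [hy, hz]
    calc _ = (v * u)⁻¹ * (u * v * u⁻¹ * v⁻¹ * (v * u)) := by rw [← e3]; group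
      _ = u⁻¹ * v⁻¹ * (u * z) * z⁻¹ * v := by group
      _ = u⁻¹ * (v⁻¹ * z * y) * y⁻¹ * u * z⁻¹ * v := by rw [e2]; group
      _ = _ := by rw [e1]; group
  let E := (⁅X, S.map Δ⁆ ⊔ Z.map Δ) ⊔ (D ⊔ S).map Δ
  have hE : ∀ x ∈ D ⊔ S, (x, x) ∈ E := fun x hx =>
    Subgroup.mem_sup_right (Subgroup.mem_map_of_mem Δ hx)
  have vY : V ≤ (⁅X, S.map Δ⁆ ⊔ Z.map Δ).map (MonoidHom.fst Γ Γ) :=
    hV.trans (sup_le (Subgroup.commutator_le.2 fun v hv s hs => ⟨⁅(v, v⁻¹), Δ s⁆,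
      Subgroup.mem_sup_left (Subgroup.commutator_mem_commutator ⟨hv, by simp⟩
        (Subgroup.mem_map_of_mem Δ hs)), rfl⟩)
      fun z hz => ⟨_, Subgroup.mem_sup_right (Subgroup.mem_map_of_mem Δ hz), rfl⟩)
  have cX : (Nat.card (S.map Δ)).Coprime (Nat.card X) := by
    refine ((cV.mul_right cV).coprime_dvd_left (Subgroup.card_map_dvd _ _)).coprime_dvd_right ?_
    rw [← Nat.card_prod, ← Nat.card_congr (Subgroup.prodEquiv V V).toEquiv]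
    exact Subgroup.card_dvd_of_le fun y hy => ⟨hy.1, x2 y hy⟩
  obtain ⟨f, hf⟩ := Subgroup.exists_eq_graph (G := E) ⟨(injective_iff_map_eq_one
    ((MonoidHom.fst Γ Γ).comp E.subtype)).2 fun ⟨x, hx⟩ h0 => by
      obtain ⟨y, hy, _, ⟨e, he, rfl⟩, rfl⟩ := (mem_sup_of_norm' nY).1 hx
      replace h0 : y.1 * e = 1 := h0
      have a1 : e ∈ V := (V.mul_mem_cancel_left (yX hy).1).1 (h0 ▸ one_mem _)
      obtain ⟨d, hd, s, hs, rfl⟩ := (mem_sup_of_norm (le_sup_left.trans nS)).1 he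
      have a0 : s = 1 := Subgroup.mem_bot.1 ((inf_eq_bot_of_coprime' cop).le
        ⟨hs, (T.mul_mem_cancel_left (h2 hd)).1 (h1 a1)⟩)
      have a2 := mul_mem hy (Subgroup.mem_sup_right (Subgroup.mem_map_of_mem Δ
        (fit_mem Subgroup.le_normalizer_of_normal hab cV (hV a1) (by simpa [a0] using c hd))))
      have a3 := (yX a2).2
      replace h0 : (y * Δ (d * s)).1 = 1 := h0
      rw [h0, one_mul] at a3
      obtain ⟨z, -, a4⟩ := fit_mem (nX S) abX cX a2 (by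
          rintro _ ⟨s, -, rfl⟩
          exact Prod.ext ((congrArg (s * ·) h0).trans ((mul_one s).trans
            ((one_mul s).symm.trans (congrArg (· * s) h0.symm))))
            (Subgroup.mem_center_iff.1 (hZ a3) s))
      obtain rfl : z = 1 := (congrArg Prod.fst a4).trans h0
      exact Subtype.ext (a4.symm.trans (map_one Δ)), fun g => by
      obtain ⟨x, a1, a2⟩ := (ht.ge.trans (sup_le (vY.trans (Subgroup.map_mono le_sup_left))
        fun z hz => ⟨_, hE z hz, rfl⟩) : ⊤ ≤ E.map (MonoidHom.fst Γ Γ)) (Subgroup.mem_top g)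
      exact ⟨⟨x, a1⟩, a2⟩⟩
  have m : ∀ x y, (x, y) ∈ E ↔ f x = y := fun x y => by rw [hf, MonoidHom.mem_graph]
  have sw : E.map (MulEquiv.prodComm : Γ × Γ ≃* Γ × Γ).toMonoidHom ≤ E := by
    have s1 : ∀ A : Subgroup Γ, (A.map Δ).map (MulEquiv.prodComm : Γ × Γ ≃* Γ × Γ).toMonoidHom =
      A.map Δ := fun A => Subgroup.map_map _ _ _
    rw [Subgroup.map_sup, Subgroup.map_sup, Subgroup.map_commutator, s1, s1, s1]
    refine sup_le_sup_right (sup_le_sup_right (Subgroup.commutator_mono ?_ le_rfl) _) _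
    rintro _ ⟨y, hy, rfl⟩
    exact ⟨x2 y hy, by simpa [mul_assoc] using Subgroup.Normal.conj_mem ‹_› _ hy.2 y.2⟩
  refine ⟨f, fun x => (m _ _).1 (sw (Subgroup.mem_map_of_mem _ ((m x _).2 rfl))),
    fun x hx => (m _ _).1 (hE x hx), fun v hv => ?_⟩
  obtain ⟨y, hy, rfl⟩ := vY hv
  exact ((m y.1 y.2).1 (Subgroup.mem_sup_left hy)).symm ▸ (yX hy).2

end CfsgH4
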