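import Cfsg.Agent.H4.Isa2
import Cfsg.Agent.H4.FongP
import Cfsg.Agent.H2.BG0
import Cfsg.Agent.H2.Inj

/-! Isaacs' correspondence over an invariant character. -/

set_option autoImplicit false
open Cfsg CfsgH3 CfsgH4 CfsgH1 CfsgRg Function
open CfsgH2 hiding cj cj_apply isPGroup_pCore le_pCore isNilpotent_map card_mul_relIndex
open scoped ComplexConjugate CfsgH2 commutatorElement

namespace CfsgH4

universe u
variable {Γ : Type u} [Group Γ] [Finite Γ] {D P Q S T V Z : Subgroup Γ}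

theorem go_ab (hZ : Z ≤ Subgroup.center Γ) {h1 : Z ≤ D} {h2 : D ≤ T} (ht : T ⊔ S = ⊤)
    (n : S ≤ N[T]) (hD : D = T ⊓ C[S]) (hab : ⁅⁅T, S⁆, ⁅T, S⁆⁆ ≤ Z) (ho : Odd (Nat.card T))
    (cop : (Nat.card S).Coprime (Nat.card T)) (hs : Group.IsSolvable T) {μ : Z → ℂ}
    (hμ : IsIrrCharacter Z μ) : GO 2 S h1 h2 μ := by
  have hz := fun z hz => Subgroup.mem_center_iff.1 (@hZ z hz)
  haveI : Z.Normal := ⟨fun z h g => by rwa [hz z h g, mul_inv_cancel_right]⟩
  haveI : (⁅T, S⁆ : Subgroup Γ).Normal := Subgroup.normalizer_eq_top_iff.1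
    (top_le_iff.1 (ht.ge.trans (sup_le le_norm_comm_left le_norm_comm_right)))
  obtain ⟨V, hV⟩ : ∃ V, V = ⁅T, S⁆ ⊔ Z := ⟨_, rfl⟩
  haveI : V.Normal := hV ▸ inferInstance
  have a1 : V ≤ T := hV ▸ sup_le (comm_le_left n) (h1.trans h2)
  have a2 : Z ≤ V := hV ▸ le_sup_right
  have a3 : V ≤ ⁅V, S⁆ ⊔ Z := hV.le.trans (sup_le_sup_right ((coprime_comm_comm n cop
    (.inr hs)).ge.trans (Subgroup.commutator_mono (hV ▸ le_sup_left) le_rfl)) _)
  have a4 : V ⊔ D = T := le_antisymm (sup_le a1 h2) ((coprime_comm_sup_cent n cop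
    (.inr hs)).ge.trans (sup_le_sup (hV ▸ le_sup_left) hD.ge))
  have a5 : ⁅V, V⁆ ≤ Z := Subgroup.commutator_le.2 fun x hx y hy => by
    obtain ⟨a, ha, b, hb, rfl⟩ := (mem_sup_of_norm' Subgroup.le_normalizer_of_normal).1 (hV.le hx)
    obtain ⟨c, hc, d, hd, rfl⟩ := (mem_sup_of_norm' Subgroup.le_normalizer_of_normal).1 (hV.le hy)
    convert hab (Subgroup.commutator_mem_commutator ha hc) using 1
    rw [commutatorElement_def, commutatorElement_def]
    calc _ = a * (b * (c * d)) * b⁻¹ * (a⁻¹ * d⁻¹) * c⁻¹ := by group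
      _ = _ := by rw [← hz b hb, hz _ (inv_mem hd)]; group
  have c : D ≤ C[S] := hD.le.trans inf_le_right
  have cV := cop.coprime_dvd_right (Subgroup.card_dvd_of_le a1)
  obtain ⟨f, f1, f2, f3⟩ := exists_invol hZ a3 a2 a1 h2 (by rw [← sup_assoc, a4, ht]) a5 c cop
  let j := MulAction.toPermHom Γ Γ
  have hj : Injective j := MulAction.toPerm_injective
  let ι : Equiv.Perm Γ := Involutive.toPerm f f1
  have e : ∀ x, ι * j x * ι⁻¹ = j (f x) := fun x => Equiv.ext fun y =>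
    (map_mul f x (f y)).trans (congrArg _ (f1 y))
  have m : ∀ U : Subgroup Γ, Mt (MonoidHom.id Γ) j U (U.map j) := fun U =>
    ⟨fun x _ => ⟨x, rfl⟩, Subgroup.map_le_range _ _, fun w => (Subgroup.mem_map_iff_mem hj).symm⟩
  have cd : ∀ U : Subgroup Γ, Nat.card (U.map j) = Nat.card U := fun U =>
    Subgroup.card_map_of_injective hj
  have cm : ∀ {A B : Subgroup Γ}, A ≤ C[B] → A.map j ≤ C[B.map j] := fun h => by
    rintro _ ⟨a, ha, rfl⟩ _ ⟨b, hb, rfl⟩
    rw [← map_mul, ← map_mul, h ha b hb]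
  have b0 : T ≤ C[Z] := fun t _ z h => (hz z h t).symm
  let ε := (Z.equivMapOfInjective j hj).symm
  have b1 := hμ.comp_of_surjective ε.toMonoidHom ε.surjective
  have := go_transfer (π := MonoidHom.id Γ) (q := j) (τ := fun _ => 1) (h1 := h1) (h2 := h2)
    Nat.prime_two ⟨(isIrr_of_unitsHom 1).isCharacter, isIrr_of_unitsHom 1, fun x hx => by
      rw [show x = 1 from hx]; exact one_mem _⟩ (m Z) (m D) (m T)
    (fun w a b => (congrArg μ (ε.apply_symm_apply ⟨w, a⟩).symm).trans (mul_one _).symm)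
    ((congrArg μ (map_one _)).trans (hμ.apply_one_of_comm fun a b => Subtype.ext (hz _ b.2 _)))
    hμ b1 (b0.trans cent_le_aI) ((cm b0).trans cent_le_aI) (by rwa [Subgroup.map_id])
    (map_le_norm_map j n) (go_central (V := V.map j) (ι := ι) (h1 := Subgroup.map_mono h1)
      (h2 := Subgroup.map_mono h2) (Subgroup.map_mono a2)
      (by rw [← Subgroup.map_sup, a4]) (map_le_norm_map j Subgroup.le_normalizer_of_normal)
      (map_le_norm_map j n) (map_le_norm_map j Subgroup.le_normalizer_of_normal)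
      (by rw [← Subgroup.map_commutator]; exact Subgroup.map_mono a5) ?_ (by rwa [cd])
      (by rwa [cd, cd]) (CfsgH2.isSolvable_map j hs) (Equiv.ext f1)
      (mem_normalizer_of_conj_mem ?_) ?_ (le_antisymm (le_inf (Subgroup.map_mono h2)
        (Subgroup.le_centralizer_iff.1 (Subgroup.zpowers_le.2 ?_))) ?_)
      (cm (Subgroup.le_centralizer_iff.1 c)) b1 ((cm b0).trans cent_le_aI))
  · rwa [Subgroup.map_id] at this
  · rintro _ ⟨⟨v, hv, rfl⟩, h⟩
    exact ⟨v, fit_mem Subgroup.le_normalizer_of_normal a5 cV (a3 hv) fun s hs => hj (by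
      rw [map_mul, map_mul, h _ ⟨s, hs, rfl⟩]), rfl⟩
  · rintro _ ⟨v, hv, rfl⟩
    exact ⟨_, (V.mul_mem_cancel_left hv).1 (a2 (f3 v hv)), (e v).symm⟩
  · rintro _ ⟨s, hs, rfl⟩
    rw [eq_comm, ← mul_inv_eq_iff_eq_mul, e, f2 s (Subgroup.mem_sup_right hs)]
  · rintro _ ⟨s, hs, rfl⟩
    rw [eq_comm, ← mul_inv_eq_iff_eq_mul, e, f2 s (Subgroup.mem_sup_left hs)]
  · rintro _ ⟨⟨t, ht, rfl⟩, h⟩
    have b2 := h ι (Subgroup.mem_zpowers ι)
    rw [← mul_inv_eq_iff_eq_mul, e] at b2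
    obtain ⟨v, hv, d, hd, rfl⟩ := (mem_sup_of_norm' Subgroup.le_normalizer_of_normal).1 (a4.ge ht)
    have b3 := f3 v hv
    replace b2 := hj b2
    rw [map_mul, f2 d (Subgroup.mem_sup_left hd), mul_left_inj] at b2
    obtain ⟨k, hk⟩ := ho
    have b4 := congrArg Subtype.val (pow_card_eq_one' (x := (⟨v, a1 hv⟩ : T)))
    rw [hk, pow_succ, pow_mul, sq] at b4
    rw [b2] at b3
    exact ⟨_, mul_mem (h1 ((Z.mul_mem_cancel_left (pow_mem b3 k)).1
      ((show (v * v) ^ k * v = 1 from b4).symm ▸ one_mem Z))) hd, rfl⟩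

theorem go_odd {h1 : Q ≤ D} {h2 : D ≤ T} (n : P ≤ N[T])
    (hD : ∀ k, k ∈ D ↔ k ∈ T ∧ ∀ x ∈ P, x * k * x⁻¹ * k⁻¹ ∈ Q) (hab : ⁅⁅T, P⁆, ⁅T, P⁆⁆ ≤ Q)
    (ho : Odd (Nat.card T)) (cop : (Nat.card P).Coprime (Nat.card T)) (hs : Group.IsSolvable T)
    {θ : Q → ℂ} (hθ : IsIrrCharacter Q θ) (hT : T ≤ aI θ) (hP : P ≤ aI θ) : GO 2 P h1 h2 θ := by
  have a0 : T ⊔ P ≤ aI θ := sup_le hT hP
  have a1 : Q ≤ T ⊔ P := (h1.trans h2).trans le_sup_left
  haveI := (Subgroup.normal_subgroupOf_iff_le_normalizer a1).2 (a0.trans aI_le)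
  obtain ⟨k, H, _, _, π₀, i, τ, lam, a, hk⟩ :=
    exists_ct_coprime ((isIrr_subOf_iff a1).2 hθ) (cj_subOf_eq a0)
  haveI := a.normal
  let π := (T ⊔ P).subtype.comp π₀
  let q := QuotientGroup.mk' i.range
  have r : π.range = T ⊔ P := by
    rw [← MonoidHom.map_range, MonoidHom.range_eq_top.2 a.surj, ← MonoidHom.range_eq_map,
      Subgroup.range_subtype]
  have kπ : π.ker = π₀.ker := MonoidHom.ker_comp_of_injective _ _ (T ⊔ P).subtype_injective
  have kq : q.ker = i.range := QuotientGroup.ker_mk' _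
  have iQ : i.range ≤ Q.comap π := a.range_le le_rfl
  have m : ∀ U, Q ≤ U → U ≤ T → Mt π q U ((U.comap π).map q) := fun U b1 b2 =>
    ⟨r ▸ b2.trans le_sup_left, Subgroup.map_le_range _ _, fun w => by
      rw [← Subgroup.mem_comap, ← Subgroup.mem_comap, Subgroup.comap_map_eq_self
        (kq.le.trans (iQ.trans (Subgroup.comap_mono b1)))]⟩
  have ck : Nat.card π.ker ∣ Nat.card T ^ 2 := by
    haveI := isCyclic_of_injective_ringHom ((Units.coeHom ℂ).comp lam)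
      (Units.val_injective.comp a.inj)
    rw [kπ, ← IsCyclic.exponent_eq_card]
    refine (Monoid.exponent_dvd_of_forall_pow_eq_one fun z => a.inj (by
      rw [map_pow, a.exp, map_one])).trans (hk.trans (pow_dvd_pow_of_dvd ?_ 2))
    rw [Nat.card_congr (Subgroup.subgroupOfEquivOfLe a1).toEquiv]
    exact Subgroup.card_dvd_of_le (h1.trans h2)
  have cP : π.ker.relIndex (P.comap π) = Nat.card P := by
    rw [Subgroup.relIndex_ker, Subgroup.map_comap_eq_self (r ▸ le_sup_right)]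
  obtain ⟨S, s1, s2, -, s3⟩ := exists_compl (Subgroup.ker_le_comap π P)
    Subgroup.le_normalizer_of_normal (cP ▸ (cop.symm.pow_left 2).coprime_dvd_left ck)
  have s4 : S.map π = P := by
    rw [← Subgroup.map_comap_eq_self (r ▸ le_sup_right : P ≤ π.range), ← s2, Subgroup.map_sup,
      (Subgroup.map_eq_bot_iff _).2 le_rfl, bot_sup_eq]
  have cT : Nat.card ((T.comap π).map q) ∣ Nat.card T ^ 3 := (Subgroup.card_map_dvd _ _).trans (by
    rw [card_comap_eq _ _ (r ▸ le_sup_left), pow_succ']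
    exact mul_dvd_mul_left _ ck)
  have cS : (Nat.card (S.map q)).Coprime (Nat.card ((T.comap π).map q)) :=
    ((cop.pow_right 3).coprime_dvd_right cT).coprime_dvd_left
      ((Subgroup.card_map_dvd _ _).trans (s3.trans cP).dvd)
  have hZ : (Q.comap π).map q ≤ Subgroup.center _ := by
    rintro _ ⟨w, hw, rfl⟩
    obtain ⟨n, z, rfl⟩ := a.exists_eq hw
    refine Subgroup.mem_center_iff.2 fun g => ?_
    obtain ⟨g, rfl⟩ := QuotientGroup.mk'_surjective _ g
    rw [map_mul, show q (i n) = 1 from kq.ge ⟨n, rfl⟩, one_mul, ← map_mul, ← map_mul, a.comm]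
  obtain ⟨ν, n1, n2⟩ : ∃ ν : Q.comap π →* ℂˣ, (∀ n, ν ⟨i n, iQ ⟨n, rfl⟩⟩ = 1) ∧
      ∀ z : π₀.ker, lam z * ν ⟨z, Subgroup.ker_le_comap π Q (kπ.ge z.2)⟩ = 1 :=
    let ⟨ν, n1, n2, _⟩ := a.exists_mu; ⟨ν, n1, n2⟩
  obtain ⟨μ, m1, m2⟩ := exists_defl (m Q le_rfl (h1.trans h2)).sb (isIrr_of_unitsHom ν) (by
    rw [Mt.ker_b, kq]
    rintro ⟨_, h⟩ ⟨n, rfl⟩
    rw [n1, map_one])
  have nS : S.map q ≤ N[(T.comap π).map q] := map_le_norm_map q (le_norm_comap π (s4 ▸ n))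
  have b0 : (T.comap π).map q ≤ aI μ := fun t _ =>
    cent_le_aI fun z h => (Subgroup.mem_center_iff.1 (hZ h) t).symm
  refine s4 ▸ go_transfer (τ := τ) Nat.prime_two ⟨a.chr, by rw [kq]; exact a.irr_range, kπ ▸ a.cent⟩
    (m Q le_rfl (h1.trans h2)) (m D h1 h2) (m T (h1.trans h2) le_rfl) (fun w b1 b2 => ?_)
    ((congrArg μ (map_one _).symm).trans ((m2 1).trans (by rw [map_one, Units.val_one]))) hθ m1 hT
    b0 (s4 ▸ n) nS (go_ab (h1 := Subgroup.map_mono (Subgroup.comap_mono h1))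
      (h2 := Subgroup.map_mono (Subgroup.comap_mono h2)) hZ ?_ nS (le_antisymm (le_inf
        (Subgroup.map_mono (Subgroup.comap_mono h2)) ?_) ?_) ?_ ((ho.pow).of_dvd_nat cT) cS
        (CfsgH2.isSolvable_map q ?_) m1)
  · rw [show μ ⟨q w, b2⟩ = _ from m2 ⟨w, b1⟩]
    obtain ⟨n, z, rfl⟩ := a.exists_eq b1
    rw [a.apply_mul, a.res, ← mul_assoc, ← Units.val_mul,
      show (⟨_, b1⟩ : Q.comap π) = ⟨i n, iQ ⟨n, rfl⟩⟩ * ⟨z, Subgroup.ker_le_comap π Q (kπ.ge z.2)⟩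
        from rfl, ν.map_mul, n1,
      one_mul, mul_comm (ν _), n2, Units.val_one, one_mul]
    exact congrArg θ (Subtype.ext (by simp [π, a.pi_i, MonoidHom.mem_ker.1 z.2]))
  · rw [← Subgroup.map_sup, ← sup_eq_left.2 (Subgroup.ker_le_comap π T), sup_assoc, s2,
      Subgroup.comap_sup_eq_of_le_range π (r ▸ le_sup_left) (r ▸ le_sup_right),
      (eq_top_iff.2 fun w _ => (π₀ w).2 : (T ⊔ P).comap π = ⊤)]
    exact Subgroup.map_top_of_surjective _ (QuotientGroup.mk'_surjective _)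
  · rintro _ ⟨w, hw, rfl⟩
    obtain ⟨z, b1, b2⟩ := coprime_fixed_coset (A := S.map q) (fun g _ =>
      mem_normalizer_of_conj_mem fun z hz => by
        rwa [Subgroup.mem_center_iff.1 (hZ hz), mul_inv_cancel_right]) (cS.coprime_dvd_right
      (Subgroup.card_dvd_of_le (Subgroup.map_mono (Subgroup.comap_mono (h1.trans h2)))))
      (.inr (isSolvable_of_comm fun x y => Subtype.ext (Subgroup.mem_center_iff.1 (hZ y.2) _)))
      (k := q w) (by
        rintro _ ⟨s, hs, rfl⟩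
        refine ⟨w⁻¹ * (s * w * s⁻¹), ?_, by simp⟩
        have := conj_mem_of_mem_normalizer (inv_mem (aI_le (hT (h2 hw))))
          (((hD _).1 hw).2 _ (s1 hs))
        simpa [mul_assoc] using this)
    intro s hs
    refine mul_right_cancel (b := z) ?_
    rw [mul_assoc, b2 s hs, mul_assoc, mul_assoc, Subgroup.mem_center_iff.1 (hZ b1)]
  · rintro _ ⟨⟨w, hw, rfl⟩, h⟩
    refine ⟨w, (hD _).2 ⟨hw, fun x hx => ?_⟩, rfl⟩
    obtain ⟨s, hs, rfl⟩ := s4.ge hx
    have : s * w * s⁻¹ * w⁻¹ ∈ q.ker := by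
      rw [MonoidHom.mem_ker, map_mul, map_mul, map_mul, h _ ⟨s, hs, rfl⟩]; simp
    simpa using iQ (kq.le this)
  · rw [← Subgroup.map_commutator, ← Subgroup.map_commutator]
    refine Subgroup.map_mono (Subgroup.map_le_iff_le_comap.1 ?_)
    rwa [Subgroup.map_commutator, Subgroup.map_commutator, s4,
      Subgroup.map_comap_eq_self (r ▸ le_sup_left)]
  · haveI : Group.IsSolvable π.ker := isSolvable_of_comm fun x y =>
      Subtype.ext (Subgroup.mem_center_iff.1 (a.cent (kπ.le y.2)) _)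
    exact solvable_of_ker_le_range (Subgroup.inclusion (Subgroup.ker_le_comap π T))
      (π.subgroupComap T) fun x hx => ⟨⟨x, congrArg Subtype.val (MonoidHom.mem_ker.1 hx)⟩, rfl⟩

end CfsgH4
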