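import Cfsg.Agent.H4.Isa3

/-! Isaacs' correspondence: the reduction to the inertia group. -/

set_option autoImplicit false
open Cfsg CfsgH3 CfsgH4 CfsgH1 CfsgRg Function
open CfsgH2 hiding cj cj_apply isPGroup_pCore le_pCore isNilpotent_map card_mul_relIndex
open scoped ComplexConjugate CfsgH2 commutatorElement

namespace CfsgH4

variable {Γ : Type*} [Group Γ] [Finite Γ] {P K Q C T : Subgroup Γ}
  {θ : Q → ℂ} {ψ : T → ℂ} {χ χ' : K → ℂ} {ξ : C → ℂ}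

/-- the standing hypotheses -/
structure Si (P K Q C : Subgroup Γ) : Prop where
  PK : P ≤ N[K]
  PQ : P ≤ N[Q]
  QK : Q ≤ K
  KQ : K ≤ N[Q]
  cop : (Nat.card P).Coprime (Nat.card K)
  odd : Odd (Nat.card K)
  sol : Group.IsSolvable K
  ab : ⁅⁅K, P⁆, ⁅K, P⁆⁆ ≤ Q
  mem : ∀ k, k ∈ C ↔ k ∈ K ∧ ∀ x ∈ P, x * k * x⁻¹ * k⁻¹ ∈ Q

namespace Si
open St (nT QT)
variable (s : Si P K Q C)
include s

omit [Finite Γ] in
theorem CK : C ≤ K := fun k h => ((s.mem k).1 h).1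

omit [Finite Γ] in
theorem QC : Q ≤ C := fun k h => (s.mem k).2 ⟨s.QK h, fun _ hx =>
  mul_mem (conj_mem_of_mem_normalizer (s.PQ hx) h) (inv_mem h)⟩

theorem PC : P ≤ N[C] := fun x hx => mem_normalizer_of_conj_mem fun c hc => by
  simpa using mul_mem (s.QC (((s.mem c).1 hc).2 x hx)) hc

omit [Finite Γ] in
theorem sol' (h : T ≤ K) : Group.IsSolvable T :=
  haveI := s.sol
  solvable_of_solvable_injective (Subgroup.inclusion_injective h)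

theorem under (h1 : Q ≤ T) (h2 : T ≤ K) (hψ : IsIrrCharacter T ψ) (h3 : P ≤ aI ψ) :
    ∃ θ, IsIrrCharacter Q θ ∧ Ov h1 ψ θ ∧ P ≤ aI θ :=
  exists_inv_under s.PQ h1 (h2.trans s.KQ) (s.cop.symm.coprime_dvd_left
    ((Subgroup.relIndex_dvd_card _ _).trans (Subgroup.card_dvd_of_le h2)))
    (.inr (isSolvable_qt (s.sol' h2))) hψ h3

theorem go (hθ : IsIrrCharacter Q θ) (h1 : P ≤ aI θ) :
    GO 2 P (QT s.QC hθ) (inf_le_inf_right _ s.CK) θ :=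
  have := Subgroup.card_dvd_of_le (inf_le_left : K ⊓ aI θ ≤ K)
  have a := Subgroup.commutator_mono (inf_le_left : K ⊓ aI θ ≤ K) (le_refl P)
  go_odd (D := C ⊓ aI θ) (nT s.PK h1) (fun k => ⟨fun h => ⟨⟨s.CK h.1, h.2⟩, ((s.mem k).1 h.1).2⟩,
    fun h => ⟨(s.mem k).2 ⟨h.1.1, h.2⟩, h.1.2⟩⟩) ((Subgroup.commutator_mono a a).trans s.ab)
    (s.odd.of_dvd_nat this) (s.cop.coprime_dvd_right this) (s.sol' inf_le_left) hθ inf_le_right h1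

theorem fuse (hθ : IsIrrCharacter Q θ) (h1 : P ≤ aI θ) {k : Γ} (hk : k ∈ K)
    (h2 : P ≤ aI (cA (s.KQ hk) θ)) : ∃ c, ∃ hc : c ∈ C, cA (s.KQ (s.CK hc)) θ = cA (s.KQ hk) θ := by
  obtain ⟨n, h3, h4⟩ := coprime_fixed_coset (qt_le_norm (K := Q) (nT s.PK h1))
    (by
      rw [card_qt s.PQ, card_qt (inf_le_left.trans s.KQ)]
      exact (s.cop.coprime_dvd_left (Subgroup.relIndex_dvd_card _ _)).coprime_dvd_right
        ((Subgroup.relIndex_dvd_card _ _).trans (Subgroup.card_dvd_of_le inf_le_left)))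
    (.inr (isSolvable_qt (s.sol' inf_le_left))) (k := qmk Q ⟨k, s.KQ hk⟩⁻¹) fun a ha => by
      obtain ⟨x, hx, rfl⟩ := mem_qt.1 ha
      refine mem_qt.2 ⟨⟨k, s.KQ hk⟩ * (x * ⟨k, s.KQ hk⟩⁻¹ * x⁻¹), ⟨mul_mem hk
        (conj_mem_of_mem_normalizer (s.PK hx) (inv_mem hk)), ?_⟩, by simp⟩
      have h3 : k * x * k⁻¹ ∈ aI (cA (inv_mem (s.KQ hk)) (cA (s.KQ hk) θ)) :=
        mem_aI_cA _ (by simpa [mul_assoc] using h2 hx)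
      rw [cA_cA, cA_congr _ (mul_inv_cancel k), cA_one] at h3
      simpa [mul_assoc] using mul_mem h3 (inv_mem (h1 hx))
  obtain ⟨t, h5, rfl⟩ := mem_qt.1 h3
  have h6 : (t : Γ)⁻¹ * k ∈ C := (s.mem _).2 ⟨mul_mem (inv_mem h5.1) hk,
    (mem_cent_qt s.PQ (t⁻¹ * ⟨k, s.KQ hk⟩)).1 (by simpa using inv_mem h4)⟩
  exact ⟨_, h6, by rw [← cA_cA (s.KQ hk) (inv_mem t.2), ((aI θ).inv_mem h5.2).2]⟩

theorem rr (hθ : IsIrrCharacter Q θ) (h1 : P ≤ aI θ) {ψ : ↥(K ⊓ aI θ) → ℂ}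
    {η : ↥(C ⊓ aI θ) → ℂ} (hψ : IsIrrCharacter _ ψ) (a1 : Ov (QT s.QK hθ) ψ θ)
    (hχ : IsIrrCharacter K χ) (a2 : Ov inf_le_left χ ψ) (hη : IsIrrCharacter _ η)
    (a3 : Ov (QT s.QC hθ) η θ) (hξ : IsIrrCharacter C ξ) (a4 : Ov inf_le_left ξ η)
    (a : GR 2 (inf_le_inf_right _ s.CK) ψ η) : RR 2 P s.CK χ ξ := by
  obtain ⟨ε, Δ, b1, b2, b3⟩ := a
  have CQ := s.CK.trans s.KQ
  refine ⟨ε, b1, fun ξ' c1 c2 => ?_⟩
  by_cases c3 : Ov s.QC ξ' θ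
  · obtain ⟨η', c4, c5, c6⟩ := exists_mid (QT s.QC hθ) inf_le_left c1.isClassFunction c3
    obtain ⟨n, c7⟩ := b2.exists_int_classInner c4.isGen
    have c8 := (clif _ _ CQ hθ rfl c4 c6 c1 c5).1
    refine ⟨n, ?_⟩
    rw [c8 _ (hχ.isClassFunction.resLE _), c8 _ hξ.isClassFunction]
    refine (clif_res _ _ s.KQ hθ rfl hψ a1 hχ a2 _ (inf_le_inf_right _ s.CK) c4 c6).trans ?_
    rw [b3, classInner_add_left, classInner_smul_left, classInner_smul_left, c7]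
    exact congrArg (fun z : ℂ => (2 : ℕ) * n + ε * z)
      (clif_res _ _ CQ hθ rfl hη a3 hξ a4 _ le_rfl c4 c6).symm
  · refine ⟨0, ?_⟩
    rw [hξ.classInner_of_ne c1 fun e => c3 (e ▸ over_trans _ _ hξ.isCharacter hη hθ.isCharacter
      a4 a3), Int.cast_zero, mul_zero, mul_zero, add_zero]
    by_contra c4
    obtain ⟨θ', c5, c6, c7⟩ := s.under s.QC s.CK c1 c2
    obtain ⟨k, hk, rfl⟩ := exists_cA_eq s.QK s.KQ hχ hθ c5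
      (over_trans _ _ hχ.isCharacter hψ hθ.isCharacter a2 a1)
      (over_trans s.QC s.CK hχ.isCharacter c1 c5.isCharacter c4 c6)
    obtain ⟨c, hc, c8⟩ := s.fuse hθ h1 hk c7
    rw [Ov, ← c8, classInner_resLE_cA _ (le_aI_self c1.isClassFunction hc)] at c6
    exact c3 c6

theorem core (hθ : IsIrrCharacter Q θ) (h1 : P ≤ aI θ) (hχ : IsIrrCharacter K χ) (h2 : P ≤ aI χ)
    (h3 : Ov s.QK χ θ) : ∃ (ψ : ↥(K ⊓ aI θ) → ℂ) (η : ↥(C ⊓ aI θ) → ℂ) (ξ : C → ℂ),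
      IsIrrCharacter _ ψ ∧ Ov (QT s.QK hθ) ψ θ ∧ Ov inf_le_left χ ψ ∧ P ≤ aI ψ ∧
      IsIrrCharacter _ η ∧ Ov (QT s.QC hθ) η θ ∧ GR 2 (inf_le_inf_right _ s.CK) ψ η ∧
      IsIrrCharacter C ξ ∧ Ov inf_le_left ξ η ∧ P ≤ aI ξ ∧ RR 2 P s.CK χ ξ := by
  obtain ⟨ψ, a1, a2, a3⟩ := exists_mid (QT s.QK hθ) inf_le_left hχ.isClassFunction h3
  have a4 : P ≤ aI ψ := fun x hx =>
    inv_down _ _ s.KQ hθ rfl a1 a3 hχ a2 (nT s.PK h1 hx) (h2 hx) (h1 hx)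
  obtain ⟨η, a5, a6, a7⟩ := (s.go hθ h1).ex a1 a3 a4
  obtain ⟨ξ, a8, a9⟩ := exists_irr_over' (inf_le_left : C ⊓ aI θ ≤ C) a5
  exact ⟨ψ, η, ξ, a1, a3, a2, a4, a5, a6, a7, a8, a9, fun x hx =>
    inv_up _ _ (s.CK.trans s.KQ) hθ rfl a5 a6 a8 a9 (s.PC hx)
      (a7.le_aI Nat.prime_two a1.isCharacter a5 (nT s.PC h1) a4 hx), s.rr hθ h1 a1 a3 hχ a2 a5 a6 a8 a9 a7⟩

theorem ex (hχ : IsIrrCharacter K χ) (h2 : P ≤ aI χ) :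
    ∃ ξ, IsIrrCharacter C ξ ∧ P ≤ aI ξ ∧ RR 2 P s.CK χ ξ := by
  obtain ⟨θ, a1, a2, a3⟩ := s.under s.QK le_rfl hχ h2
  obtain ⟨-, -, ξ, -, -, -, -, -, -, -, b1, -, b2, b3⟩ := s.core a1 a3 hχ h2 a2
  exact ⟨ξ, b1, b2, b3⟩

theorem inj (hχ : IsIrrCharacter K χ) (h1 : P ≤ aI χ) (hχ' : IsIrrCharacter K χ') (h2 : P ≤ aI χ')
    (hξ : IsIrrCharacter C ξ) (h3 : P ≤ aI ξ) (a : RR 2 P s.CK χ ξ) (b : RR 2 P s.CK χ' ξ) :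
    χ = χ' := by
  obtain ⟨θ, a1, a2, a3⟩ := s.under s.QC s.CK hξ h3
  obtain ⟨ψ, η, ξ₁, b1, b2, b3, b4, b5, b6, b7, b8, b9, -, b0⟩ := s.core a1 a3 hχ h1
    (over_trans _ _ hχ.isCharacter hξ a1.isCharacter (a.ov hξ h3) a2)
  obtain ⟨ψ', η', ξ₂, c1, c2, c3, c4, c5, c6, c7, c8, c9, -, c0⟩ := s.core a1 a3 hχ' h2
    (over_trans _ _ hχ'.isCharacter hξ a1.isCharacter (b.ov hξ h3) a2)
  obtain rfl := b0.unique a b8 hξ h3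
  obtain rfl := c0.unique b c8 hξ h3
  obtain rfl := clif_down _ _ (s.CK.trans s.KQ) a1 rfl b5 b6 hξ b9 c5 c6 c9
  obtain rfl := (s.go a1 a3).inj b1 c1 b5 b2 c2 b4 c4 b7 c7
  exact clif_up _ _ s.KQ a1 rfl b1 b2 hχ' c3 hχ b3

theorem surj (hξ : IsIrrCharacter C ξ) (h3 : P ≤ aI ξ) :
    ∃ χ, IsIrrCharacter K χ ∧ P ≤ aI χ ∧ RR 2 P s.CK χ ξ := by
  obtain ⟨θ, a1, a2, a3⟩ := s.under s.QC s.CK hξ h3
  obtain ⟨η, b1, b2, b3⟩ := exists_mid (QT s.QC a1) inf_le_left hξ.isClassFunction a2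
  obtain ⟨ψ, b4, b5, b6, b7⟩ := (s.go a1 a3).surj b1 b3
  obtain ⟨χ, b8, b9⟩ := exists_irr_over' (inf_le_left : K ⊓ aI θ ≤ K) b4
  exact ⟨χ, b8, fun x hx => inv_up _ _ s.KQ a1 rfl b4 b5 b8 b9 (s.PK hx) (b6 hx),
    s.rr a1 a3 b4 b5 b8 b9 b1 b3 hξ b2 b7⟩

end Si

end CfsgH4
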