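import Cfsg.Agent.H4.Jor2
import Cfsg.Agent.H4.Cov
import Cfsg.Agent.H2.PG3

open Cfsg CfsgH3 Module
open scoped ComplexConjugate Pointwise

namespace CfsgH4.Jor

variable {G : Type*} [Group G] [Finite G] {χ : G → ℂ}

theorem card_const_le (hχ : IsCharacter G χ) [Fintype G] :
    Nat.card {θ : IrrCharacter G // classInner χ θ.1 ≠ 0} ≤ charDegree χ := by
  classical
  obtain ⟨m, hm, he⟩ := hχ.exists_eq_sum_irr
  have h1 := congrFun he 1
  simp only [Finset.sum_apply, Pi.smul_apply, smul_eq_mul] at h1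
  have h2 : charDegree χ = ∑ φ : IrrCharacter G, m φ * charDegree φ.1 := by
    rw [← Nat.cast_inj (R := ℂ), coe_charDegree hχ, h1]
    push_cast
    exact Finset.sum_congr rfl fun φ _ => by rw [coe_charDegree φ.2.isCharacter]
  rw [h2, Nat.card_eq_fintype_card, Fintype.card_subtype, Finset.card_filter]
  refine Finset.sum_le_sum fun φ _ => ?_
  split_ifs with h
  · rw [hm] at h
    exact Nat.mul_pos (Nat.pos_of_ne_zero (by exact_mod_cast h)) (charDegree_pos φ.2)
  · exact Nat.zero_le _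

theorem index_dvd_fact (hχ : IsCharacter G χ) (hf : ∀ g : G, χ g = χ 1 → g = 1) (N : Subgroup G)
    [hN : N.Normal] (hc : ∀ x ∈ N, ∀ y ∈ N, x * y = y * x)
    (hC : Subgroup.centralizer (N : Set G) ≤ N) : N.index ∣ (charDegree χ).factorial := by
  classical
  haveI := Fintype.ofFinite N
  set S := {θ : IrrCharacter N // Over N.subtype χ θ.1}
  let f : G →* Equiv.Perm S := MonoidHom.toHomPerm
    { toFun := fun g θ => ⟨irrCj g⁻¹ θ.1, θ.2.cj hχ.isClassFunction _⟩
      map_one' := funext fun θ => Subtype.ext (by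
        show irrCj 1⁻¹ θ.1 = θ.1
        rw [inv_one, irrCj_one])
      map_mul' := fun a b => funext fun θ =>
        Subtype.ext (by
          show irrCj (a * b)⁻¹ θ.1 = irrCj a⁻¹ (irrCj b⁻¹ θ.1)
          rw [irrCj_irrCj, mul_inv_rev]) }
  have hr := hχ.restrict N
  have hker : f.ker ≤ N := fun g hg => hC (by
    rw [Subgroup.mem_centralizer_iff]
    intro n hn
    obtain ⟨m, hm, he⟩ := hr.exists_eq_sum_irr
    have hgn : g⁻¹ * n * g⁻¹⁻¹ ∈ N := hN.conj_mem n hn _
    set c : N := ⟨_, hgn⟩ * (⟨n, hn⟩ : N)⁻¹ with hcd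
    have h1 : χ c = χ (1 : N) := by
      have a1 := congrFun he c
      have a2 := congrFun he 1
      simp only [Finset.sum_apply, Pi.smul_apply, smul_eq_mul] at a1 a2
      rw [a1, a2]
      refine Finset.sum_congr rfl fun φ _ => ?_
      by_cases h0 : m φ = 0
      · simp [h0]
      have b1 : φ.1 1 = 1 := φ.2.apply_one_of_comm fun a b => Subtype.ext (hc _ a.2 _ b.2)
      have b2 : Over N.subtype χ φ.1 := over_iff.2 (by
        have := hm φ
        simp only [Subgroup.coe_subtype]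
        rw [this]; exact_mod_cast h0)
      have b3 : irrCj g⁻¹ φ = φ := congrArg Subtype.val (congrArg (fun e : Equiv.Perm S => e ⟨φ, b2⟩) hg)
      have b4 := irrCj_apply g⁻¹ φ ⟨n, hn⟩
      rw [b3] at b4
      rw [hcd, φ.2.isCharacter.map_mul_of_apply_one b1, ← b4,
        ← φ.2.isCharacter.map_mul_of_apply_one b1, mul_inv_cancel]
    have h2 := hf _ h1
    simp only [hcd, Subgroup.coe_mul, Subgroup.coe_inv, inv_inv] at h2
    rw [mul_inv_eq_one, mul_assoc, inv_mul_eq_iff_eq_mul] at h2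
    exact h2)
  have hS : Nat.card S ≤ charDegree χ := by
    refine le_trans (le_of_eq (Nat.card_congr (Equiv.subtypeEquivRight fun θ => over_iff))) ?_
    exact card_const_le hr
  refine (Subgroup.index_dvd_of_le hker).trans ?_
  rw [Subgroup.index_ker]
  refine f.range.card_subgroup_dvd_card.trans ?_
  rw [Nat.card_perm]
  exact Nat.factorial_dvd_factorial hS

theorem pgroup_ab {p : ℕ} [Fact p.Prime] (hG : IsPGroup p G) (hχ : IsCharacter G χ)
    (hf : ∀ g : G, χ g = χ 1 → g = 1) : ∃ B : Subgroup G, (∀ x ∈ B, ∀ y ∈ B, x * y = y * x) ∧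
      B.index ∣ (charDegree χ).factorial := by
  obtain ⟨B, -, -, h2, h3⟩ := CfsgH2.exists_scn_ge (P := (⊤ : Subgroup G)) (A := ⊥) (hG.to_subgroup ⊤)
    bot_le (Subgroup.normalizer_eq_top _).ge inferInstance
  rw [top_inf_eq] at h3
  haveI : B.Normal := Subgroup.normalizer_eq_top_iff.1 (top_le_iff.1 h2)
  have hc : ∀ x ∈ B, ∀ y ∈ B, x * y = y * x := fun x hx y hy => by
    rw [← h3] at hy
    exact hy x hx
  exact ⟨B, hc, index_dvd_fact hχ hf B hc h3.le⟩

theorem jordan (hχ : IsCharacter G χ) (hf : ∀ g : G, χ g = χ 1 → g = 1) :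
    ∃ A : Subgroup G, A.Normal ∧ (∀ x ∈ A, ∀ y ∈ A, x * y = y * x) ∧
      A.index ≤ (charDegree χ).factorial *
        12 ^ (charDegree χ * (Nat.primeCounting (charDegree χ + 1) + 1)) := by
  obtain ⟨A, hA, hc, hb⟩ := jordan_abelian hχ hf
  obtain ⟨H, hH, -, hH2⟩ := blichfeldt hχ hf
  refine ⟨A, hA, hc, ?_⟩
  set n := charDegree χ with hn
  have h0 : A.index ≠ 0 := Subgroup.index_ne_zero_of_finite
  have gen : ∀ B : Subgroup G, A.index ∣ (A.subgroupOf B).index * B.index := fun B => by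
    have := Subgroup.relIndex_mul_index (inf_le_right : A ⊓ B ≤ B)
    rw [Subgroup.inf_relIndex_right] at this
    exact (Subgroup.index_dvd_of_le inf_le_left).trans (dvd_of_eq this.symm)
  set T := (n + 2).primesBelow
  have h1 : A.index ∣ (A.subgroupOf H).index * ∏ p ∈ T, p ^ A.index.factorization p := by
    rw [Nat.dvd_iff_prime_pow_dvd_dvd]
    intro p k hp hk
    by_cases h : p ≤ n + 1
    · refine Dvd.dvd.mul_left (Dvd.dvd.trans ?_ (Finset.dvd_prod_of_mem _
        (Nat.mem_primesBelow.2 ⟨Nat.lt_succ_of_le h, hp⟩))) _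
      exact pow_dvd_pow _ ((hp.pow_dvd_iff_le_factorization h0).1 hk)
    · refine Dvd.dvd.mul_right (Nat.Coprime.dvd_of_dvd_mul_right ?_ (hk.trans (gen H))) _
      exact Nat.Coprime.pow_left _ ((Nat.Prime.coprime_iff_not_dvd hp).2 fun h2 => h (hH2 p hp h2))
  have h2 : ∀ p ∈ T, p ^ A.index.factorization p ≤ p ^ n.factorial.factorization p * 12 ^ n := by
    intro p hp
    have hp := (Nat.mem_primesBelow.1 hp).2
    haveI := Fact.mk hp
    obtain ⟨P⟩ : Nonempty (Sylow p G) := inferInstance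
    obtain ⟨B, hB, hB2⟩ := pgroup_ab P.isPGroup' (hχ.restrict P) fun g hg => Subtype.ext (hf g hg)
    have a1 := (Nat.ordProj_dvd A.index p).trans (gen (B.map (P : Subgroup G).subtype))
    rw [Subgroup.index_map_subtype, ← mul_assoc] at a1
    have a2 := Nat.Coprime.dvd_of_dvd_mul_right (Nat.Coprime.pow_left _
      ((Nat.Prime.coprime_iff_not_dvd hp).2 P.not_dvd_index)) a1
    have a3 := hb (B.map (P : Subgroup G).subtype) (by
      rintro _ ⟨x, hx, rfl⟩ _ ⟨y, hy, rfl⟩
      exact congrArg Subtype.val (hB x hx y hy))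
    obtain ⟨k, hk⟩ := P.isPGroup'.index B
    have a4 : B.index ≤ p ^ n.factorial.factorization p := by
      rw [hk] at hB2 ⊢
      exact Nat.pow_le_pow_right hp.pos
        ((hp.pow_dvd_iff_le_factorization (Nat.factorial_ne_zero _)).1 hB2)
    refine (Nat.le_of_dvd (Nat.mul_pos (Nat.pos_of_ne_zero Subgroup.index_ne_zero_of_finite)
      (Nat.pos_of_ne_zero Subgroup.index_ne_zero_of_finite)) a2).trans ?_
    rw [mul_comm]
    exact Nat.mul_le_mul a4 a3
  have h3 : ∏ p ∈ T, p ^ n.factorial.factorization p ∣ n.factorial :=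
    Finset.prod_dvd_of_isRelPrime (fun p hp q hq hne => Nat.coprime_iff_isRelPrime.1
      (Nat.coprime_pow_primes _ _ (Nat.mem_primesBelow.1 hp).2 (Nat.mem_primesBelow.1 hq).2 hne))
      fun p _ => Nat.ordProj_dvd _ p
  have h4 : T.card = Nat.primeCounting (n + 1) := Nat.primesBelow_card_eq_primeCounting' _
  have h5 := Finset.prod_le_prod' h2
  rw [Finset.prod_mul_distrib, Finset.prod_const, h4] at h5
  have hpos : 0 < ∏ p ∈ T, p ^ A.index.factorization p :=
    Finset.prod_pos fun p hp => pow_pos (Nat.mem_primesBelow.1 hp).2.pos _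
  calc A.index ≤ _ := Nat.le_of_dvd (Nat.mul_pos
        (Nat.pos_of_ne_zero Subgroup.index_ne_zero_of_finite) hpos) h1
    _ ≤ 12 ^ n * (n.factorial * (12 ^ n) ^ Nat.primeCounting (n + 1)) :=
      Nat.mul_le_mul (hb H hH) (h5.trans (Nat.mul_le_mul_right _
        (Nat.le_of_dvd (Nat.factorial_pos _) h3)))
    _ = _ := by ring

end CfsgH4.Jor
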