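import Mathlib

/-! Counting commuting pairs in split extensions of abelian groups. -/

namespace CfsgH4.KG

open Subgroup

theorem card_cc_congr {G H : Type*} [Group G] [Group H] [Finite G] (e : G ≃* H) :
    Nat.card (ConjClasses G) = Nat.card (ConjClasses H) := by
  have : Finite H := Finite.of_equiv G e.toEquiv
  have h1 := card_comm_eq_card_conjClasses_mul_card G
  have h2 := card_comm_eq_card_conjClasses_mul_card H
  have h3 : Nat.card {p : G × G // Commute p.1 p.2} = Nat.card {p : H × H // Commute p.1 p.2} := by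
    refine Nat.card_congr (Equiv.subtypeEquiv (Equiv.prodCongr e.toEquiv e.toEquiv) fun p => ?_)
    simp only [Equiv.prodCongr_apply, Prod.map_fst, Prod.map_snd, MulEquiv.toEquiv_eq_coe,
      EquivLike.coe_coe, Commute, SemiconjBy, ← map_mul, e.apply_eq_iff_eq]
  have h4 : Nat.card G = Nat.card H := Nat.card_congr e.toEquiv
  rw [h1, h2, h4] at h3
  exact Nat.eq_of_mul_eq_mul_right Nat.card_pos h3

theorem card_ker_pair {V T : Type*} [CommGroup V] [Finite V] [Group T] [Finite T]
    (φ : T →* MulAut V) (hcop : (Nat.card V).Coprime (Nat.card T)) (g h : T) :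
    Nat.card {p : V × V // p.1 * φ g p.2 = p.2 * φ h p.1} =
      Nat.card V * Nat.card {v : V // φ g v = v ∧ φ h v = v} := by
  classical
  set T0 : Subgroup T := closure {g, h} with hT0
  have : Fintype T0 := Fintype.ofFinite _
  let f : V × V →* V :=
    { toFun := fun p => p.1 * φ g p.2 * (p.2 * φ h p.1)⁻¹
      map_one' := by simp
      map_mul' := fun p q => by
        simp only [Prod.fst_mul, Prod.snd_mul, map_mul, mul_inv]
        simp only [mul_comm, mul_left_comm, mul_assoc] }
  have hf : ∀ p, f p = p.1 * φ g p.2 * (p.2 * φ h p.1)⁻¹ := fun _ => rfl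
  have hR : ∀ t ∈ T0, ∀ v, φ t v * v⁻¹ ∈ f.range := by
    intro t ht
    induction ht using closure_induction with
    | mem x hx =>
      intro v
      rcases hx with rfl | rfl
      · exact ⟨(1, v), by simp [hf]⟩
      · exact ⟨(v⁻¹, 1), by simp [hf, mul_comm]⟩
    | one => intro v; simp
    | mul x y _ _ hx hy =>
      intro v
      have := mul_mem (hx (φ y v)) (hy v)
      rw [map_mul, MulAut.mul_apply]
      convert this using 1
      group
    | inv x _ hx =>
      intro v
      have := inv_mem (hx (φ x⁻¹ v))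
      convert this using 1
      simp [mul_comm]
  let N : V →* V :=
    { toFun := fun v => ∏ t : T0, φ t v
      map_one' := by simp
      map_mul' := fun a b => by simp [Finset.prod_mul_distrib] }
  have hN : ∀ v, N v = ∏ t : T0, φ t v := fun _ => rfl
  have hN1 : ∀ s ∈ T0, ∀ v, N (φ s v) = N v := by
    intro s hs v
    rw [hN, hN]
    refine Fintype.prod_equiv (Equiv.mulRight (⟨s, hs⟩ : T0)) _ _ fun t => ?_
    simp
  have hN2 : ∀ s ∈ T0, ∀ v, φ s (N v) = N v := by
    intro s hs v
    rw [hN, map_prod]
    refine Fintype.prod_equiv (Equiv.mulLeft (⟨s, hs⟩ : T0)) _ _ fun t => ?_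
    simp
  have hg : g ∈ T0 := subset_closure (by simp)
  have hh : h ∈ T0 := subset_closure (by simp)
  have hc : (Nat.card V).Coprime (Nat.card T0) :=
    hcop.coprime_dvd_right (card_subgroup_dvd_card T0)
  obtain ⟨m, hm⟩ : ∃ m : ℕ, ∀ v : V, (v ^ Nat.card T0) ^ m = v := by
    obtain ⟨m, hm⟩ := Nat.exists_mul_mod_eq_of_coprime 1 hc.symm (Nat.card_pos (α := V)).ne'
    refine ⟨m, fun v => ?_⟩
    rw [← pow_mul, ← pow_mod_natCard, hm.2, pow_mod_natCard, pow_one]
  have hker : N.ker = f.range := by
    ext v
    constructor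
    · intro hv
      rw [MonoidHom.mem_ker] at hv
      have h1 : ∏ t : T0, (φ t v * v⁻¹) ∈ f.range := prod_mem fun t _ => hR t t.2 v
      rw [Finset.prod_mul_distrib, ← hN, hv, one_mul, Finset.prod_const, Finset.card_univ,
        ← Nat.card_eq_fintype_card, inv_pow] at h1
      have h2 := pow_mem (inv_mem h1) m
      rwa [inv_inv, hm] at h2
    · rintro ⟨p, rfl⟩
      rw [MonoidHom.mem_ker, hf, map_mul, map_mul, map_inv, map_mul, hN1 g hg, hN1 h hh,
        mul_comm (N p.2), mul_inv_cancel]
  have hran : Nat.card N.range = Nat.card {v : V // φ g v = v ∧ φ h v = v} := by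
    refine Nat.card_congr (Equiv.subtypeEquivRight fun v => ⟨?_, ?_⟩)
    · rintro ⟨w, rfl⟩
      exact ⟨hN2 g hg w, hN2 h hh w⟩
    · rintro ⟨h1, h2⟩
      have hall : ∀ t ∈ T0, φ t v = v := by
        intro t ht
        induction ht using closure_induction with
        | mem x hx => rcases hx with rfl | rfl <;> assumption
        | one => simp
        | mul x y _ _ hx hy => rw [map_mul, MulAut.mul_apply, hy, hx]
        | inv x _ hx =>
          conv_lhs => rw [← hx]
          simp
      refine ⟨v ^ m, ?_⟩
      rw [map_pow, hN, Finset.prod_congr rfl fun (t : T0) _ => hall t t.2, Finset.prod_const,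
        Finset.card_univ, ← Nat.card_eq_fintype_card, hm]
  have hk : Nat.card {p : V × V // p.1 * φ g p.2 = p.2 * φ h p.1} = Nat.card f.ker :=
    Nat.card_congr (Equiv.subtypeEquivRight fun p => by
      rw [MonoidHom.mem_ker, hf, mul_inv_eq_one])
  have e1 := card_mul_index N.ker
  rw [index_ker, hran, hker] at e1
  have e2 := card_mul_index f.ker
  rw [index_ker, Nat.card_prod] at e2
  rw [hk]
  refine Nat.eq_of_mul_eq_mul_right (Nat.card_pos (α := f.range)) ?_
  rw [e2, mul_assoc, mul_comm (Nat.card {v : V // _}), e1]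

end CfsgH4.KG
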