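import Cfsg.Agent.H4.Ch1
import Cfsg.Agent.H4.Cy1

/-! Knörr's abelian vector criterion: a quadratic form bound. -/

set_option autoImplicit false

open Cfsg CfsgH3 CfsgH1 Function Subgroup
open scoped ComplexConjugate

namespace CfsgH4.KG

theorem card_pairs {I B : Type*} [Fintype I] [DecidableEq B] (f : I → B) (h : ∃ i j, f i ≠ f j) :
    2 * ((Fintype.card I : ℝ) - 1) ≤ ∑ i, ∑ j, if f i = f j then (0 : ℝ) else 1 := by
  classical
  obtain ⟨i0, j0, h0⟩ := h
  set a := (Finset.univ.filter fun i => f i = f i0).card with ha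
  set b := (Finset.univ.filter fun i => ¬ f i = f i0).card with hb
  have hab : a + b = Fintype.card I := Finset.card_filter_add_card_filter_not _
  have ha1 : 1 ≤ a := Finset.card_pos.2 ⟨i0, by simp⟩
  have hb1 : 1 ≤ b := Finset.card_pos.2 ⟨j0, by simpa using h0.symm⟩
  have key : ∀ i j, ((if f i = f i0 then (1 : ℝ) else 0) * (if ¬ f j = f i0 then 1 else 0) +
      (if ¬ f i = f i0 then (1 : ℝ) else 0) * (if f j = f i0 then 1 else 0)) ≤
      if f i = f j then (0 : ℝ) else 1 := by
    intro i j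
    by_cases h1 : f i = f i0 <;> by_cases h2 : f j = f i0 <;> by_cases h3 : f i = f j <;>
      simp_all
  refine le_trans ?_ (Finset.sum_le_sum fun i _ => Finset.sum_le_sum fun j _ => key i j)
  simp only [Finset.sum_add_distrib, ← Finset.mul_sum, ← Finset.sum_mul, Finset.sum_boole]
  rw [← ha, ← hb, ← hab]
  have ha1' : (1 : ℝ) ≤ a := by exact_mod_cast ha1
  have hb1' : (1 : ℝ) ≤ b := by exact_mod_cast hb1
  push_cast
  nlinarith [mul_nonneg (sub_nonneg.2 ha1') (sub_nonneg.2 hb1')]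

theorem sum_norm_sub {I : Type*} [Fintype I] (z : I → ℂ) :
    ∑ i, ∑ j, ‖z i - z j‖ ^ 2 = 2 * (Fintype.card I * ∑ i, ‖z i‖ ^ 2 - ‖∑ i, z i‖ ^ 2) := by
  apply Complex.ofReal_injective
  push_cast
  simp only [← Complex.mul_conj', map_sub, map_sum, sub_mul, mul_sub, Finset.sum_sub_distrib,
    Finset.sum_const, Finset.card_univ, nsmul_eq_mul, ← Finset.mul_sum, ← Finset.sum_mul]
  ring

theorem pair_bound {I H : Type*} [Fintype I] [Fintype H] (w : H → ℝ) (f : I → H → ℂ) (m : ℝ)
    (hw : ∀ h, 0 ≤ w h) (hm0 : 0 ≤ m)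
    (hm : ∀ i j, f i ≠ f j → m ≤ ∑ h, w h * ‖f i h - f j h‖ ^ 2)
    (hne : ∑ h, w h * (Fintype.card I * ∑ i, ‖f i h‖ ^ 2 - ‖∑ i, f i h‖ ^ 2) ≠ 0) :
    (Fintype.card I - 1) * m ≤
      ∑ h, w h * (Fintype.card I * ∑ i, ‖f i h‖ ^ 2 - ‖∑ i, f i h‖ ^ 2) := by
  classical
  have e : 2 * ∑ h, w h * (Fintype.card I * ∑ i, ‖f i h‖ ^ 2 - ‖∑ i, f i h‖ ^ 2) =
      ∑ i, ∑ j, ∑ h, w h * ‖f i h - f j h‖ ^ 2 := by
    rw [Finset.mul_sum, Finset.sum_congr rfl fun h _ => by
      rw [mul_left_comm, ← sum_norm_sub fun i => f i h]]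
    simp only [Finset.mul_sum]
    rw [Finset.sum_comm]
    exact Finset.sum_congr rfl fun i _ => Finset.sum_comm
  have hne' : ∃ i j, f i ≠ f j := by
    by_contra hc
    push Not at hc
    apply hne
    have : ∑ i, ∑ j, ∑ h, w h * ‖f i h - f j h‖ ^ 2 = 0 :=
      Finset.sum_eq_zero fun i _ => Finset.sum_eq_zero fun j _ => by simp [hc i j]
    linarith
  have h1 := mul_le_mul_of_nonneg_right (card_pairs f hne') hm0
  have h2 : (∑ i, ∑ j, if f i = f j then (0 : ℝ) else 1) * m ≤
      ∑ i, ∑ j, ∑ h, w h * ‖f i h - f j h‖ ^ 2 := by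
    simp only [Finset.sum_mul]
    refine Finset.sum_le_sum fun i _ => Finset.sum_le_sum fun j _ => ?_
    split_ifs with h
    · rw [zero_mul]
      exact Finset.sum_nonneg fun x _ => mul_nonneg (hw x) (sq_nonneg _)
    · rw [one_mul]; exact hm i j h
  linarith

variable {A : Type*} [Group A] [Fintype A]

/-- The weighted norm bound. -/
def Good (δ : A → ℝ) (K : Subgroup A) : Prop :=
  ∀ θ : A → ℂ, IsGeneralizedCharacter A θ → (∀ k ∈ K, ∀ a, θ (k * a) = θ a) → θ ≠ 0 →
    (Nat.card A : ℝ) ^ 2 ≤ Nat.card K * ∑ a, δ a * ‖θ a‖ ^ 2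

theorem isGen_avg (N : Subgroup A) [N.Normal] [Fintype N] {θ : A → ℂ}
    (h : IsGeneralizedCharacter A θ) : IsGeneralizedCharacter A (avg N θ) := by
  obtain ⟨a, b, ha, hb, rfl⟩ := h
  refine ⟨_, _, isCharacter_avg (N := N) ha, isCharacter_avg (N := N) hb, ?_⟩
  ext x
  simp [avg, Finset.sum_sub_distrib, mul_sub]

open Classical in
theorem step (hc : ∀ a b : A, a * b = b * a) (K1 K' : Subgroup A) (δ : A → ℝ) (hδ : ∀ a, 0 ≤ δ a)
    (hδK : ∀ k ∈ K', ∀ a, δ (k * a) = δ a) (hg : Good δ K') (t : ℕ) {θ : A → ℂ}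
    (hθ : IsGeneralizedCharacter A θ) (hK : ∀ k ∈ K1 ⊓ K', ∀ a, θ (k * a) = θ a)
    (hne : ∑ a, δ a * ((K1.index + t - if a ∈ K1 then (K1.index : ℝ) else 0) * ‖θ a‖ ^ 2) ≠ 0) :
    (K1.index + t - 1 : ℝ) * (Nat.card A : ℝ) ^ 2 ≤ K1.index * Nat.card ↥(K1 ⊓ K') *
      ∑ a, δ a * ((K1.index + t - if a ∈ K1 then (K1.index : ℝ) else 0) * ‖θ a‖ ^ 2) := by
  have hn : ∀ K : Subgroup A, K.Normal := fun K => ⟨fun n hn g => by rwa [hc g, mul_inv_cancel_right]⟩
  have := hn K1
  have := hn K'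
  have : Fintype K' := Fintype.ofFinite _
  have hcQ : ∀ a b : A ⧸ K1, a * b = b * a := fun a b => by
    induction a using QuotientGroup.induction_on
    induction b using QuotientGroup.induction_on
    rw [← QuotientGroup.mk_mul, hc, QuotientGroup.mk_mul]
  set e := K1.index with he
  set c : ℝ := (Nat.card K' : ℝ) with hcc
  set d : ℝ := (Nat.card ↥(K1 ⊓ K') : ℝ) with hd
  have hc0 : 0 < c := by rw [hcc]; exact_mod_cast Nat.card_pos
  have he0 : (0 : ℝ) < e := by exact_mod_cast Nat.pos_of_ne_zero K1.index_ne_zero_of_finite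
  have hd0 : 0 < d := by rw [hd]; exact_mod_cast Nat.card_pos
  let g : (A ⧸ K1 →* ℂˣ) → A → ℂ := fun l => avg K' fun a => (l a : ℂ) * θ a
  let f : (A ⧸ K1 →* ℂˣ) ⊕ Fin t → A → ℂ := Sum.elim g fun _ => 0
  have hcI : (Fintype.card ((A ⧸ K1 →* ℂˣ) ⊕ Fin t) : ℝ) = e + t := by
    rw [Fintype.card_sum, Fintype.card_fin, ← Nat.card_eq_fintype_card, card_unitsHom_of_comm hcQ]
    push_cast; rfl
  have hfg : ∀ i, IsGeneralizedCharacter A (f i) := by
    rintro (l | j)
    · exact isGen_avg K' (((isIrr_of_unitsHom (l.comp (QuotientGroup.mk' K1))).isCharacter.isGen).mul hθ)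
    · simpa [f] using hθ.sub hθ
  have hfi : ∀ i, ∀ k ∈ K', ∀ a, f i (k * a) = f i a := by
    rintro (l | j) k hk a
    · simp only [f, g, Sum.elim_inl]
      exact avg_mul hk a
    · rfl
  have cnt : ∀ (h : A) (k : K'), ∑ k' : K', (if ((k * h : A) : A ⧸ K1) = ((k' * h : A) : A ⧸ K1)
      then θ (k * h) * conj (θ (k' * h)) else 0) = d * (θ (k * h) * conj (θ (k * h))) := by
    intro h k
    have e1 : ∀ k' : K', ((k * h : A) : A ⧸ K1) = ((k' * h : A) : A ⧸ K1) ↔
        (k' : A) * (k : A)⁻¹ ∈ K1 := fun k' => by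
      rw [QuotientGroup.eq, hc _ ((k' : A) * h)]
      simp [mul_assoc]
    rw [← Finset.sum_filter, Finset.sum_congr rfl (g := fun _ => θ (k * h) * conj (θ (k * h)))]
    · rw [Finset.sum_const, nsmul_eq_mul, hd]
      congr 1
      rw [← Fintype.card_subtype, ← Nat.card_eq_fintype_card]
      push_cast
      congr 1
      exact Nat.card_congr
        { toFun := fun x => ⟨x.1 * (k : A)⁻¹, mem_inf.2 ⟨(e1 _).1 x.2, mul_mem x.1.2 (inv_mem k.2)⟩⟩
          invFun := fun m => ⟨⟨m.1 * k, mul_mem m.2.2 k.2⟩, (e1 _).2 (by simpa using m.2.1)⟩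
          left_inv := fun x => Subtype.ext (Subtype.ext (by simp))
          right_inv := fun x => by simp }
    · intro k' hk'
      have h1 := (e1 k').1 (Finset.mem_filter.1 hk').2
      rw [← hK _ (mem_inf.2 ⟨h1, mul_mem k'.2 (inv_mem k.2)⟩) (k * h)]
      simp [mul_assoc]
  have S1 : ∀ h, ∑ l, ‖g l h‖ ^ 2 = e * d / c ^ 2 * ∑ k : K', ‖θ (k * h)‖ ^ 2 := by
    intro h
    apply Complex.ofReal_injective
    push_cast
    simp only [← Complex.mul_conj']
    have : ∀ l, g l h * conj (g l h) = ((c : ℂ) ^ 2)⁻¹ * ∑ k : K', ∑ k' : K',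
        (l (((k * h : A) : A ⧸ K1) * ((k' * h : A) : A ⧸ K1)⁻¹) : ℂ) *
          (θ (k * h) * conj (θ (k' * h))) := by
      intro l
      simp only [g, avg, map_mul, map_sum, map_inv, map_inv₀, map_natCast, hcc,
        Complex.ofReal_natCast, Units.val_mul, Units.val_inv_eq_inv_val]
      rw [mul_mul_mul_comm, Finset.sum_mul_sum, ← mul_inv, ← sq]
      congr 1
      refine Finset.sum_congr rfl fun k _ => Finset.sum_congr rfl fun k' _ => ?_
      rw [← Complex.inv_eq_conj (norm_eq_one_of_lin (isIrr_of_unitsHom l).isCharacter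
        (by simp) _)]
      ring
    simp only [this, ← Finset.mul_sum]
    rw [Finset.sum_comm]
    have : ∀ k : K', ∑ l : A ⧸ K1 →* ℂˣ, ∑ k' : K',
        (l (((k * h : A) : A ⧸ K1) * ((k' * h : A) : A ⧸ K1)⁻¹) : ℂ) *
          (θ (k * h) * conj (θ (k' * h))) = e * (d * (θ (k * h) * conj (θ (k * h)))) := by
      intro k
      rw [Finset.sum_comm, ← cnt h k, Finset.mul_sum]
      refine Finset.sum_congr rfl fun k' _ => ?_
      rw [← Finset.sum_mul, sum_lin hcQ]
      simp only [mul_inv_eq_one]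
      split_ifs
      · rfl
      · simp
    simp only [this, ← Finset.mul_sum]
    ring
  have S2 : ∀ h, ‖∑ l, g l h‖ ^ 2 =
      e * d / c ^ 2 * ∑ k : K', (if (k * h : A) ∈ K1 then (e : ℝ) else 0) * ‖θ (k * h)‖ ^ 2 := by
    intro h
    apply Complex.ofReal_injective
    push_cast
    simp only [← Complex.mul_conj']
    have : ∑ l, g l h = (c : ℂ)⁻¹ * e *
        ∑ k : K', if ((k * h : A) : A ⧸ K1) = 1 then θ (k * h) else 0 := by
      simp only [g, avg, ← Finset.mul_sum, hcc, Complex.ofReal_natCast]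
      rw [Finset.sum_comm, mul_assoc]
      congr 1
      rw [Finset.mul_sum]
      refine Finset.sum_congr rfl fun k _ => ?_
      rw [← Finset.sum_mul, sum_lin hcQ]
      split_ifs
      · rfl
      · simp
    rw [this]
    simp only [map_mul, map_sum, map_inv₀, map_natCast, Complex.conj_ofReal]
    rw [mul_mul_mul_comm, Finset.sum_mul_sum]
    have : ∀ k : K', ∑ k' : K', (if ((k * h : A) : A ⧸ K1) = 1 then θ (k * h) else 0) *
        conj (if ((k' * h : A) : A ⧸ K1) = 1 then θ (k' * h) else 0) =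
        (if (k * h : A) ∈ K1 then 1 else 0) * (d * (θ (k * h) * conj (θ (k * h)))) := by
      intro k
      rw [← cnt h k, Finset.mul_sum]
      refine Finset.sum_congr rfl fun k' _ => ?_
      rw [← QuotientGroup.eq_one_iff]
      by_cases h1 : ((k * h : A) : A ⧸ K1) = 1
      · rw [h1]
        by_cases h2 : ((k' * h : A) : A ⧸ K1) = 1
        · simp only [h2, if_true, one_mul]
        · simp only [h2, Ne.symm h2, if_true, if_false, map_zero, mul_zero]
      · simp only [h1, if_false, zero_mul]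
    simp only [this, Finset.mul_sum]
    refine Finset.sum_congr rfl fun k _ => ?_
    split_ifs
    · push_cast; field_simp
    · simp
  have tot : ∑ h, δ h * (Fintype.card ((A ⧸ K1 →* ℂˣ) ⊕ Fin t) * ∑ i, ‖f i h‖ ^ 2 -
      ‖∑ i, f i h‖ ^ 2) = e * d / c *
      ∑ a, δ a * ((e + t - if a ∈ K1 then (e : ℝ) else 0) * ‖θ a‖ ^ 2) := by
    have e1 : ∀ h, δ h * (Fintype.card ((A ⧸ K1 →* ℂˣ) ⊕ Fin t) * ∑ i, ‖f i h‖ ^ 2 -
        ‖∑ i, f i h‖ ^ 2) = e * d / c ^ 2 * ∑ k : K', δ (k * h) *
          ((e + t - if (k * h : A) ∈ K1 then (e : ℝ) else 0) * ‖θ (k * h)‖ ^ 2) := by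
      intro h
      rw [hcI]
      simp only [f, Fintype.sum_sum_type, Sum.elim_inl, Sum.elim_inr, Pi.zero_apply, norm_zero,
        Finset.sum_const_zero, add_zero, ne_eq, OfNat.ofNat_ne_zero, not_false_eq_true, zero_pow]
      rw [S1, S2]
      simp only [fun k : K' => hδK k k.2 h]
      simp only [sub_mul, Finset.sum_sub_distrib, ← Finset.mul_sum, mul_sub]
      ring
    simp only [e1, ← Finset.mul_sum]
    have e2 : ∀ k : K', ∑ h, δ (k * h) *
        ((e + t - if (k * h : A) ∈ K1 then (e : ℝ) else 0) * ‖θ (k * h)‖ ^ 2) =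
        ∑ a, δ a * ((e + t - if a ∈ K1 then (e : ℝ) else 0) * ‖θ a‖ ^ 2) := fun k =>
      Fintype.sum_equiv (Equiv.mulLeft (k : A)) _ _ fun _ => rfl
    rw [Finset.sum_comm, Finset.sum_congr rfl fun k _ => e2 k,
      Finset.sum_const, Finset.card_univ, ← Nat.card_eq_fintype_card, nsmul_eq_mul, ← hcc]
    field_simp
  have main := pair_bound δ f ((Nat.card A : ℝ) ^ 2 / c) hδ (by positivity) (fun i j hij => by
    rw [div_le_iff₀' hc0]
    exact hg (f i - f j) ((hfg i).sub (hfg j)) (fun k hk a => by simp [hfi _ k hk])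
      (sub_ne_zero.2 hij)) (by rw [tot]; positivity)
  rw [tot, hcI, ← mul_div_assoc, div_mul_eq_mul_div, div_le_div_iff_of_pos_right hc0] at main
  exact main

theorem card_le_mul {X : Type*} [Group X] [Finite X] {C U W : Subgroup X}
    (h : ∀ c ∈ C, ∃ a ∈ U, ∃ b ∈ W, c = a * b) : Nat.card C ≤ Nat.card U * Nat.card W := by
  choose a ha b hb hab using h
  rw [← Nat.card_prod]
  refine Nat.card_le_card_of_injective
    (fun c : C => ((⟨a c c.2, ha c c.2⟩ : U), (⟨b c c.2, hb c c.2⟩ : W))) fun c c' hcc => ?_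
  simp only [Prod.mk.injEq, Subtype.mk.injEq] at hcc
  apply Subtype.ext
  rw [hab c c.2, hab c' c'.2, hcc.1, hcc.2]

/-- The weight `|W : C_W(x)|`. -/
noncomputable def dl {X : Type*} [Group X] (W : Subgroup X) (x : X) : ℝ :=
  (Nat.card W : ℝ) / Nat.card ↥(W ⊓ centralizer {x})

theorem dl_pos {X : Type*} [Group X] [Finite X] (W : Subgroup X) (x : X) : 0 < dl W x :=
  div_pos (by exact_mod_cast Nat.card_pos) (by exact_mod_cast Nat.card_pos)

theorem dl_mul {X : Type*} [Group X] (W : Subgroup X) {k : X} (hk : k ∈ centralizer (W : Set X))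
    (x : X) : dl W (k * x) = dl W x := by
  have : W ⊓ centralizer {k * x} = W ⊓ centralizer {x} := by
    ext w
    simp only [mem_inf, mem_centralizer_singleton_iff, and_congr_right_iff]
    intro hw
    rw [← mul_assoc, hk w hw, mul_assoc, mul_assoc, mul_right_inj]
  rw [dl, this, dl]

theorem good_dl (hc : ∀ a b : A, a * b = b * a) {X : Type*} [Group X] [Finite X] (V : Subgroup X)
    (hab : ∀ a ∈ V, ∀ b ∈ V, a * b = b * a) (φ : A →* X)
    (hcop : ∀ a, ∃ n : ℕ, n.Coprime (Nat.card V) ∧ φ a ^ n ∈ centralizer (V : Set X))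
    (W : Subgroup X) (hW : W ≤ V) (hi : ∀ a, ∀ w ∈ W, φ a * w * (φ a)⁻¹ ∈ W) :
    Good (fun a => dl W (φ a)) ((centralizer (W : Set X)).comap φ) := by
  classical
  have : Finite (Subgroup X) := Finite.of_injective (fun H : Subgroup X => (H : Set X))
    SetLike.coe_injective
  induction W using WellFoundedLT.induction with
  | ind W ih =>
  intro θ hθ hK h0
  by_cases hb : W = ⊥
  · subst hb
    have e1 : (centralizer ((⊥ : Subgroup X) : Set X)).comap φ = ⊤ := by
      rw [eq_top_iff]; intro a _ x hx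
      rw [SetLike.mem_coe, mem_bot] at hx
      simp [hx]
    have e2 : ∀ a, dl (⊥ : Subgroup X) (φ a) = 1 := fun a => by simp [dl]
    simp only [e1, e2, one_mul, card_top]
    obtain ⟨n, hn⟩ := hθ.exists_int_classInner hθ
    have e3 : ∑ a, ‖θ a‖ ^ 2 = n * Nat.card A := by
      apply Complex.ofReal_injective
      push_cast
      simp only [← Complex.mul_conj', ← hn, classInner]
      have := natCard_ne_zero A
      field_simp
    have e4 : 0 < ∑ a, ‖θ a‖ ^ 2 := by
      obtain ⟨a, ha⟩ := Function.ne_iff.1 h0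
      exact Finset.sum_pos' (fun _ _ => sq_nonneg _) ⟨a, Finset.mem_univ _, by
        have : θ a ≠ 0 := ha
        positivity⟩
    have hA : (0 : ℝ) < Nat.card A := by exact_mod_cast Nat.card_pos
    rw [e3] at e4 ⊢
    have e5 : (1 : ℝ) ≤ n := by
      have : (0 : ℝ) < n := pos_of_mul_pos_left e4 hA.le
      exact_mod_cast (show (1 : ℤ) ≤ n by exact_mod_cast this)
    nlinarith
  obtain ⟨W', ⟨hlt, hi'⟩, hmax⟩ := (wellFounded_gt (α := Subgroup X)).has_min
    {U | U < W ∧ ∀ a, ∀ w ∈ U, φ a * w * (φ a)⁻¹ ∈ U} ⟨⊥, bot_lt_iff_ne_bot.2 hb, by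
      intro a w hw; rw [mem_bot] at hw; simp [hw]⟩
  have hφc : ∀ a b, φ a * φ b = φ b * φ a := fun a b => by rw [← map_mul, hc, map_mul]
  let K1 : Subgroup A :=
    { carrier := {a | ∀ w ∈ W, φ a * w * (φ a)⁻¹ * w⁻¹ ∈ W'}
      one_mem' := by intro w _; simp
      mul_mem' := by
        intro a b ha hb w hw
        have := mul_mem (ha _ (hi b w hw)) (hb w hw)
        convert this using 1
        simp only [map_mul]; group
      inv_mem' := by
        intro a ha w hw
        have := inv_mem (ha _ (hi a⁻¹ w hw))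
        convert this using 1
        simp only [map_inv]; group }
  have free : ∀ a ∉ K1, ∀ w ∈ W, φ a * w * (φ a)⁻¹ * w⁻¹ ∈ W' → w ∈ W' := by
    intro a ha
    let U : Subgroup X :=
      { carrier := {w | w ∈ W ∧ φ a * w * (φ a)⁻¹ * w⁻¹ ∈ W'}
        one_mem' := by simp
        mul_mem' := by
          rintro x y ⟨hx, hx'⟩ ⟨hy, hy'⟩
          refine ⟨mul_mem hx hy, ?_⟩
          have := mul_mem hx' hy'
          have h1 := hab _ (hW (inv_mem hx)) _ (hW (hlt.le hy'))
          convert this using 1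
          rw [mul_assoc _ x⁻¹, h1]; group
        inv_mem' := by
          rintro x ⟨hx, hx'⟩
          refine ⟨inv_mem hx, ?_⟩
          have h1 := hab _ (hW hx) _ (hW (inv_mem (hi a x hx)))
          convert inv_mem hx' using 1
          rw [mul_inv_rev, inv_inv, h1]; group }
    have hle : W' ≤ U := fun w hw => ⟨hlt.le hw, mul_mem (hi' a w hw) (inv_mem hw)⟩
    have hU : ¬ W' < U := hmax U ⟨lt_of_le_of_ne (fun w hw => hw.1) fun h => ha fun w hw =>
      (show w ∈ U from h ▸ hw).2, fun b w hw => ⟨hi b w hw.1, by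
        have := hi' b _ hw.2
        convert this using 1
        calc _ = (φ a * φ b) * w * (φ a * φ b)⁻¹ * (φ b * w * (φ b)⁻¹)⁻¹ := by group
          _ = _ := by rw [hφc a b]; group⟩⟩
    have : W' = U := (hle.eq_or_lt).resolve_right hU
    intro w hw h
    rw [this]; exact ⟨hw, h⟩
  have hKK : K1 ⊓ (centralizer (W' : Set X)).comap φ = (centralizer (W : Set X)).comap φ := by
    apply le_antisymm
    · rintro a ⟨h1, h2⟩ w hw
      have h2' : φ a ∈ centralizer (W' : Set X) := h2
      obtain ⟨n, hn, hn'⟩ := hcop a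
      set u := φ a * w * (φ a)⁻¹ * w⁻¹ with hu
      have huW : u ∈ W' := h1 w hw
      have hp : ∀ m : ℕ, φ a ^ m * w * (φ a ^ m)⁻¹ = u ^ m * w := by
        intro m
        induction m with
        | zero => simp
        | succ m ih =>
          calc _ = φ a * (φ a ^ m * w * (φ a ^ m)⁻¹) * (φ a)⁻¹ := by group
            _ = (φ a * u ^ m) * w * (φ a)⁻¹ := by rw [ih]; group
            _ = (u ^ m * φ a) * w * (φ a)⁻¹ := by rw [h2' _ (pow_mem huW m)]
            _ = _ := by rw [pow_succ, hu]; group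
      have h3 := hp n
      rw [← hn' w (hW hw), mul_inv_cancel_right, eq_comm, mul_eq_right] at h3
      have h4 : orderOf u ∣ Nat.card V := orderOf_dvd_natCard V (hW (hlt.le huW))
      have h5 : u = 1 := orderOf_eq_one_iff.1
        (Nat.eq_one_of_dvd_coprimes hn (orderOf_dvd_of_pow_eq_one h3) h4)
      rw [hu, mul_inv_eq_one, mul_inv_eq_iff_eq_mul] at h5
      exact h5.symm
    · intro a ha
      have ha' : φ a ∈ centralizer (W : Set X) := ha
      refine ⟨fun w hw => ?_, fun w hw => ha' w (hlt.le hw)⟩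
      rw [← ha' w hw]; simp
  have hr : W'.relIndex W * Nat.card W' = Nat.card W := by
    rw [mul_comm, relIndex, ← card_mul_index (W'.subgroupOf W),
      Nat.card_congr (subgroupOfEquivOfLe hlt.le).toEquiv]
  have hidx : K1.index + 1 ≤ W'.relIndex W := by
    obtain ⟨w, hw, hw'⟩ := SetLike.exists_of_lt hlt
    let F : Option (A ⧸ K1) → W ⧸ W'.subgroupOf W := fun o =>
      o.elim (QuotientGroup.mk 1) fun q => QuotientGroup.mk ⟨_, hi q.out w hw⟩
    have hF0 : ∀ q : A ⧸ K1, F none ≠ F (some q) := by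
      intro q h
      have h1 := QuotientGroup.eq.1 h
      rw [mem_subgroupOf] at h1
      apply hw'
      simpa [mul_assoc] using hi' q.out⁻¹ _ h1
    have hF : Injective F := by
      rintro (_ | q) (_ | r) h
      · rfl
      · exact absurd h (hF0 r)
      · exact absurd h.symm (hF0 q)
      · have h1 := QuotientGroup.eq.1 h
        rw [mem_subgroupOf] at h1
        congr 1
        rw [← q.out_eq', ← r.out_eq', QuotientGroup.eq]
        by_contra hn
        refine hw' (free _ hn w hw ?_)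
        have h2 := hi' q.out⁻¹ _ h1
        have h3 := hab _ (hW (inv_mem hw)) _ (hW (hi (q.out⁻¹ * r.out) w hw))
        rw [← h3]
        convert h2 using 1
        simp only [map_mul, map_inv, coe_mul, coe_inv]; group
    have := Nat.card_le_card_of_injective F hF
    rwa [Finite.card_option] at this
  have he : (0 : ℝ) < K1.index := by
    exact_mod_cast Nat.pos_of_ne_zero K1.index_ne_zero_of_finite
  have hcmp : ∀ a, dl W' (φ a) * (K1.index + (1 : ℕ) - if a ∈ K1 then (K1.index : ℝ) else 0) ≤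
      dl W (φ a) := by
    intro a
    have p1 : (0 : ℝ) < Nat.card ↥(W ⊓ centralizer {φ a}) := by exact_mod_cast Nat.card_pos
    have p2 : (0 : ℝ) < Nat.card ↥(W' ⊓ centralizer {φ a}) := by exact_mod_cast Nat.card_pos
    have p3 : (0 : ℝ) < Nat.card W' := by exact_mod_cast Nat.card_pos
    split_ifs with ha
    · simp only [Nat.cast_one, add_sub_cancel_left, mul_one, dl]
      rw [div_le_div_iff₀ p2 p1, ← hr]
      have h1 : W'.relIndex (W ⊓ centralizer {φ a}) ≤ W'.relIndex W :=
        relIndex_le_of_le_right inf_le_left (W'.subgroupOf W).index_ne_zero_of_finite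
      have h2 : W'.relIndex (W ⊓ centralizer {φ a}) * Nat.card ↥(W' ⊓ centralizer {φ a}) =
          Nat.card ↥(W ⊓ centralizer {φ a}) := by
        have : W' ⊓ (W ⊓ centralizer {φ a}) = W' ⊓ centralizer {φ a} := by
          rw [← inf_assoc, inf_eq_left.2 hlt.le]
        rw [← inf_relIndex_right, this, mul_comm, relIndex,
          ← card_mul_index ((W' ⊓ centralizer {φ a}).subgroupOf (W ⊓ centralizer {φ a})),
          Nat.card_congr (subgroupOfEquivOfLe (inf_le_inf_right _ hlt.le)).toEquiv]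
      rw [← h2]
      have h1' : (W'.relIndex (W ⊓ centralizer {φ a}) : ℝ) ≤ W'.relIndex W := by exact_mod_cast h1
      push_cast
      nlinarith [mul_le_mul_of_nonneg_right h1' (mul_pos p2 p3).le]
    · have : W ⊓ centralizer {φ a} = W' ⊓ centralizer {φ a} := by
        refine le_antisymm ?_ (inf_le_inf_right _ hlt.le)
        rintro w ⟨hw, hw'⟩
        refine ⟨free a ha w hw ?_, hw'⟩
        rw [← mem_centralizer_singleton_iff.1 hw']; simp
      simp only [dl, this, sub_zero, ← hr]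
      rw [div_mul_eq_mul_div, div_le_div_iff_of_pos_right p2]
      have h1' : (K1.index + 1 : ℝ) ≤ W'.relIndex W := by exact_mod_cast hidx
      push_cast
      nlinarith [mul_le_mul_of_nonneg_right h1' p3.le]
  have hpos : ∀ a, (0 : ℝ) < K1.index + (1 : ℕ) - if a ∈ K1 then (K1.index : ℝ) else 0 := by
    intro a; split_ifs <;> push_cast <;> linarith
  have := step hc K1 ((centralizer (W' : Set X)).comap φ) (fun a => dl W' (φ a))
    (fun a => (dl_pos _ _).le) (fun k hk a => by rw [map_mul]; exact dl_mul _ hk _)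
    (ih W' hlt (hlt.le.trans hW) hi') 1 hθ (by rwa [hKK]) (by
      obtain ⟨a, ha⟩ := Function.ne_iff.1 h0
      refine (Finset.sum_pos' (fun a _ => ?_) ⟨a, Finset.mem_univ _, ?_⟩).ne'
      · have := dl_pos W' (φ a); have := hpos a; positivity
      · have := dl_pos W' (φ a); have := hpos a
        have : θ a ≠ 0 := ha
        positivity)
  rw [hKK, Nat.cast_one, add_sub_cancel_right, mul_assoc] at this
  refine (le_of_mul_le_mul_left this he).trans (mul_le_mul_of_nonneg_left
    (Finset.sum_le_sum fun a _ => ?_) (Nat.cast_nonneg _))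
  rw [← mul_assoc]
  exact mul_le_mul_of_nonneg_right (by simpa using hcmp a) (sq_nonneg _)

end CfsgH4.KG
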