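import Cfsg.Agent.H4.Sub
import Cfsg.Agent.H4.BF
import Cfsg.Agent.H4.PairD
import Cfsg.Agent.H3.More
import Cfsg.Agent.H2.Base
import Cfsg.Agent.H2.Syl

/-! The Knörr-Robinson alternating sum for `k(B) - l(B)`. -/

set_option autoImplicit false
open Cfsg MonoidAlgebra CfsgL0 CfsgH1 CfsgH4
open CfsgH3 hiding cj cj_cj
open scoped ComplexConjugate

namespace CfsgH4

local notation "C1[" x "]" => Subgroup.centralizer (singleton x : Set _)
local notation "N[" Q "]" => Subgroup.normalizer (SetLike.coe (Q : Subgroup _))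
local notation "C[" Q "]" => Subgroup.centralizer (SetLike.coe (Q : Subgroup _))
local notation "Z[" u "]" => Subgroup.zpowers u

variable {G : Type*} [Group G] {M : Ideal AlgInt} {p : ℕ}

theorem colB_self_eq [Fintype G] (β : Set (IrrCharacter G)) (t : G) :
    colB β t t = ∑ x, (fB β).coeff (x * t * x⁻¹ * t⁻¹) := by
  classical
  simp only [coeff_fB, blockCoeff_eq, ← Finset.mul_sum]
  rw [Finset.sum_comm, colB_apply, Finset.mul_sum]
  refine Finset.sum_congr rfl fun χ _ => ?_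
  split_ifs
  · have h1 : (Nat.card G : ℂ) ≠ 0 := by exact_mod_cast Nat.card_pos.ne'
    have h2 := χ.2.apply_one_ne_zero
    have h3 : conj (χ.1 1) = χ.1 1 := by rw [← χ.2.isCharacter.apply_inv, inv_one]
    rw [← Finset.mul_sum, ← map_sum, χ.2.sum_conj_mul, χ.2.isCharacter.apply_inv]
    simp only [map_div₀, map_mul, map_natCast, h3, Complex.conj_conj]
    field_simp
  · simp

variable [hM : PMod p M] [Fact p.Prime] {H H' : Type*} [Group H] [Group H'] [Finite H] [Finite H']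
include hM

open Classical in
theorem card_mul_sub_rank [Fintype G] {β : Set (IrrCharacter G)} (hβ : fB β ∈ LG G M) :
    (Nat.card G : ℂ) * (Nat.card β - blockRank p β) =
      ∑ g, if p ∣ orderOf g then colB β g g else 0 := by
  have h1 : (Nat.card β : ℂ) = ∑ χ : IrrCharacter G, if χ ∈ β then classInner χ.1 χ.1 else 0 := by
    rw [Finset.sum_congr rfl fun χ _ => by rw [χ.2.classInner_self], Finset.sum_boole,
      ← Fintype.card_subtype, Nat.card_eq_fintype_card]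
  have h2 : (Nat.card G : ℂ) ≠ 0 := by exact_mod_cast Nat.card_pos.ne'
  rw [blockRank_eq_sum_mm hβ, h1, ← Finset.sum_sub_distrib, Finset.mul_sum]
  simp only [colB_apply, Finset.ite_sum_zero]
  rw [Finset.sum_comm]
  refine Finset.sum_congr rfl fun χ _ => ?_
  split_ifs
  · rw [mm, classInner, classInner, ← mul_sub, mul_inv_cancel_left₀ h2, ← Finset.sum_sub_distrib]
    refine Finset.sum_congr rfl fun g _ => ?_
    split_ifs with h
    · rw [rg_of_sing _ h, zero_mul, sub_zero]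
    · rw [rg_of_reg _ h, sub_self]
  · simp

open Classical in
theorem exists_colB_eq [Fintype G] {φ : H →* G} (hφ : Function.Injective φ)
    {β : Set (IrrCharacter H)} (hβ : fB β ∈ LG H M) (h : H) :
    ∃ f ∈ LG G M, f * f = f ∧ f ∈ ZA ℂ (φ.range ⊓ C1[ppart p (φ h)]) (φ.range ⊓ C1[ppart p (φ h)]) ∧
      redG M f = br Z[ppart p (φ h)] (inc φ (eB M β)) ∧
      colB β h h = ∑ x with x ∈ φ.range ⊓ C1[ppart p (φ h)],
        f.coeff (x * rpart p (φ h) * x⁻¹ * (rpart p (φ h))⁻¹) := by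
  have := Fintype.ofFinite H
  set C := C1[ppart p h]
  let ψ := φ.comp C.subtype
  have hψ : Function.Injective ψ := hφ.comp C.subtype_injective
  have hr : (⊤ : Subgroup C).map ψ = φ.range ⊓ C1[ppart p (φ h)] := by
    ext x
    simp only [Subgroup.mem_map, Subgroup.mem_top, true_and, Subgroup.mem_inf, ppart_map,
      Subgroup.mem_centralizer_singleton_iff]
    refine ⟨?_, ?_⟩
    · rintro ⟨c, rfl⟩
      exact ⟨⟨c, rfl⟩, by
        simpa [ψ] using congrArg φ (Subgroup.mem_centralizer_singleton_iff.1 c.2)⟩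
    · rintro ⟨⟨c, rfl⟩, h1⟩
      exact ⟨⟨c, Subgroup.mem_centralizer_singleton_iff.2 (hφ (by simpa using h1))⟩, rfl⟩
  let t : C := ⟨rpart p h, Subgroup.mem_centralizer_singleton_iff.2 (commute_ppart_rpart p h).eq.symm⟩
  have ht : ¬ p ∣ orderOf t := by rw [← Subgroup.orderOf_coe]; exact reg_rpart p h
  have h1 := fB_brSet_mem (M := M) C.subtype β
  refine ⟨inc ψ (fB (brSet M C.subtype β)), inc_mem_LG _ h1, by
    rw [← map_mul, fB_mul_fB, Set.inter_self], hr ▸ (inc_mem_ZA_iff hψ).2 ⟨Supp.top _, inv_fB _⟩,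
    ?_, ?_⟩
  · rw [redG_inc hψ, ← inc_inc, ppart_map, ← MonoidHom.map_zpowers, br_inc hφ,
      ← (brLoc_cent_pelt' (pelt_ppart p h)).inc_eB_brSet C.subtype_injective hβ]
    rfl
  · have h2 := colB_cent (C := C) rfl (pelt_ppart p h) hβ ht ht
    rw [ppart_mul_rpart] at h2
    rw [h2, colB_self_eq]
    refine Finset.sum_of_injOn ψ hψ.injOn (fun x _ => ?_) (fun x h3 h4 => ?_) fun x _ => ?_
    · rw [← hr]; simpa using ⟨x, x.2, rfl⟩
    · rw [← hr, Finset.mem_filter] at h3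
      obtain ⟨c, -, rfl⟩ := h3.2
      exact absurd ⟨c, by simp, rfl⟩ h4
    · rw [← coeff_inc hψ, rpart_map]
      simp [ψ, t]

theorem colB_congr [Finite G] {φ : H →* G} {φ' : H' →* G} (hφ : Function.Injective φ)
    (hφ' : Function.Injective φ') {β : Set (IrrCharacter H)} {β' : Set (IrrCharacter H')}
    (hβ : fB β ∈ LG H M) (hβ' : fB β' ∈ LG H' M) {h : H} {h' : H'} {g : G} (e : φ h = g)
    (e' : φ' h' = g) (h1 : φ.range ⊓ C1[ppart p g] = φ'.range ⊓ C1[ppart p g])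
    (h2 : br Z[ppart p g] (inc φ (eB M β)) = br Z[ppart p g] (inc φ' (eB M β'))) :
    colB β h h = colB β' h' h' := by
  have := Fintype.ofFinite G
  obtain ⟨f, a1, a2, a3, a4, a5⟩ := exists_colB_eq (p := p) hφ hβ h
  obtain ⟨f', b1, b2, b3, b4, b5⟩ := exists_colB_eq (p := p) hφ' hβ' h'
  rw [e] at a3 a4 a5
  rw [e', ← h1] at b3 b5
  rw [e', ← h2] at b4
  rw [a5, b5, idem_eq_of_redG a1 b1 a2 b2 (ZA_comm le_rfl a3 b3) (a4.trans b4.symm)]

section Chain
omit hM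
variable [Finite G] {s : Finset (Subgroup G)} {u x : G}

omit [Fact p.Prime] in
theorem mem_norm_sSup_kr {S : Set (Subgroup G)} (h : ∀ Q ∈ S, x ∈ N[Q]) : x ∈ N[sSup S] :=
  Subgroup.mem_normalizer_fintype fun _ hn => (sSup_le (a := (sSup S).comap
    (MulAut.conj x).toMonoidHom) fun Q hQ y hy =>
      le_sSup hQ ((Subgroup.mem_normalizer_iff.1 (h Q hQ) y).1 hy)) hn

variable (p) in
/-- Normal chains of nontrivial `p`-subgroups. -/
structure KCh (s : Finset (Subgroup G)) : Prop where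
  cmp : ∀ Q ∈ s, ∀ R ∈ s, Q ≤ R ∨ R ≤ Q
  pg : ∀ Q ∈ s, Q ≠ ⊥ ∧ IsPGroup p Q
  nrm : ∀ Q ∈ s, sSup (s : Set (Subgroup G)) ≤ N[Q]

def krA (u : G) (s : Finset (Subgroup G)) : Subgroup G := sSup {Q | Q ∈ s ∧ u ∉ Q}
def krU (u : G) (s : Finset (Subgroup G)) : Subgroup G := sSup (s : Set (Subgroup G)) ⊔ Z[u]
def krR (u : G) (s : Finset (Subgroup G)) : Subgroup G :=
  krA u s ⊔ Subgroup.closure {y | ∃ t ∈ krU u s, t * u * t⁻¹ = y}

omit [Fact p.Prime] [Finite G] in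
theorem sSup_mem_of_cmp (h : ∀ Q ∈ s, ∀ R ∈ s, Q ≤ R ∨ R ≤ Q) (hs : s.Nonempty) :
    sSup (s : Set (Subgroup G)) ∈ s := by
  obtain ⟨T, h1, h2⟩ := s.exists_maximal hs
  rwa [(IsGreatest.isLUB ⟨h1, fun Q hQ => (h Q hQ T h1).elim id (h2 hQ)⟩).sSup_eq]

omit [Fact p.Prime] [Finite G] in
theorem KCh.pg_sup (h : KCh p s) : IsPGroup p (sSup (s : Set (Subgroup G)) : Subgroup G) := by
  rcases s.eq_empty_or_nonempty with rfl | hs
  · rw [Finset.coe_empty, sSup_empty]; exact IsPGroup.of_bot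
  · exact (h.pg _ (sSup_mem_of_cmp h.cmp hs)).2

omit [Fact p.Prime] [Finite G] in
theorem KCh.mono (h : KCh p s) {t : Finset (Subgroup G)} (ht : t ⊆ s) : KCh p t :=
  ⟨fun Q hQ R hR => h.cmp Q (ht hQ) R (ht hR), fun Q hQ => h.pg Q (ht hQ),
    fun Q hQ => (sSup_le_sSup (Finset.coe_subset.2 ht)).trans (h.nrm Q (ht hQ))⟩

omit [Finite G] in
theorem mem_krU : u ∈ krU u s := Subgroup.mem_sup_right (Subgroup.mem_zpowers u)

omit [Finite G] in
theorem mem_krR : u ∈ krR u s :=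
  Subgroup.mem_sup_right (Subgroup.subset_closure ⟨1, one_mem _, by simp⟩)

omit [Finite G] in
theorem krR_le {Q : Subgroup G} (h1 : krA u s ≤ Q) (h2 : u ∈ Q) (h3 : krU u s ≤ N[Q]) :
    krR u s ≤ Q := sup_le h1 ((Subgroup.closure_le _).2 (by
  rintro _ ⟨t, ht, rfl⟩
  exact (Subgroup.mem_normalizer_iff.1 (h3 ht) u).1 h2))

omit [Finite G] in
theorem krR_le_krU : krR u s ≤ krU u s :=
  krR_le (le_sup_of_le_left (sSup_le_sSup fun _ h => h.1)) mem_krU Subgroup.le_normalizer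

theorem mem_norm_krR (h1 : x ∈ N[krU u s]) (h2 : ∃ t ∈ krU u s, x * u * x⁻¹ = t * u * t⁻¹)
    (h : ∀ Q ∈ s, x ∈ N[Q]) : x ∈ N[krR u s] := by
  refine CfsgH2.mem_norm_sup (mem_norm_sSup_kr fun Q hQ => h Q hQ.1) (Subgroup.mem_normalizer_fintype
    fun _ hn => Subgroup.mem_comap.1 ((Subgroup.closure_le (Subgroup.comap
      (MulAut.conj x).toMonoidHom (Subgroup.closure {y | ∃ t ∈ krU u s, t * u * t⁻¹ = y}))).2
        ?_ hn))
  rintro _ ⟨t, ht, rfl⟩
  obtain ⟨c, hc, e⟩ := h2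
  refine Subgroup.subset_closure ⟨x * t * x⁻¹ * c, mul_mem ((Subgroup.mem_normalizer_iff.1 h1 t).1 ht) hc, ?_⟩
  calc _ = x * t * x⁻¹ * (c * u * c⁻¹) * (x * t * x⁻¹)⁻¹ := by group
    _ = x * (t * u * t⁻¹) * x⁻¹ := by rw [← e]; group

theorem mem_norm_krR' (hx : x ∈ C1[u]) (h : ∀ Q ∈ s, x ∈ N[Q]) : x ∈ N[krR u s] :=
  have h1 := Subgroup.mem_centralizer_singleton_iff.1 hx
  mem_norm_krR (CfsgH2.mem_norm_sup (mem_norm_sSup_kr h) (Subgroup.centralizer_le_normalizer _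
    (centralizer_zpowers u ▸ hx))) ⟨1, one_mem _, by simp [h1]⟩ h

theorem KCh.pg_krU (h : KCh p s) (hu : ∃ k, orderOf u = p ^ k) (hn : ∀ Q ∈ s, u ∈ N[Q]) :
    IsPGroup p (krU u s) := CfsgH2.isPGroup_sup h.pg_sup (isPGroup_zpowers_of_pelt hu)
  (Or.inr (Subgroup.zpowers_le.2 (mem_norm_sSup_kr hn)))

open Classical in
theorem KCh.insert (h : KCh p s) (hu : ∃ k, orderOf u = p ^ k) (h1 : u ≠ 1)
    (hn : ∀ Q ∈ s, u ∈ N[Q]) : KCh p (insert (krR u s) s) := by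
  have h2 : ∀ Q ∈ s, krU u s ≤ N[Q] := fun Q hQ =>
    sup_le (h.nrm Q hQ) (Subgroup.zpowers_le.2 (hn Q hQ))
  have h3 : ∀ Q ∈ s, Q ≤ krR u s ∨ krR u s ≤ Q := fun Q hQ => by
    by_cases e : u ∈ Q
    · exact Or.inr (krR_le (sSup_le fun R hR => (h.cmp R hR.1 Q hQ).resolve_right
        fun h4 => hR.2 (h4 e)) e (h2 Q hQ))
    · exact Or.inl (le_sup_of_le_left (le_sSup ⟨hQ, e⟩))
  have h4 : sSup ((Insert.insert (krR u s) s : Finset _) : Set (Subgroup G)) ≤ krU u s := by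
    rw [Finset.coe_insert, sSup_insert]
    exact sup_le krR_le_krU le_sup_left
  refine ⟨?_, ?_, ?_⟩ <;> simp only [Finset.forall_mem_insert]
  · exact ⟨⟨Or.inl le_rfl, fun Q hQ => (h3 Q hQ).symm⟩, fun Q hQ => ⟨h3 Q hQ, h.cmp Q hQ⟩⟩
  · exact ⟨⟨fun e => h1 ((e.le mem_krR :)), (h.pg_krU hu hn).to_le krR_le_krU⟩, h.pg⟩
  · exact ⟨h4.trans fun t ht => mem_norm_krR (Subgroup.le_normalizer ht) ⟨t, ht, rfl⟩
      fun Q hQ => h2 Q hQ ht, fun Q hQ => h4.trans (h2 Q hQ)⟩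

omit [Finite G] in
open Classical in
theorem krU_insert : krU u (insert (krR u s) s) = krU u s := by
  rw [krU, Finset.coe_insert, sSup_insert, sup_assoc]
  exact sup_eq_right.2 krR_le_krU

omit [Finite G] in
theorem krA_congr {t : Finset (Subgroup G)} (h : ∀ Q, Q ≠ krR u s → (Q ∈ t ↔ Q ∈ s)) :
    krA u t = krA u s := congrArg sSup (Set.ext fun Q => and_congr_left fun hQ =>
  h Q fun e => hQ (e ▸ mem_krR))

open Classical in
theorem KCh.krU_erase (h : KCh p s) (hu : ∃ k, orderOf u = p ^ k) (hn : ∀ Q ∈ s, u ∈ N[Q]) :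
    krU u (s.erase (krR u s)) = krU u s := by
  have h1 : krU u (s.erase (krR u s)) ≤ krU u s :=
    sup_le_sup_right (sSup_le_sSup (Finset.coe_subset.2 (s.erase_subset _))) _
  by_contra h2
  obtain ⟨W, h3, h4, h5⟩ := Finite.exists_le_maximal (p := (· < krU u s)) (lt_of_le_of_ne h1 h2)
  have h6 := CfsgH2.lt_inf_norm (h.pg_krU hu hn).isNilpotent h4
  have h7 : krU u s ≤ N[W] := by
    by_contra h7
    exact h6.not_ge (h5 (lt_of_le_of_ne inf_le_left fun e => h7 (e.ge.trans inf_le_right)) h6.le)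
  have h8 : krR u s ≤ W := krR_le ((krA_congr fun Q hQ => by simp [hQ]).ge.trans
    ((le_sup_left.trans krR_le_krU).trans h3)) (h3 mem_krU) h7
  refine h4.not_ge (sup_le (sSup_le fun Q hQ => ?_) (Subgroup.zpowers_le.2 (h3 mem_krU)))
  by_cases e : Q = krR u s
  · exact e ▸ h8
  · exact (le_sup_of_le_left (le_sSup (by simpa [e] using hQ))).trans h3

open Classical in
/-- The sign-reversing involution on the chains normalized by `u`. -/
theorem kr_sum_zero (hu : ∃ k, orderOf u = p ^ k) (h1 : u ≠ 1) (hx : x ∈ C1[u])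
    (hxu : ∀ K : Subgroup G, x ∈ K → u ∈ K) [Fintype (Subgroup G)] (T : Finset (Subgroup G) → ℂ)
    (hT : ∀ s t, KCh p s → KCh p t → x ∈ (⨅ Q ∈ s, N[Q]) → x ∈ (⨅ Q ∈ t, N[Q]) → krU u s = krU u t →
      (⨅ Q ∈ s, N[Q]) ⊓ C1[u] = (⨅ Q ∈ t, N[Q]) ⊓ C1[u] → T s = T t) :
    ∑ s with KCh p s ∧ x ∈ ⨅ Q ∈ s, N[Q], (-1) ^ s.card * T s = 0 := by
  have key : ∀ s, KCh p s → x ∈ (⨅ Q ∈ s, N[Q]) → ∀ t, t = (if krR u s ∈ s then
      s.erase (krR u s) else insert (krR u s) s) → KCh p t ∧ krU u t = krU u s ∧ krR u t = krR u s ∧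
      (⨅ Q ∈ t, N[Q]) ⊓ C1[u] = (⨅ Q ∈ s, N[Q]) ⊓ C1[u] := fun s h2 h3 t ht => by
    have h4 : ∀ Q ∈ s, u ∈ N[Q] := by simpa [Subgroup.mem_iInf] using hxu _ h3
    have h5 : ∀ Q, Q ≠ krR u s → (Q ∈ t ↔ Q ∈ s) := fun Q hQ => by
      rw [ht]; split_ifs <;> simp [hQ]
    have h6 : krU u t = krU u s := by
      rw [ht]; split_ifs; exacts [h2.krU_erase hu h4, krU_insert]
    have h7 : krR u t = krR u s := by rw [krR, krA_congr h5, h6, krR]
    refine ⟨?_, h6, h7, Subgroup.ext fun y => ?_⟩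
    · rw [ht]; split_ifs; exacts [h2.mono (s.erase_subset _), h2.insert hu h1 h4]
    · simp only [Subgroup.mem_inf, Subgroup.mem_iInf]
      refine and_congr_left fun hy => ⟨fun h Q hQ => ?_, fun h Q hQ => ?_⟩ <;>
        by_cases e : Q = krR u s
      exacts [e ▸ h7 ▸ mem_norm_krR' hy h, h Q ((h5 Q e).2 hQ), e ▸ mem_norm_krR' hy h,
        h Q ((h5 Q e).1 hQ)]
  refine Finset.sum_involution (fun s _ => if krR u s ∈ s then s.erase (krR u s)
    else insert (krR u s) s) (fun s hs => ?_) (fun s _ _ e => ?_) (fun s hs => ?_) fun s hs => ?_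
  · obtain ⟨h2, h3⟩ := (Finset.mem_filter.1 hs).2
    obtain ⟨h4, h5, -, h6⟩ := key s h2 h3 _ rfl
    rw [hT _ s h4 h2 (h6.ge ⟨h3, hx⟩).1 h3 h5 h6]
    split_ifs with h
    · rw [← Finset.card_erase_add_one h]; ring
    · rw [Finset.card_insert_of_notMem h]; ring
  · split_ifs at e with h
    · exact Finset.notMem_erase _ _ (e.ge h)
    · exact h (e.le (Finset.mem_insert_self _ _))
  · obtain ⟨h2, h3⟩ := (Finset.mem_filter.1 hs).2
    obtain ⟨h4, -, -, h6⟩ := key s h2 h3 _ rfl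
    exact Finset.mem_filter.2 ⟨Finset.mem_univ _, h4, (h6.ge ⟨h3, hx⟩).1⟩
  · obtain ⟨h2, h3⟩ := (Finset.mem_filter.1 hs).2
    rw [(key s h2 h3 _ rfl).2.2.1]
    by_cases h : krR u s ∈ s <;> simp [h]

end Chain

end CfsgH4
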