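import Cfsg.Agent.H4.BF
import Cfsg.Agent.H4.Prin
import Cfsg.Agent.H4.Mx
import Cfsg.Agent.S0238

/-! Landau's theorem and a Brauer--Fowler type bound. -/

set_option autoImplicit false
open Cfsg MonoidAlgebra CfsgL0 CfsgH1 CfsgH4
open CfsgH3 hiding cj cj_cj
open scoped ComplexConjugate

namespace CfsgH4

universe u

theorem egypt_bound (k : ℕ) : ∀ r : ℚ, ∃ N : ℕ, ∀ m : Multiset ℕ, m.card ≤ k → (∀ n ∈ m, 0 < n) →
    (m.map fun n : ℕ => (n : ℚ)⁻¹).sum = r → ∀ n ∈ m, n ≤ N := by
  induction k with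
  | zero =>
    refine fun r => ⟨0, fun m h _ _ n hn => ?_⟩
    rw [Nat.le_zero, Multiset.card_eq_zero] at h
    simp [h] at hn
  | succ k ih =>
    intro r
    choose F hF using ih
    refine ⟨⌈(k + 1) / r⌉₊ + (Finset.range (⌈(k + 1) / r⌉₊ + 1)).sup fun n => F (r - (n : ℚ)⁻¹),
      fun m h h0 hs n hn => ?_⟩
    have hr : 0 < r := by
      rw [← hs]
      refine lt_of_lt_of_le (inv_pos.2 (Nat.cast_pos.2 (h0 n hn)))
        (Multiset.single_le_sum (fun x hx => ?_) _ (Multiset.mem_map.2 ⟨n, hn, rfl⟩))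
      obtain ⟨y, hy, rfl⟩ := Multiset.mem_map.1 hx
      positivity
    obtain ⟨a, ha, h1⟩ : ∃ a ∈ m, a ≤ ⌈(k + 1) / r⌉₊ := by
      by_contra! h1
      have h2 : (m.map fun n : ℕ => (n : ℚ)⁻¹).sum < (m.map fun _ => r / (k + 1)).sum := by
        refine Multiset.sum_lt_sum_of_nonempty (by rintro rfl; simp at hn) fun x hx => ?_
        have h3 : ((k + 1) / r : ℚ) < x := (Nat.le_ceil _).trans_lt (Nat.cast_lt.2 (h1 x hx))
        rw [← inv_div]
        exact inv_strictAnti₀ (by positivity) h3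
      rw [hs, Multiset.map_const', Multiset.sum_replicate, nsmul_eq_mul] at h2
      have h3 : (m.card : ℚ) ≤ k + 1 := by exact_mod_cast h
      have : (m.card : ℚ) * (r / (k + 1)) ≤ (k + 1) * (r / (k + 1)) := by gcongr
      rw [mul_div_cancel₀ _ (by positivity)] at this
      linarith
    obtain ⟨m', rfl⟩ := Multiset.exists_cons_of_mem ha
    rcases Multiset.mem_cons.1 hn with rfl | hn'
    · omega
    · have h2 := hF (r - (a : ℚ)⁻¹) m' (by simpa using h) (fun x hx => h0 x (by simp [hx]))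
        (by rw [← hs]; simp) n hn'
      have h3 := Finset.le_sup (f := fun n : ℕ => F (r - (n : ℚ)⁻¹))
        (Finset.mem_range.2 (Nat.lt_add_one_of_le h1))
      omega

theorem sum_index_crep (G : Type*) [Group G] [Finite G] [Fintype (ConjClasses G)] :
    ∑ c : ConjClasses G, (Subgroup.centralizer ({crep c} : Set G)).index = Nat.card G := by
  rw [← Group.sum_card_conj_classes_eq_card, finsum_eq_sum_of_fintype]
  refine Finset.sum_congr rfl fun c _ => ?_
  rw [← card_isConj_eq_index, ← Nat.card_coe_set_eq]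
  refine Nat.card_congr (Equiv.subtypeEquivRight fun x => ?_)
  rw [isConj_crep_iff, ConjClasses.mem_carrier_iff_mk_eq, eq_comm]

/-- Landau's theorem. -/
theorem landau (k : ℕ) : ∃ N : ℕ, ∀ (G : Type u) [Group G] [Finite G],
    Nat.card (ConjClasses G) ≤ k → Nat.card G ≤ N := by
  classical
  obtain ⟨N, hN⟩ := egypt_bound k 1
  refine ⟨N, fun G _ _ h => ?_⟩
  have := Fintype.ofFinite (ConjClasses G)
  refine hN (Finset.univ.val.map fun c : ConjClasses G =>
    Nat.card (Subgroup.centralizer ({crep c} : Set G))) (by simpa using h) (fun n hn => ?_) ?_ _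
    (Multiset.mem_map.2 ⟨1, by simp, ?_⟩)
  · obtain ⟨c, -, rfl⟩ := Multiset.mem_map.1 hn
    exact Nat.card_pos
  · rw [Multiset.map_map]
    change ∑ c : ConjClasses G, _ = _
    have h0 : (Nat.card G : ℚ) ≠ 0 := Nat.cast_ne_zero.2 Nat.card_pos.ne'
    rw [← mul_right_inj' h0, mul_one, Finset.mul_sum]
    conv_rhs => rw [← sum_index_crep G]
    push_cast
    refine Finset.sum_congr rfl fun c _ => ?_
    rw [← (Subgroup.centralizer ({crep c} : Set G)).card_mul_index]
    have : (Nat.card (Subgroup.centralizer ({crep c} : Set G)) : ℚ) ≠ 0 :=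
      Nat.cast_ne_zero.2 Nat.card_pos.ne'
    simp only [Function.comp]
    push_cast
    field_simp
  · have : crep (1 : ConjClasses G) = 1 := by
      have := (isConj_crep_iff (c := (1 : ConjClasses G)) (g := 1)).2 rfl
      exact isConj_one_left.1 this
    rw [this]
    simp

theorem single_block_bound (p a : ℕ) : ∃ N : ℕ, ∀ (G : Type u) [Group G] [Finite G]
    (M : Ideal AlgInt), IsPModular p M → (Nat.card G).factorization p ≤ a →
    (∀ B : Set (IrrCharacter G), IsPBlock M B → B = principalBlock M G) → Nat.card G ≤ N := by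
  obtain ⟨N, hN⟩ := landau.{u} (p ^ (2 * a) + 4)
  refine ⟨N, fun G _ _ M hM ha h => hN G ?_⟩
  haveI : PMod p M := ⟨hM⟩
  haveI : Fact p.Prime := ⟨PMod.prime M⟩
  have := Fintype.ofFinite G
  have h1 : principalBlock M G = Set.univ := Set.eq_univ_of_forall fun χ =>
    h _ (isPBlock_blockOf χ.2) ▸ mem_blockOf_self χ
  have h2 := (isPBlock_principal (M := M) (G := G)).four_mul_card_le
  rw [blockDefect_principal, h1, Nat.card_univ, card_irr_eq_card_conjClasses] at h2
  have := Nat.pow_le_pow_right (PMod.prime M).pos (Nat.mul_le_mul_left 2 ha)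
  omega

section BF
variable {G : Type*} [Group G] [Finite G]

local notation "C[" Q "]" => Subgroup.centralizer (SetLike.coe (Q : Subgroup _))
local notation "C1[" x "]" => Subgroup.centralizer (Singleton.singleton x : Set _)

theorem exists_small_class {t : G} (ht : orderOf t = 2) (h : C1[t] ≠ ⊤) :
    ∃ x : G, x ≠ 1 ∧ (C1[x]).index ≤ 2 * Nat.card C1[t] ^ 2 := by
  classical
  have := Fintype.ofFinite G
  have ht1 : t ≠ 1 := by rintro rfl; simp at ht
  obtain ⟨x, hx, hmin⟩ := Set.exists_min_image {x : G | x ≠ 1} (fun x => (C1[x]).index)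
    (Set.toFinite _) ⟨t, ht1⟩
  refine ⟨x, hx, ?_⟩
  set j := (C1[x]).index
  set n := Nat.card {t : G // orderOf t = 2} with hn
  let c : G → ℕ := fun x =>
    Nat.card {p : G × G // orderOf p.1 = 2 ∧ orderOf p.2 = 2 ∧ p.1 * p.2 = x}
  have hsum : n ^ 2 = ∑ x, c x := by
    have e : Nat.card {p : G × G // orderOf p.1 = 2 ∧ orderOf p.2 = 2} = n ^ 2 := by
      rw [pow_two, hn, ← Nat.card_prod]
      exact Nat.card_congr (Equiv.subtypeProdEquivProd (p := fun t : G => orderOf t = 2)
        (q := fun t : G => orderOf t = 2))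
    rw [← e, CfsgL0.card_eq_sum_fibers
      (fun p : {p : G × G // orderOf p.1 = 2 ∧ orderOf p.2 = 2} => p.1.1 * p.1.2)]
    refine Finset.sum_congr rfl fun x _ => Nat.card_congr ?_
    exact (Equiv.subtypeSubtypeEquivSubtypeInter _ (fun p : G × G => p.1 * p.2 = x)).trans
      (Equiv.subtypeEquivRight fun p => and_assoc)
  have hc1 : c 1 ≤ n := by
    refine Nat.card_le_card_of_injective (fun p => ⟨p.1.1, p.2.1⟩) ?_
    rintro ⟨⟨u, v⟩, hu, hv, h⟩ ⟨⟨u', v'⟩, hu', hv', h'⟩ e
    simp only [Subtype.mk.injEq, Prod.mk.injEq] at e h h' ⊢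
    subst e
    exact ⟨rfl, mul_left_cancel (h.trans h'.symm)⟩
  have hb : ∀ y : G, j * c y ≤ Nat.card G + if y = 1 then j * n else 0 := by
    intro y
    split_ifs with hy
    · subst hy
      exact le_add_left (Nat.mul_le_mul_left j hc1)
    · rw [add_zero, ← (C1[y]).index_mul_card]
      exact Nat.mul_le_mul (hmin y hy) (Cfsg.Agent.S0238.result y).1
  have h1 : j * n ^ 2 ≤ Nat.card G * Nat.card G + j * n := by
    rw [hsum, Finset.mul_sum]
    refine (Finset.sum_le_sum fun y _ => hb y).trans (le_of_eq ?_)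
    simp [Finset.sum_add_distrib]
  have h2 : (C1[t]).index ≤ n := by
    rw [← card_isConj_eq_index]
    refine card_subtype_le fun y hy => ?_
    obtain ⟨g, rfl⟩ := isConj_iff.1 hy
    rw [← ht]
    exact (MulAut.conj g).orderOf_eq t
  have h3 : 2 ≤ (C1[t]).index := by
    have := (C1[t]).index_eq_one.not.2 h
    have := Subgroup.FiniteIndex.index_ne_zero (H := C1[t])
    omega
  have h4 : Nat.card G ≤ Nat.card C1[t] * n := by
    rw [← (C1[t]).card_mul_index]
    exact Nat.mul_le_mul_left _ h2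
  have h5 : Nat.card G * Nat.card G ≤ Nat.card C1[t] ^ 2 * n ^ 2 := by
    rw [← mul_pow, pow_two]
    exact Nat.mul_le_mul h4 h4
  have h6 : 2 * n ≤ n ^ 2 := by nlinarith
  have h7 : j * n ^ 2 ≤ 2 * Nat.card C1[t] ^ 2 * n ^ 2 := by nlinarith
  exact Nat.le_of_mul_le_mul_right h7 (pow_pos (by omega) 2)

theorem card_cent_quot (K : Subgroup G) [hK : K.Normal] {u : G} (hu : u * u = 1) :
    Nat.card C1[(u : G ⧸ K)] * Nat.card K ≤
      Nat.card {k : K // u * k * u * k = 1} * Nat.card C1[u] := by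
  rw [mul_comm, ← card_comap_mk']
  have hm : ∀ h : C1[(u : G ⧸ K)].comap (QuotientGroup.mk' K), u * h * u * (h : G)⁻¹ ∈ K := by
    intro h
    have := Subgroup.mem_centralizer_singleton_iff.1 h.2
    rw [← QuotientGroup.eq_one_iff]
    simp only [QuotientGroup.mk'_apply] at this
    rw [QuotientGroup.mk_mul, QuotientGroup.mk_mul, QuotientGroup.mk_mul, mul_assoc (u : G ⧸ K),
      this, ← mul_assoc, ← QuotientGroup.mk_mul, hu]
    simp
  have hm' : ∀ h : G, u * (u * h * u * h⁻¹) * u * (u * h * u * h⁻¹) = 1 := fun h => by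
    calc u * (u * h * u * h⁻¹) * u * (u * h * u * h⁻¹)
        = (u * u) * h * u * h⁻¹ * (u * u) * h * u * h⁻¹ := by simp only [mul_assoc]
      _ = h * (u * u) * h⁻¹ := by
        conv_lhs => rw [hu]
        simp only [mul_assoc, one_mul, inv_mul_cancel_left]
      _ = 1 := by rw [hu, mul_one, mul_inv_cancel]
  refine card_le_of_fibers (fun h : C1[(u : G ⧸ K)].comap (QuotientGroup.mk' K) =>
    (⟨⟨_, hm h⟩, hm' h⟩ : {k : K // u * k * u * k = 1})) _ fun k => ?_
  rcases isEmpty_or_nonempty {a : (C1[(u : G ⧸ K)].comap (QuotientGroup.mk' K)) //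
      (⟨⟨_, hm a⟩, hm' a⟩ : {k : K // u * k * u * k = 1}) = k} with h0 | ⟨⟨a, ha⟩⟩
  · simp
  · have ha : u * a * u * (a : G)⁻¹ = k.1 := congrArg (fun z => (z.1 : G)) ha
    refine Nat.card_le_card_of_injective (fun b => ⟨(a : G)⁻¹ * b.1, ?_⟩) fun b b' e => ?_
    · have hb : u * b.1 * u * (b.1 : G)⁻¹ = k.1 := congrArg (fun z => (z.1 : G)) b.2
      rw [← ha, mul_assoc, mul_assoc, mul_assoc, mul_assoc, mul_right_inj] at hb
      rw [Subgroup.mem_centralizer_singleton_iff]
      calc (a : G)⁻¹ * b.1 * u = (a : G)⁻¹ * (b.1 * (u * (b.1 : G)⁻¹)) * b.1 := by group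
        _ = _ := by rw [hb]; group
    · exact Subtype.ext (Subtype.ext (mul_left_cancel (congrArg Subtype.val e)))

theorem card_ab_le {Z : Subgroup G} [hZ : Z.Normal] (hc : Z ≤ C[Z]) {s t : G} (hs : s * s = 1)
    (ht : t * t = 1) (hst : s * t = t * s) : Nat.card Z ≤
      2 ^ (Nat.card G).factorization 2 * (Nat.card C1[s] * Nat.card C1[t] * Nat.card C1[s * t]) := by
  letI : CommGroup Z := { (inferInstance : Group Z) with
    mul_comm := fun a b => Subtype.ext (hc b.2 a a.2) }
  have h1 := (powMonoidHom 2 : Z →* Z).ker.card_mul_index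
  rw [Subgroup.index_ker] at h1
  rw [← h1]
  refine Nat.mul_le_mul ?_ ?_
  · have h2 : IsPGroup 2 (powMonoidHom 2 : Z →* Z).ker := fun x => ⟨1, Subtype.ext x.2⟩
    obtain ⟨k, hk⟩ := IsPGroup.iff_card.1 h2
    rw [hk]
    refine Nat.pow_le_pow_right (by norm_num) ?_
    rw [← Nat.Prime.pow_dvd_iff_le_factorization Nat.prime_two Nat.card_pos.ne', ← hk]
    exact (Subgroup.card_subgroup_dvd_card _).trans (Subgroup.card_subgroup_dvd_card _)
  · rw [← Nat.card_prod, ← Nat.card_prod]
    let φ : G →* MulAut Z := MulAut.conjNormal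
    have hs' : ∀ z, φ s (φ s z) = z := fun z => by
      rw [← MulAut.mul_apply, ← map_mul, hs, map_one, MulAut.one_apply]
    have ht' : ∀ z, φ t (φ t z) = z := fun z => by
      rw [← MulAut.mul_apply, ← map_mul, ht, map_one, MulAut.one_apply]
    have hst' : ∀ z, φ s (φ t z) = φ t (φ s z) := fun z => by
      rw [← MulAut.mul_apply, ← map_mul, hst, map_mul, MulAut.mul_apply]
    have hm : ∀ (u : G) (z : Z), φ u z = z → (z : G) ∈ C1[u] := fun u z h => by
      rw [Subgroup.mem_centralizer_singleton_iff]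
      have : u * z * u⁻¹ = z := congrArg Subtype.val h
      conv_lhs => rw [← this]
      group
    have h3 : ∀ y : (powMonoidHom 2 : Z →* Z).range, ∃ w : (C1[s] × C1[t]) × C1[s * t],
        (w.1.1 : G) * w.1.2 * w.2 = y.1 := by
      rintro ⟨_, z, rfl⟩
      refine ⟨⟨⟨⟨_, hm s (z * φ s z) ?_⟩, ⟨_, hm t (z * φ t z) ?_⟩⟩,
        ⟨_, hm (s * t) (φ s z * φ t z)⁻¹ ?_⟩⟩, ?_⟩
      · rw [map_mul, hs', mul_comm]
      · rw [map_mul, ht', mul_comm]
      · rw [map_mul φ, MulAut.mul_apply, map_inv, map_inv, map_mul, map_mul, ht', ← hst', hs',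
          mul_comm]
      · change (((z * φ s z) * (z * φ t z) * (φ s z * φ t z)⁻¹ : Z) : G) = ((z ^ 2 : Z) : G)
        congr 1
        rw [mul_mul_mul_comm, mul_inv_cancel_right, pow_two]
    choose f hf using h3
    exact Nat.card_le_card_of_injective f fun a b e =>
      Subtype.ext (Subtype.ext (by rw [← hf, ← hf, e]))

end BF

local notation "C1[" x "]" => Subgroup.centralizer (Singleton.singleton x : Set _)

theorem four_group_bound (m : ℕ) : ∃ N : ℕ, ∀ (G : Type u) [Group G] [Finite G] (s t : G),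
    s * s = 1 → t * t = 1 → s * t = t * s → s ≠ 1 → t ≠ 1 → s * t ≠ 1 →
    Nat.card C1[s] + Nat.card C1[t] + Nat.card C1[s * t] + (Nat.card G).factorization 2 ≤ m →
    Nat.card G ≤ N := by
  induction m with
  | zero =>
    refine ⟨0, fun G _ _ s t _ _ _ _ _ _ h => ?_⟩
    have : 0 < Nat.card C1[s] := Nat.card_pos
    omega
  | succ m ih =>
    obtain ⟨N, hN⟩ := ih
    refine ⟨(m + 1 + N) * ((2 * (m + 1) ^ 2).factorial * (2 ^ (m + 1) * (m + 1) ^ 3)),
      fun G _ _ s t hs ht hst hs1 ht1 hst1 h => ?_⟩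
    have hpos : 0 < (2 * (m + 1) ^ 2).factorial * (2 ^ (m + 1) * (m + 1) ^ 3) := by positivity
    by_cases h0 : C1[s] = ⊤
    · rw [h0, Subgroup.card_top] at h
      exact le_trans (by omega) (Nat.le_mul_of_pos_right _ hpos)
    obtain ⟨x, hx, hi⟩ := exists_small_class (orderOf_eq_prime (by rw [pow_two, hs]) hs1) h0
    obtain ⟨W, hWn, hWx, hW⟩ : ∃ W : Subgroup G, W.Normal ∧ W ≤ C1[x] ∧
        W.index ≤ (2 * (m + 1) ^ 2).factorial := by
      refine ⟨(C1[x]).normalCore, inferInstance, Subgroup.normalCore_le _, ?_⟩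
      refine le_trans (Nat.le_of_dvd (Nat.factorial_pos _) (n := (C1[x]).index.factorial) ?_)
        (Nat.factorial_le (hi.trans (by gcongr; omega)))
      rw [Subgroup.normalCore_eq_ker, Subgroup.index_ker, Subgroup.index_eq_card, ← Nat.card_perm]
      exact Subgroup.card_subgroup_dvd_card _
    obtain ⟨K, hKn, hxK, hK⟩ : ∃ K : Subgroup G, K.Normal ∧ x ∈ K ∧
        Nat.card K ≤ (2 * (m + 1) ^ 2).factorial * (2 ^ (m + 1) * (m + 1) ^ 3) := by
      refine ⟨Subgroup.centralizer (W : Set G), inferInstance,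
        fun w hw => Subgroup.mem_centralizer_singleton_iff.1 (hWx hw), ?_⟩
      have h1 := card_ab_le (Z := W ⊓ Subgroup.centralizer (W : Set G))
        (fun a ha b hb => ha.2 b hb.1) hs ht hst
      have h2 := (W.subgroupOf (Subgroup.centralizer (W : Set G))).index_mul_card
      rw [← h2, ← Subgroup.inf_subgroupOf_right,
        Nat.card_congr (Subgroup.subgroupOfEquivOfLe inf_le_right).toEquiv,
        Subgroup.inf_subgroupOf_right]
      refine Nat.mul_le_mul (le_trans (Nat.le_of_dvd (Nat.pos_of_ne_zero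
        Subgroup.FiniteIndex.index_ne_zero) (W.relIndex_dvd_index_of_normal _)) hW)
        (h1.trans (Nat.mul_le_mul (Nat.pow_le_pow_right (by norm_num) (by omega)) ?_))
      rw [pow_succ, pow_two]
      gcongr <;> omega
    have hin : ∀ u ∈ K, Nat.card C1[u] ≤ m + 1 → Nat.card G ≤
        (m + 1 + N) * ((2 * (m + 1) ^ 2).factorial * (2 ^ (m + 1) * (m + 1) ^ 3)) := by
      intro u hu h1
      rw [← (C1[u]).card_mul_index, ← card_isConj_eq_index]
      refine Nat.mul_le_mul (by omega) (le_trans (card_subtype_le fun y hy => ?_) hK)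
      obtain ⟨g, rfl⟩ := isConj_iff.1 hy
      exact hKn.conj_mem _ hu g
    by_cases h1 : s ∈ K
    · exact hin s h1 (by omega)
    by_cases h2 : t ∈ K
    · exact hin t h2 (by omega)
    by_cases h3 : s * t ∈ K
    · exact hin _ h3 (by omega)
    have hst2 : s * t * (s * t) = 1 := by
      calc s * t * (s * t) = s * (t * s) * t := by group
        _ = (s * s) * (t * t) := by rw [← hst]; group
        _ = 1 := by rw [hs, ht, one_mul]
    have hle : ∀ u : G, u * u = 1 → Nat.card C1[(u : G ⧸ K)] ≤ Nat.card C1[u] ∧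
        ((∀ k ∈ K, u * k * u * k = 1) ∨ Nat.card C1[(u : G ⧸ K)] < Nat.card C1[u]) := by
      intro u hu
      have h4 := card_cent_quot K hu
      have h5 : 0 < Nat.card K := Nat.card_pos
      have h6 : 0 < Nat.card C1[u] := Nat.card_pos
      refine ⟨?_, ?_⟩
      · have := Finite.card_subtype_le (fun k : K => u * k * u * k = 1)
        nlinarith
      · by_contra! h7
        obtain ⟨⟨k, hk, h8⟩, h9⟩ := h7
        have := Finite.card_subtype_lt (p := fun k : K => u * k * u * k = 1) (x := ⟨k, hk⟩) h8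
        nlinarith
    have hf := fact_card_eq_add 2 K
    rw [Subgroup.index_eq_card] at hf
    have h4 := hN (G ⧸ K) s t (by rw [← QuotientGroup.mk_mul, hs]; rfl)
      (by rw [← QuotientGroup.mk_mul, ht]; rfl)
      (by rw [← QuotientGroup.mk_mul, hst]; rfl) (by rwa [Ne, QuotientGroup.eq_one_iff])
      (by rwa [Ne, QuotientGroup.eq_one_iff])
      (by rwa [← QuotientGroup.mk_mul, Ne, QuotientGroup.eq_one_iff]) (by
        rw [← QuotientGroup.mk_mul]
        obtain ⟨a1, a2 | a2⟩ := hle s hs <;> obtain ⟨b1, b2 | b2⟩ := hle t ht <;>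
          obtain ⟨c1, c2 | c2⟩ := hle _ hst2
        any_goals omega
        have h5 : x * x = 1 := by
          have e1 : s * x * s = x⁻¹ := eq_inv_of_mul_eq_one_left (a2 x hxK)
          have e2 : t * x⁻¹ * t = x := by
            simpa using eq_inv_of_mul_eq_one_left (b2 _ (inv_mem hxK))
          have e3 := c2 x hxK
          rw [show s * t * x * (s * t) = t * (s * x * s) * t by
            nth_rewrite 1 [hst]; group, e1, e2] at e3
          exact e3
        have h6 : 2 ∣ Nat.card K := by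
          rw [← orderOf_eq_prime (p := 2) (by rw [pow_two, h5]) hx]
          exact K.orderOf_dvd_natCard hxK
        have := (Nat.prime_two.dvd_iff_one_le_factorization Nat.card_pos.ne').1 h6
        omega)
    rw [K.card_eq_card_quotient_mul_card_subgroup]
    exact Nat.mul_le_mul (by omega) hK

end CfsgH4
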