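import Cfsg.Agent.H4.Lat
import Cfsg.Agent.H4.PairD
import Cfsg.Agent.H8.PermModule

/-! Direct summands of minimal dimension of permutation modules of `p`-groups; blocks of minimal
dimension are nilpotent. -/

set_option autoImplicit false
open Cfsg MonoidAlgebra CfsgL0 CfsgH1 CfsgH4 Module
open CfsgH3 hiding cj cj_cj

namespace CfsgH4

section
variable {p : ℕ} [Fact p.Prime] {k : Type*} [Field k] [CharP k p] {Γ : Type*} [Group Γ] [Finite Γ]
  {X : Type*} [Fintype X] [MulAction Γ X]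

omit [Fintype X] in
theorem exists_inv_fun (hΓ : IsPGroup p Γ) (K : Subgroup Γ) (W : Submodule k (X → k))
    (hW : ∀ g ∈ K, ∀ f ∈ W, (fun x => f (g • x)) ∈ W) (h0 : W ≠ ⊥) :
    ∃ f ∈ W, f ≠ 0 ∧ ∀ g ∈ K, ∀ x, f (g • x) = f x := by
  obtain ⟨v, hv, hv0, h⟩ := CfsgH8.exists_fixed_of_isPGroup (hΓ.to_subgroup K)
    (Cfsg.permRep k K X) W (fun g v hv => hW _ (g⁻¹).2 v hv) h0
  exact ⟨v, hv, hv0, fun g hg x => by
    simpa [Cfsg.permRep] using congrFun (h (⟨g, hg⟩ : K)⁻¹) x⟩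

omit [Finite Γ] in
open Classical in
theorem sum_fix (hΓ : IsPGroup p Γ) (K : Subgroup Γ) {f : X → k}
    (hf : ∀ g ∈ K, ∀ x, f (g • x) = f x) :
    ∑ x, f x = ∑ x, if ∀ g ∈ K, g • x = x then f x else 0 := by
  rw [sum_eq_sum_fixed (hΓ.to_subgroup K) f _ (fun _ _ _ => Finset.mem_univ _)
    (fun q x _ => hf _ q.2 x) (fun x _ => by rw [nsmul_eq_mul, CharP.cast_eq_zero, zero_mul]),
    Finset.sum_filter]
  exact Finset.sum_congr rfl fun x _ => if_congr Subtype.forall rfl rfl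

omit [Finite Γ] in
theorem exists_fix_of_sum (hΓ : IsPGroup p Γ) (K : Subgroup Γ) {f : X → k}
    (hf : ∀ g ∈ K, ∀ x, f (g • x) = f x) (h : ∑ x, f x ≠ 0) :
    ∃ x, (∀ g ∈ K, g • x = x) ∧ f x ≠ 0 := by
  classical
  rw [sum_fix hΓ K hf] at h
  obtain ⟨x, -, hx⟩ := Finset.exists_ne_zero_of_sum_ne_zero h
  exact ⟨x, ite_ne_right_iff.1 hx⟩

/-- The Brauer quotient at `H` of the image of `π` is not zero. -/
def BrN (π : X → X → k) (H : Subgroup Γ) : Prop :=
  ∃ y z, (∀ g ∈ H, g • y = y) ∧ (∀ g ∈ H, g • z = z) ∧ π y z ≠ 0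

variable {π : X → X → k} {H K : Subgroup Γ}

open Classical in
theorem BrN.exists_orbit (hΓ : IsPGroup p Γ) (hπ : ∀ (g : Γ) y z, π (g • y) (g • z) = π y z)
    (hid : ∀ y w, ∑ z, π y z * π z w = π y w) (hH : BrN π H)
    (hmax : ∀ K : Subgroup Γ, BrN π K → Nat.card K ≤ Nat.card H) :
    ∃ y z : X, MulAction.stabilizer Γ z = H ∧ ∑ w : MulAction.orbit Γ z, π y w ≠ 0 := by
  obtain ⟨y₀, z₀, h1, h2, h3⟩ := hH
  have hl : ∀ {g : Γ} {y}, g • y = y → ∀ w, π y (g • w) = π y w := fun {g y} h w => by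
    rw [← hπ g y w, h]
  have hr : ∀ {g : Γ} {y}, g • y = y → ∀ w, π (g • w) y = π w y := fun {g y} h w => by
    rw [← hπ g w y, h]
  let W : Submodule k (X → k) :=
    { carrier := {f | (∀ z, ¬ (∀ g ∈ H, g • z = z) → f z = 0) ∧
        ∀ y, (∀ g ∈ H, g • y = y) → ∑ z, π y z * f z = f y}
      add_mem' := fun {a b} ha hb => ⟨fun z hz => by simp [ha.1 z hz, hb.1 z hz], fun y hy => by
        simp [mul_add, Finset.sum_add_distrib, ha.2 y hy, hb.2 y hy]⟩
      zero_mem' := ⟨fun _ _ => rfl, fun _ _ => by simp⟩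
      smul_mem' := fun c a ha => ⟨fun z hz => by simp [ha.1 z hz], fun y hy => by
        simp [mul_left_comm _ c, ← Finset.mul_sum, ha.2 y hy]⟩ }
  have hN : ∀ c ∈ Subgroup.normalizer (H : Set Γ), ∀ z : X, (∀ g ∈ H, g • z = z) →
      ∀ g ∈ H, g • c • z = c • z := fun c hc z hz g hg => by
    rw [← smul_left_cancel_iff c⁻¹, inv_smul_smul, smul_smul, smul_smul]
    exact hz _ (by simpa using (Subgroup.mem_normalizer_iff.1 (inv_mem hc) g).1 hg)
  obtain ⟨v, ⟨v1, v2⟩, v3, v4⟩ := exists_inv_fun hΓ (Subgroup.normalizer (H : Set Γ)) W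
    (fun c hc f hf => ⟨fun z hz => hf.1 _ fun h => hz (by
      simpa using hN _ (inv_mem hc) _ h), fun y hy => by
        beta_reduce
        rw [← hf.2 _ (hN c hc y hy), ← Equiv.sum_comp (MulAction.toPerm c)
          fun z => π (c • y) z * f z]
        simp [hπ]⟩)
    ((Submodule.ne_bot_iff _).2 ⟨fun y => if ∀ g ∈ H, g • y = y then π y z₀ else 0,
      ⟨fun z hz => if_neg hz, fun y hy => by
        beta_reduce
        rw [if_pos hy, ← hid, sum_fix hΓ H (f := fun z => π y z * π z z₀) fun g hg z => by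
          rw [hl (hy g hg), hr (h2 g hg)]]
        simp⟩, fun e => h3 (by simpa [if_pos h1] using congrFun e y₀)⟩)
  have v5 : ∀ z, v z ≠ 0 → ∀ g ∈ H, g • z = z := fun z hz => by_contra fun h => hz (v1 z h)
  have v6 : ∀ z, v z ≠ 0 → MulAction.stabilizer Γ z = H := fun z hz => by
    by_contra h
    have h4 := CfsgH2.lt_inf_norm (hΓ.to_subgroup _).isNilpotent
      (lt_of_le_of_ne (v5 z hz : H ≤ MulAction.stabilizer Γ z) (Ne.symm h))
    obtain ⟨w, h5, h6⟩ := exists_fix_of_sum hΓ (MulAction.stabilizer Γ z ⊓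
      Subgroup.normalizer (H : Set Γ)) (f := fun w => π z w * v w) (fun g hg w => by
        rw [v4 g hg.2, hl (hg.1 : g • z = z)]) (by rwa [v2 z (v5 z hz)])
    exact h4.not_ge (Subgroup.eq_of_le_of_card_ge h4.le
      (hmax _ ⟨z, w, fun g hg => hg.1, h5, left_ne_zero_of_mul h6⟩)).ge
  obtain ⟨y, hy⟩ := Function.ne_iff.1 v3
  have h4 := v5 y hy
  rw [← v2 y h4, ← Finset.sum_fiberwise _ (Quotient.mk (MulAction.orbitRel Γ X))] at hy
  obtain ⟨ω, -, h5⟩ := Finset.exists_ne_zero_of_sum_ne_zero hy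
  obtain ⟨z, h6, h7⟩ := Finset.exists_ne_zero_of_sum_ne_zero h5
  obtain rfl := (Finset.mem_filter.1 h6).2
  have h8 := right_ne_zero_of_mul h7
  refine ⟨y, z, v6 z h8, fun e => h5 ?_⟩
  rw [Finset.sum_subtype (p := (· ∈ MulAction.orbit Γ z)) _ (fun x => by
    simp only [Finset.mem_filter, Finset.mem_univ, true_and, Quotient.eq]; rfl)]
  rw [sum_fix hΓ H (f := fun w : MulAction.orbit Γ z => π y w) fun g hg w =>
    hl (h4 g hg) w] at e
  rw [← mul_zero (v z), ← e, Finset.mul_sum]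
  refine Finset.sum_congr rfl fun ⟨w, c, hw⟩ _ => ?_
  obtain rfl : c • z = w := hw
  split_ifs with h9
  · rw [v4 c, mul_comm]
    refine Subgroup.mem_normalizer_fintype fun g hg => ?_
    have h10 : H.map (MulAut.conj c).toMonoidHom = H := by
      refine (Subgroup.eq_of_le_of_card_ge (fun g hg => ?_)
        (Subgroup.card_map_of_injective (MulAut.conj c).injective).le).symm
      rw [← v6 z h8, ← MulAction.stabilizer_smul_eq_stabilizer_map_conj]
      exact congrArg Subtype.val (h9 g hg)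
    exact h10.le ⟨g, hg, rfl⟩
  · rw [v1 _ fun h => h9 fun g hg => Subtype.ext (h g hg), mul_zero, mul_zero]

theorem BrN.exists_conj (hΓ : IsPGroup p Γ) (hπ : ∀ (g : Γ) y z, π (g • y) (g • z) = π y z)
    (hid : ∀ y w, ∑ z, π y z * π z w = π y w) (hH : BrN π H)
    (hmax : ∀ K : Subgroup Γ, BrN π K → Nat.card K ≤ Nat.card H) {U : Submodule k (X → k)}
    (hU : ∀ z, (fun y => π y z) ∈ U) (hd : finrank k U ≤ H.index) (hK : BrN π K) :
    ∃ c : Γ, ∀ g ∈ K, c⁻¹ * g * c ∈ H := by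
  classical
  obtain ⟨y, z, rfl, h1⟩ := hH.exists_orbit hΓ hπ hid hmax
  have hl : ∀ {g : Γ} {y}, g • y = y → ∀ w, π y (g • w) = π y w := fun {g y} h w => by
    rw [← hπ g y w, h]
  have hr : ∀ {g : Γ} {y}, g • y = y → ∀ w, π (g • w) y = π w y := fun {g y} h w => by
    rw [← hπ g w y, h]
  let φ : (MulAction.orbit Γ z → k) →ₗ[k] (X → k) :=
    Matrix.mulVecLin (Matrix.of fun y (w : MulAction.orbit Γ z) => π y w)
  have hφ : ∀ c y, φ c y = ∑ w : MulAction.orbit Γ z, π y w * c w := fun _ _ => rfl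
  have h2 : ∀ (g : Γ) c y, φ (fun w => c (g • w)) y = φ c (g • y) := fun g c y => by
    rw [hφ, hφ, ← Equiv.sum_comp (MulAction.toPerm g)
      fun w : MulAction.orbit Γ z => π (g • y) w * c w]
    exact Finset.sum_congr rfl fun w _ => by rw [← hπ g y]; rfl
  have h3 : LinearMap.ker φ = ⊥ := by
    by_contra h
    obtain ⟨c, c1, c2, c3⟩ := exists_inv_fun hΓ ⊤ (LinearMap.ker φ) (fun g _ f hf => funext fun y =>
      (h2 g f y).trans (congrFun hf _)) h
    obtain ⟨w, hw⟩ := Function.ne_iff.1 c2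
    have c4 : ∀ u, c u = c w := fun u => by
      obtain ⟨g, rfl⟩ := MulAction.exists_smul_eq Γ w u
      exact c3 g trivial w
    have := congrFun c1 y
    simp only [hφ, c4, ← Finset.sum_mul] at this
    exact mul_ne_zero h1 hw this
  have h4 : LinearMap.range φ = U := by
    refine Submodule.eq_of_le_of_finrank_le ?_ (hd.trans_eq ?_)
    · rintro _ ⟨c, rfl⟩
      have : φ c = ∑ w : MulAction.orbit Γ z, c w • fun y => π y w := by
        ext y; simp [hφ, mul_comm]
      exact this ▸ U.sum_mem fun w _ => U.smul_mem _ (hU _)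
    · rw [LinearMap.finrank_range_of_inj (LinearMap.ker_eq_bot.1 h3), finrank_fintype_fun_eq_card,
        MulAction.index_stabilizer, ← Nat.card_eq_fintype_card, Nat.card_coe_set_eq]
  obtain ⟨y', z', h5, h6, h7⟩ := hK
  obtain ⟨c, hc⟩ := h4.ge (hU z')
  obtain ⟨⟨_, g, rfl⟩, h8, -⟩ := exists_fix_of_sum hΓ K
    (f := fun w : MulAction.orbit Γ z => π y' w * c w) (fun g hg w => by
      have : (fun w => c (g • w)) = c := LinearMap.ker_eq_bot.1 h3 (funext fun y => by
        rw [h2, hc]; exact hr (h6 g hg) y)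
      rw [congrFun this w, ← hl (h5 g hg) w]; rfl) (by rwa [← hφ, hc])
  refine ⟨g, fun a ha => ?_⟩
  rw [MulAction.mem_stabilizer_iff, mul_smul, mul_smul, inv_smul_eq_iff]
  exact congrArg Subtype.val (h8 a ha)

end

/-- The two-sided action of `S × S` on `G`. -/
@[reducible] def lrAct {G : Type*} [Group G] (S : Subgroup G) : MulAction (S × S) G where
  smul g x := g.1 * x * (g.2 : G)⁻¹
  one_smul x := by show (1 : G) * x * (1 : G)⁻¹ = x; simp
  mul_smul a b x := by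
    show (a.1 * b.1 : G) * x * (a.2 * b.2 : G)⁻¹ = a.1 * (b.1 * x * (b.2 : G)⁻¹) * (a.2 : G)⁻¹
    group

theorem nil_of_dim {p : ℕ} [hp : Fact p.Prime] {F : Type*} [Field F] [CharP F p] {G : Type*}
    [Group G] [Finite G] {b : F[G]} (hb : Inv ⊤ b) (hbb : b * b = b) {D : Subgroup G}
    (hD : IsDef p ⊤ b D) {U : Submodule F F[G]} (hU : ∀ z, b * single z 1 ∈ U)
    (hd : finrank F U * Nat.card D ≤ (p ^ (Nat.card G).factorization p) ^ 2) : Nil p b := by
  intro Q f h1 h2 x hx hr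
  have := Fintype.ofFinite G
  have h3 : br Q b ≠ 0 := fun e => h1.blk.ne (by rw [← h2, e, zero_mul])
  obtain ⟨E, hE, hQ⟩ := hD.exists_ge hb le_top h1.pgrp h3
  obtain ⟨S, hS, hES⟩ := CfsgH2.exists_syl_ge hE.pgrp le_top
  letI := lrAct S
  have act : ∀ (g : S × S) (x : G), g • x = g.1 * x * (g.2 : G)⁻¹ := fun _ _ => rfl
  have hΓ : IsPGroup p (S × S) := fun g => by
    obtain ⟨i, hi⟩ := hS.pg g.1
    obtain ⟨j, hj⟩ := hS.pg g.2
    exact ⟨i + j, Prod.ext (by rw [Prod.pow_fst, pow_add, pow_mul, hi, one_pow]; rfl)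
      (by rw [Prod.pow_snd, pow_add, mul_comm, pow_mul, hj, one_pow]; rfl)⟩
  let δ : E →* S × S := (Subgroup.inclusion hES).prod (Subgroup.inclusion hES)
  have hδ : Nat.card δ.range = Nat.card D := by
    rw [hD.card_eq hE]
    exact (Nat.card_congr (δ.ofInjective fun a c e =>
      Subgroup.inclusion_injective hES (congrArg Prod.fst e)).toEquiv).symm
  have hxN : ∀ u ∈ Q, x⁻¹ * u * x ∈ Q := fun u hu => by
    simpa using (Subgroup.mem_normalizer_iff.1 (inv_mem (stab_le _ _ hx)) u).1 hu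
  let κ : Q →* S × S := (Subgroup.inclusion (hQ.trans hES)).prod
    { toFun := fun u => ⟨x⁻¹ * u * x, hES (hQ (hxN _ u.2))⟩
      map_one' := Subtype.ext (by simp)
      map_mul' := fun a c => Subtype.ext (by simp [mul_assoc]) }
  obtain ⟨c, hc⟩ := BrN.exists_conj (π := fun y z : G => b.coeff (y * z⁻¹)) (H := δ.range)
    (K := κ.range) hΓ (fun g y z => by
      rw [act, act, ← hb.coeff_conj (h := (g.1 : G)) trivial (y * z⁻¹)]
      congr 1
      group) (fun y w => by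
      conv_rhs => rw [← hbb, coeff_mul_sum', ← Equiv.sum_comp (Equiv.mulRight w⁻¹)]
      exact Finset.sum_congr rfl fun z _ => by simp [mul_assoc]) (by
      obtain ⟨g, h4, h5⟩ := br_ne_zero_iff.1 hE.ne
      refine ⟨g, 1, ?_, ?_, by simpa using h5⟩ <;> rintro _ ⟨u, rfl⟩
      · exact mul_inv_eq_of_eq_mul (h4 u u.2)
      · exact mul_inv_eq_of_eq_mul (by simp [δ])) (fun K ⟨y, z, h4, h5, h6⟩ => by
      let π : S × S →* G := S.subtype.comp (MonoidHom.fst S S)
      rw [hδ]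
      refine le_trans (Nat.card_le_card_of_injective (fun g : K => (⟨π g, g, g.2, rfl⟩ : K.map π))
        fun g g' e => ?_) (hD.card_le le_top ((hΓ.to_subgroup K).map π)
          (br_ne_zero_iff.2 ⟨_, ?_, h6⟩))
      · have e1 : (g.1.1 : G) = g'.1.1 := congrArg (fun t : K.map π => (t : G)) e
        have e2 := (h4 g g.2).trans (h4 g' g'.2).symm
        rw [act, act, e1, mul_right_inj, inv_inj] at e2
        exact Subtype.ext (Prod.ext (Subtype.ext e1) (Subtype.ext e2))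
      · rintro _ ⟨g, hg, rfl⟩
        show (g.1 : G) * _ = _ * g.1
        conv_rhs => rw [← h4 g hg, ← h5 g hg, act, act]
        group)
    (U := U.map ((Finsupp.lcoeFun).comp (coeffLinearEquiv F).toLinearMap))
    (fun z => ⟨_, hU z, funext fun y => by
      show (b * single z 1).coeff y = _
      rw [coeff_mul_single_apply, mul_one]⟩) (by
      refine (Submodule.finrank_map_le _ _).trans (Nat.le_of_mul_le_mul_right (hd.trans_eq ?_)
        (Nat.card_pos (α := D)))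
      rw [← hδ, Subgroup.index_mul_card, Nat.card_prod, hS.card_eq, Subgroup.card_top, sq]) (by
      obtain ⟨g, h4, h5⟩ := br_ne_zero_iff.1 h3
      refine ⟨g * x, x, ?_, ?_, by simpa using h5⟩ <;> rintro _ ⟨u, rfl⟩
      · show (u : G) * (g * x) * (x⁻¹ * u * x)⁻¹ = _
        rw [← mul_assoc, h4 u u.2]
        group
      · show (u : G) * x * (x⁻¹ * u * x)⁻¹ = _
        group)
  have h4 : ∀ u ∈ Q, x⁻¹ * u * x = (c.2 * c.1⁻¹ : S) * u * (c.2 * c.1⁻¹ : S)⁻¹ := fun u hu => by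
    obtain ⟨v, e⟩ := hc _ ⟨⟨u, hu⟩, rfl⟩
    have e1 : (v : G) = (c.1 : G)⁻¹ * u * c.1 := congrArg (fun g : S × S => (g.1 : G)) e
    have e2 : (v : G) = (c.2 : G)⁻¹ * (x⁻¹ * u * x) * c.2 := congrArg (fun g : S × S => (g.2 : G)) e
    push_cast
    calc _ = c.2 * (v : G) * (c.2 : G)⁻¹ := by rw [e2]; group
      _ = _ := by rw [e1]; group
  generalize c.2 * c.1⁻¹ = w at h4
  have h5 : ∀ n : ℕ, ∀ u ∈ Q, (x ^ n)⁻¹ * u * x ^ n = w ^ n * u * (w ^ n : G)⁻¹ := fun n => by
    induction n with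
    | zero => simp
    | succ n ih =>
      intro u hu
      calc _ = (x ^ n)⁻¹ * (x⁻¹ * u * x) * x ^ n := by group
        _ = _ := by rw [ih _ (hxN u hu), h4 u hu, Subgroup.coe_inv]; group
  obtain ⟨j, hj⟩ := hS.pg w
  have h6 : x ^ p ^ j ∈ Subgroup.centralizer (Q : Set G) := fun u hu => by
    have := h5 (p ^ j) u hu
    rw [← Subgroup.coe_pow, hj, Subgroup.coe_one, one_mul, inv_one, mul_one] at this
    rw [← mul_right_inj (x ^ p ^ j)⁻¹, ← mul_assoc, this, inv_mul_cancel_left]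
  obtain ⟨m, hm⟩ := exists_pow_eq_self_of_coprime (x := x)
    (((Nat.Prime.coprime_iff_not_dvd hp.out).2 hr).pow_left j)
  exact hm ▸ pow_mem h6 m

end CfsgH4
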