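import Cfsg.Agent.H4.BL
import Cfsg.Agent.H4.Loc

open Cfsg CfsgH3 Module IsLocalRing
open scoped ComplexConjugate Pointwise

namespace CfsgH4.Sml

theorem sum_free {Γ α A : Type*} [Group Γ] [Fintype Γ] [AddCommMonoid A] (a : Γ → α → α)
    (h1 : ∀ t, a 1 t = t) (hm : ∀ x y t, a (x * y) t = a x (a y t)) (K : AddSubmonoid A) (F : α → A)
    (T : Finset α) (hT : ∀ x, ∀ t ∈ T, a x t ∈ T) (hf : ∀ x, ∀ t ∈ T, a x t = t → x = 1)
    (h : ∀ t ∈ T, ∑ x, F (a x t) ∈ K) : ∑ t ∈ T, F t ∈ K := by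
  classical
  induction T using Finset.strongInduction with
  | _ T ih =>
  rcases T.eq_empty_or_nonempty with rfl | ⟨t, ht⟩
  · simp
  set O := Finset.univ.image fun x => a x t with hO
  have hs : O ⊆ T := fun s hs => by
    obtain ⟨x, -, rfl⟩ := Finset.mem_image.1 hs
    exact hT x t ht
  rw [← Finset.sum_sdiff hs]
  refine add_mem (ih _ (Finset.sdiff_ssubset hs ⟨t, Finset.mem_image.2 ⟨1, Finset.mem_univ _, h1 t⟩⟩)
    (fun x s hs => ?_) (fun x s hs => hf x s (Finset.mem_sdiff.1 hs).1)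
    fun s hs => h s (Finset.mem_sdiff.1 hs).1) ?_
  · obtain ⟨s1, s2⟩ := Finset.mem_sdiff.1 hs
    refine Finset.mem_sdiff.2 ⟨hT x s s1, fun h2 => s2 ?_⟩
    obtain ⟨y, -, hy⟩ := Finset.mem_image.1 h2
    exact Finset.mem_image.2 ⟨x⁻¹ * y, Finset.mem_univ _, by rw [hm, hy, ← hm, inv_mul_cancel, h1]⟩
  · rw [hO, Finset.sum_image fun x _ y _ hxy => ?_]
    · exact h t ht
    · have := hf (x⁻¹ * y) t ht (by rw [hm, ← show a x t = a y t from hxy, ← hm, inv_mul_cancel, h1])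
      exact inv_mul_eq_one.1 this

variable {R : Subring ℂ} [IsLocalRing R] {W W' : Type*} [AddCommGroup W] [Module ℂ W]
  [AddCommGroup W'] [Module ℂ W']

theorem map_J (a : W →ₗ[ℂ] W') {Y : Submodule R W} {Y' : Submodule R W'} (h : ∀ y ∈ Y, a y ∈ Y')
    {y : W} (hy : y ∈ maximalIdeal R • Y) : a y ∈ maximalIdeal R • Y' := by
  refine Submodule.smul_induction_on hy (fun r hr y hy => ?_) fun x y hx hy => ?_
  · have : a (r • y) = r • a y := a.map_smul (r : ℂ) y
    rw [this]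
    exact Submodule.smul_mem_smul hr (h y hy)
  · rw [map_add]; exact add_mem hx hy

theorem nak (a : W →ₗ[ℂ] W') {Y : Submodule R W} (hY : Y.FG)
    (h : ∀ y ∈ Y, a y ∈ maximalIdeal R • Y.map (a.restrictScalars R)) : ∀ y ∈ Y, a y = 0 := by
  have := Submodule.eq_bot_of_le_smul_of_le_jacobson_bot (maximalIdeal R) _
    (hY.map (a.restrictScalars R)) (by rintro _ ⟨y, hy, rfl⟩; exact h y hy)
    (maximalIdeal_le_jacobson _)
  intro y hy
  have h2 : a y ∈ Y.map (a.restrictScalars R) := ⟨y, hy, rfl⟩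
  rwa [this] at h2

/-- endomorphisms stabilizing a lattice -/
def St (Y : Submodule R W) : Subring (End ℂ W) where
  carrier := {a | ∀ y ∈ Y, a y ∈ Y}
  mul_mem' ha hb y hy := ha _ (hb y hy)
  one_mem' _ hy := hy
  add_mem' ha hb y hy := add_mem (ha y hy) (hb y hy)
  zero_mem' _ _ := zero_mem _
  neg_mem' ha y hy := neg_mem (ha y hy)

/-- endomorphisms vanishing modulo the maximal ideal -/
def Ng (Y : Submodule R W) : AddSubgroup (End ℂ W) where
  carrier := {a | ∀ y ∈ Y, a y ∈ maximalIdeal R • Y}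
  add_mem' ha hb y hy := add_mem (ha y hy) (hb y hy)
  zero_mem' _ _ := zero_mem _
  neg_mem' ha y hy := neg_mem (ha y hy)

variable {Y : Submodule R W}

theorem Ng.left {a b : End ℂ W} (ha : a ∈ St Y) (hb : b ∈ Ng Y) : a * b ∈ Ng Y :=
  fun y hy => map_J a ha (hb y hy)

theorem Ng.right {a b : End ℂ W} (ha : a ∈ Ng Y) (hb : b ∈ St Y) : a * b ∈ Ng Y :=
  fun y hy => ha _ (hb y hy)

omit [IsLocalRing R] in
theorem St.smul (r : R) {a : End ℂ W} (ha : a ∈ St Y) : (r : ℂ) • a ∈ St Y :=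
  fun y hy => Y.smul_mem r (ha y hy)

theorem Ng.smul {r : R} (hr : r ∈ maximalIdeal R) {a : End ℂ W} (ha : a ∈ St Y) : (r : ℂ) • a ∈ Ng Y :=
  fun y hy => Submodule.smul_mem_smul hr (ha y hy)

theorem Ng.nat {p : ℕ} (hp : (p : R) ∈ maximalIdeal R) {a : End ℂ W} (ha : a ∈ St Y) :
    (p : End ℂ W) * a ∈ Ng Y := by
  have := Ng.smul hp ha
  rwa [show ((p : R) : ℂ) = p by simp, Nat.cast_smul_eq_nsmul, nsmul_eq_mul] at this

theorem geom_poly {p : ℕ} (hp : p.Prime) : ∃ r : Polynomial ℤ,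
    ∑ i ∈ Finset.range p, (Polynomial.X + 1) ^ i = Polynomial.X ^ (p - 1) + (p : Polynomial ℤ) * r ∧
    (Polynomial.X + 1) ^ p = Polynomial.X ^ p + 1 + (p : Polynomial ℤ) * Polynomial.X * r := by
  obtain ⟨r, hr⟩ := exists_add_pow_prime_eq hp (Polynomial.X : Polynomial ℤ) 1
  rw [one_pow, mul_one] at hr
  refine ⟨r, mul_right_cancel₀ Polynomial.X_ne_zero ?_, hr⟩
  have := geom_sum_mul (Polynomial.X + 1 : Polynomial ℤ) p
  rw [add_sub_cancel_right] at this
  rw [this, hr, add_mul, ← pow_succ, Nat.sub_add_cancel hp.one_le]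
  ring

theorem geom_Ng {p : ℕ} (hp : p.Prime) (hm : (p : R) ∈ maximalIdeal R) {c : End ℂ W} (hc : c ∈ St Y) :
    ∑ i ∈ Finset.range p, c ^ i - (c - 1) ^ (p - 1) ∈ Ng Y ∧ c ^ p - 1 - (c - 1) ^ p ∈ Ng Y := by
  obtain ⟨r, h1, h2⟩ := geom_poly hp
  set D : St Y := ⟨c, hc⟩ - 1 with hD
  have a1 := congrArg (fun q => ((Polynomial.aeval D q : St Y) : End ℂ W)) h1
  have a2 := congrArg (fun q => ((Polynomial.aeval D q : St Y) : End ℂ W)) h2
  simp only [map_sum, map_pow, map_add, Polynomial.aeval_X, map_one, map_mul, map_natCast, hD,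
    sub_add_cancel, AddSubmonoidClass.coe_finsetSum, SubmonoidClass.coe_pow, Subring.coe_add,
    Subring.coe_mul, AddSubgroupClass.coe_sub, Subring.coe_one, SubringClass.coe_natCast] at a1 a2
  rw [a1, a2]
  refine ⟨by rw [add_sub_cancel_left]; exact Ng.nat hm (Subtype.prop _), ?_⟩
  rw [add_right_comm, add_sub_cancel_right, add_sub_cancel_left, mul_assoc]
  exact Ng.nat hm (mul_mem (sub_mem hc (one_mem _)) (Subtype.prop _))

variable {G : Type*} [Group G]

variable (R) in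
/-- lattices on which the norm map of `P` vanishes modulo the maximal ideal -/
def Sm (τ : Representation ℂ G W) (P : Subgroup G) [Fintype P] : Prop :=
  ∃ Y : Submodule R W, Y.FG ∧ Submodule.span ℂ (Y : Set W) = ⊤ ∧ (∀ g, τ g ∈ St Y) ∧
    ∑ x : P, τ x ∈ Ng Y

variable {τ : Representation ℂ G W} {τ' : Representation ℂ G W'} {P : Subgroup G} [Fintype P]

theorem Sm.map (h : Sm R τ P) (a : W →ₗ[ℂ] W') (hs : Function.Surjective a)
    (ha : ∀ g y, a (τ g y) = τ' g (a y)) : Sm R τ' P := by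
  obtain ⟨Y, h1, h2, h3, h4⟩ := h
  refine ⟨Y.map (a.restrictScalars R), h1.map _, ?_, ?_, ?_⟩
  · have : ((Y.map (a.restrictScalars R) : Submodule R W') : Set W') = a '' Y := rfl
    rw [this, ← Submodule.map_span, h2, Submodule.map_top, LinearMap.range_eq_top.2 hs]
  · rintro g _ ⟨y, hy, rfl⟩
    exact ⟨_, h3 g y hy, ha g y⟩
  · rintro _ ⟨y, hy, rfl⟩
    have := map_J a (Y' := Y.map (a.restrictScalars R)) (fun y hy => ⟨y, hy, rfl⟩) (h4 y hy)
    simpa [ha] using this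

theorem eq_zero_of_span {a : W →ₗ[ℂ] W'} (h2 : Submodule.span ℂ (Y : Set W) = ⊤)
    (h : ∀ y ∈ Y, a y = 0) : a = 0 :=
  LinearMap.ext_on h2 h

theorem Sm.fix [Fintype G] (h : Sm R τ P) (h0 : ∑ g, τ g = 0) {N : Subgroup G} [Fintype N] (hP : P ≤ N)
    (hT : ∀ x ∈ P, x ≠ 1 → ∀ g, g * x * g⁻¹ ∈ N → g ∈ N) : ∑ n : N, τ n = 0 := by
  classical
  obtain ⟨Y, h1, h2, h3, h4⟩ := h
  refine eq_zero_of_span h2 (nak _ h1 fun y hy => ?_)
  have e1 : ∑ n : N, τ n = -∑ g with g ∉ N, τ g := by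
    rw [eq_neg_iff_add_eq_zero, ← h0, ← Finset.sum_filter_add_sum_filter_not Finset.univ (· ∈ N),
      Finset.sum_subtype (p := (· ∈ N)) (Finset.univ.filter (· ∈ N)) (by simp)]
  set K := maximalIdeal R • Y.map ((∑ n : N, τ n).restrictScalars R) with hK
  conv_rhs => rw [e1]
  rw [LinearMap.neg_apply, LinearMap.sum_apply]
  refine neg_mem (sum_free (Γ := N × P) (fun q g => q.1 * g * (q.2 : G)⁻¹) (by simp)
    (by simp [mul_assoc]) K.toAddSubmonoid (fun g => τ g y) _ (fun q t ht => ?_) (fun q t ht hq => ?_)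
    fun t _ => ?_)
  · simp only [Finset.mem_filter, Finset.mem_univ, true_and] at ht ⊢
    rwa [N.mul_mem_cancel_right (inv_mem (hP q.2.2)), N.mul_mem_cancel_left q.1.2]
  · simp only [Finset.mem_filter, Finset.mem_univ, true_and] at ht
    have a1 : t * q.2 * t⁻¹ = q.1 := by
      rw [mul_inv_eq_iff_eq_mul] at hq ⊢
      exact hq.symm
    have a2 : (q.2 : G) = 1 := by
      by_contra a2
      exact ht (hT _ q.2.2 a2 t (a1 ▸ q.1.2))
    rw [a2, mul_one, mul_inv_cancel] at a1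
    exact Prod.ext (Subtype.ext a1.symm) (Subtype.ext a2)
  · have : ∑ q : N × P, τ (q.1 * t * (q.2 : G)⁻¹) y = (∑ n : N, τ n) (τ t ((∑ x : P, τ x) y)) := by
      rw [Fintype.sum_prod_type, LinearMap.sum_apply]
      refine Finset.sum_congr rfl fun n _ => ?_
      rw [LinearMap.sum_apply, map_sum, map_sum, ← Equiv.sum_comp (Equiv.inv P)]
      simp
    rw [this]
    exact map_J _ (fun y hy => Submodule.mem_map_of_mem (f := LinearMap.restrictScalars R _) hy)
      (map_J _ (h3 t) (h4 y hy))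

theorem kill {p : ℕ} (hp : p.Prime) (hm : (p : R) ∈ maximalIdeal R) {u : G} (hu : u ^ p = 1)
    (hP : P = Subgroup.zpowers u) [Finite G] (h1 : Y.FG) (h3 : ∀ g, τ g ∈ St Y)
    (h4 : ∑ x : P, τ x ∈ Ng Y) {w : End ℂ W} (hw : w ∈ St Y) (hww : w * w = w)
    (hwu : τ u * w = w * τ u) (T : Finset G) (hT : ∀ x ∈ P, ∀ t ∈ T, x * t * x⁻¹ ∈ T)
    (hf : ∀ x ∈ P, ∀ t ∈ T, x * t * x⁻¹ = t → x = 1) (c : Rˣ)
    (hc : w * (∑ t ∈ T, τ t) * w = ((c : R) : ℂ) • w) : ∀ y ∈ Y, w y = 0 := by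
  set Y' := Y.map (w.restrictScalars R) with hY'
  have hle : Y' ≤ Y := by rintro _ ⟨y, hy, rfl⟩; exact hw y hy
  have hwJ : ∀ y ∈ maximalIdeal R • Y, w y ∈ maximalIdeal R • Y' := fun y hy =>
    map_J w (Y' := Y') (fun y hy => ⟨y, hy, rfl⟩) hy
  have hus : τ u ∈ St Y' := by
    rintro _ ⟨y, hy, rfl⟩
    exact ⟨_, h3 u y hy, (congrArg (fun a : End ℂ W => a y) hwu).symm⟩
  have key : ∀ y ∈ Y', (τ u - 1) y ∈ maximalIdeal R • Y' → y ∈ maximalIdeal R • Y' := fun y hy h => by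
    have a1 : ∀ k : ℕ, τ (u ^ k) y - y ∈ maximalIdeal R • Y' := fun k => by
      induction k with
      | zero => simp
      | succ k ih =>
        have := add_mem (map_J _ hus ih) h
        simpa [pow_succ'] using this
    have a2 : ∀ x ∈ P, τ x y - y ∈ maximalIdeal R • Y' := fun x hx => by
      rw [hP, ← mem_powers_iff_mem_zpowers] at hx
      obtain ⟨k, rfl⟩ := hx
      exact a1 k
    have a3 : w y = y := by
      obtain ⟨z, -, rfl⟩ := hy
      exact congrArg (fun a : End ℂ W => a z) hww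
    have a4 : ∑ t ∈ T, w (τ t y) ∈ maximalIdeal R • Y' := by
      refine sum_free (Γ := P) (fun x g => x * g * (x : G)⁻¹) (by simp) (by simp [mul_assoc])
        (maximalIdeal R • Y').toAddSubmonoid (fun g => w (τ g y)) T (fun x => hT x x.2)
        (fun x t ht h => Subtype.ext (hf x x.2 t ht h)) fun t _ => ?_
      have : ∑ x : P, w (τ (x * t * (x : G)⁻¹) y) =
          w (∑ x : P, τ (x * t) (τ (x : G)⁻¹ y - y) + (∑ x : P, τ x) (τ t y)) := by
        simp [← Finset.sum_add_distrib]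
      rw [this]
      refine hwJ _ (add_mem (sum_mem fun x _ => map_J _ (h3 _) ?_) (h4 _ (h3 t y (hle hy))))
      exact Submodule.smul_mono le_rfl hle (a2 _ (inv_mem x.2))
    have a5 := congrArg (fun a : End ℂ W => a y) hc
    simp only [End.mul_apply, a3, LinearMap.sum_apply, map_sum, LinearMap.smul_apply] at a5
    rw [a5] at a4
    have a6 := (maximalIdeal R • Y').smul_mem (c⁻¹ : Rˣ) a4
    have a7 : ((c⁻¹ : Rˣ) : R) • ((c : R) : ℂ) • y = y := by
      show ((c⁻¹ : Rˣ) : R) • (c : R) • y = y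
      rw [smul_smul, Units.inv_mul, one_smul]
    rwa [a7] at a6
  have hN : τ u - 1 ∈ St Y' := sub_mem hus (one_mem _)
  have ind : ∀ k, k ≤ p → (τ u - 1) ^ k ∈ Ng Y' := fun k hk => by
    induction hk using Nat.decreasingInduction with
    | self =>
      have := (geom_Ng hp hm hus).2
      rwa [← map_pow, hu, map_one, sub_self, zero_sub, neg_mem_iff] at this
    | of_succ k _ ih =>
      intro y hy
      refine key _ (pow_mem hN k y hy) ?_
      have := ih y hy
      rwa [pow_succ'] at this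
  exact nak w h1 fun y hy => ind 0 (Nat.zero_le _) _ ⟨y, hy, rfl⟩

variable {M : Ideal AlgInt} {p : ℕ} [hM : PMod p M]

theorem p_mem : (p : Loc M) ∈ maximalIdeal (Loc M) :=
  (mem_maximalIdeal_Loc _).2 (by simpa using InP_p (M := M))

theorem prod_eigen {a : End ℂ W} {v : W} {c : ℂ} (h : a v = c • v) (l : List ℂ) :
    (l.map fun t => a - t • 1).prod v = (l.map fun t => c - t).prod • v := by
  induction l with
  | nil => simp
  | cons t l ih => simp [ih, h, smul_sub, smul_smul, mul_comm, ← sub_smul, ← sub_mul]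

theorem pow_Ng {Y : Submodule (Loc M) W} {a : End ℂ W} (ha : a ∈ St Y) (l : List ℂ)
    (hl : ∀ t ∈ l, t ^ p = 1) : (l.map fun t => a - t • 1).prod ∈ St Y ∧
      (a - 1) ^ l.length - (l.map fun t => a - t • 1).prod ∈ Ng Y := by
  induction l with
  | nil => simp
  | cons t l ih =>
    obtain ⟨h1, h2⟩ := ih fun s hs => hl s (List.mem_cons_of_mem _ hs)
    have h3 : MemLocalIdeal M (t - 1) := InP_sub_one_of_pow (k := 1) (by simpa using hl t (by simp))
    have h4 : t ∈ Loc M := mem_Loc_of_InP_sub h3 (one_mem _)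
    simp only [List.map_cons, List.prod_cons, List.length_cons]
    refine ⟨mul_mem (sub_mem ha (St.smul ⟨t, h4⟩ (one_mem _))) h1, ?_⟩
    have := add_mem (Ng.left (sub_mem ha (one_mem _)) h2)
      (Ng.smul ((mem_maximalIdeal_Loc ⟨_, InP.mem_Loc h3⟩).2 h3) h1)
    convert this using 1
    simp only [pow_succ', mul_sub, sub_mul, one_mul, smul_mul_assoc, sub_smul, one_smul]
    abel

theorem sm_linHom [Finite G] [FiniteDimensional ℂ W] (ρ : Representation ℂ G W) {u : G}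
    (hu : orderOf u = p) (hd : 2 * finrank ℂ W + 1 ≤ p) [Fintype (Subgroup.zpowers u)] :
    Sm (Loc M) (ρ.linHom ρ) (Subgroup.zpowers u) := by
  classical
  have hp := PMod.prime M
  obtain ⟨b, s, hs, -, hb, -⟩ := exists_eigenbasis_rep ρ u
  set E := Module.finBasis ℂ (End ℂ W)
  set Y := Submodule.span (Loc M) (Set.range fun q : G × G × Fin (finrank ℂ (End ℂ W)) =>
    ρ q.1 * E q.2.2 * ρ q.2.1) with hY
  have hL : ∀ g, LinearMap.mulLeft ℂ (ρ g) ∈ St Y := fun g y hy => by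
    refine (Submodule.map_span_le ((LinearMap.mulLeft ℂ (ρ g)).restrictScalars (Loc M)) _ Y).2 ?_
      ⟨y, hy, rfl⟩
    rintro _ ⟨q, rfl⟩
    exact Submodule.subset_span ⟨(g * q.1, q.2), by simp [mul_assoc]⟩
  have hR : ∀ g, LinearMap.mulRight ℂ (ρ g) ∈ St Y := fun g y hy => by
    refine (Submodule.map_span_le ((LinearMap.mulRight ℂ (ρ g)).restrictScalars (Loc M)) _ Y).2 ?_
      ⟨y, hy, rfl⟩
    rintro _ ⟨q, rfl⟩
    exact Submodule.subset_span ⟨(q.1, q.2.1 * g, q.2.2), by simp [mul_assoc]⟩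
  have hτ : ∀ g, ρ.linHom ρ g = LinearMap.mulLeft ℂ (ρ g) * LinearMap.mulRight ℂ (ρ g⁻¹) :=
    fun g => rfl
  have hS : ∀ g, ρ.linHom ρ g ∈ St Y := fun g => hτ g ▸ mul_mem (hL g) (hR g⁻¹)
  refine ⟨Y, Submodule.fg_span (Set.finite_range _), ?_, hS, ?_⟩
  · rw [eq_top_iff, ← E.span_eq]
    refine Submodule.span_mono ?_
    rintro _ ⟨i, rfl⟩
    exact Submodule.subset_span ⟨(1, 1, i), by simp⟩
  set l := List.ofFn s with hl
  have hl1 : ∀ t ∈ l, t ^ p = 1 := fun t ht => by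
    obtain ⟨i, rfl⟩ := List.mem_ofFn.1 ht
    exact hu ▸ hs i
  have hl2 : l.length = finrank ℂ W := List.length_ofFn
  have h0 : (l.map fun t => ρ u - t • 1).prod = 0 := b.ext fun i => by
    rw [prod_eigen (c := s i) (by simpa using hb 1 i), List.prod_eq_zero, zero_smul, LinearMap.zero_apply]
    exact List.mem_map.2 ⟨s i, List.mem_ofFn.2 ⟨i, rfl⟩, sub_self _⟩
  have pL : ∀ l : List ℂ, (l.map fun t => LinearMap.mulLeft ℂ (ρ u) - t • 1).prod =
      LinearMap.mulLeft ℂ (l.map fun t => ρ u - t • 1).prod := fun l => by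
    induction l with
    | nil => ext1; simp
    | cons t l ih => ext1 y; simp [ih, sub_mul, mul_assoc]
  have pR : ∀ l : List ℂ, (l.map fun t => LinearMap.mulRight ℂ (ρ u) - t • 1).prod =
      LinearMap.mulRight ℂ (l.reverse.map fun t => ρ u - t • 1).prod := fun l => by
    induction l with
    | nil => ext1; simp
    | cons t l ih => ext1 y; simp [ih, mul_sub, mul_assoc]
  have a1 := (pow_Ng (hL u) l hl1).2
  have a2 := (pow_Ng (hR u) l.reverse fun t ht => hl1 t (List.mem_reverse.1 ht)).2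
  rw [pL, h0, hl2, LinearMap.mulLeft_zero_eq_zero, sub_zero] at a1
  rw [pR, List.reverse_reverse, h0, List.length_reverse, hl2, LinearMap.mulRight_zero_eq_zero,
    sub_zero] at a2
  set A := LinearMap.mulLeft ℂ (ρ u) - 1 with hA
  set B := LinearMap.mulRight ℂ (ρ u) - 1 with hB
  have hAs : A ∈ St Y := sub_mem (hL u) (one_mem _)
  have hBs : B ∈ St Y := sub_mem (hR u) (one_mem _)
  have hAB : Commute A B := by
    ext1 y; simp [hA, hB, mul_sub, sub_mul, mul_assoc]; abel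
  have hD : ρ.linHom ρ u - 1 = (A - B) * LinearMap.mulRight ℂ (ρ u⁻¹) := by
    ext1 y
    simp [hτ, hA, hB, mul_assoc, ← map_mul]
  have hC : Commute (A - B) (LinearMap.mulRight ℂ (ρ u⁻¹)) := by
    ext1 y
    simp [hA, hB, mul_assoc, sub_mul, ← map_mul]
  have a3 : (ρ.linHom ρ u - 1) ^ (p - 1) ∈ Ng Y := by
    rw [hD, hC.mul_pow, sub_eq_add_neg, hAB.neg_right.add_pow]
    refine Ng.right (sum_mem fun m hm => Ng.right ?_ (natCast_mem _ _)) (pow_mem (hR _) _)
    rw [Finset.mem_range] at hm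
    by_cases h : finrank ℂ W ≤ m
    · obtain ⟨k, rfl⟩ := Nat.exists_eq_add_of_le h
      rw [pow_add, mul_assoc]
      exact Ng.right a1 (mul_mem (pow_mem hAs _) (pow_mem (neg_mem hBs) _))
    · obtain ⟨k, hk⟩ : ∃ k, p - 1 - m = k + finrank ℂ W := ⟨p - 1 - m - finrank ℂ W, by omega⟩
      rw [hk, pow_add, ← mul_assoc, neg_pow B (finrank ℂ W), ← mul_assoc]
      exact Ng.left (mul_mem (mul_mem (pow_mem hAs _) (pow_mem (neg_mem hBs) _))
        (pow_mem (neg_mem (one_mem _)) _)) a2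
  have a4 := add_mem (geom_Ng hp p_mem (hS u)).1 a3
  rw [sub_add_cancel] at a4
  convert a4 using 1
  rw [← hu, ← Fin.sum_univ_eq_sum_range (fun i => ρ.linHom ρ u ^ i),
    ← (finEquivZPowers (isOfFinOrder_of_finite u)).sum_comp]
  exact Finset.sum_congr rfl fun i _ => by rw [finEquivZPowers_apply, map_pow]

theorem exists_sm [Fintype G] {χ φ : G → ℂ} (hχ : IsCharacter G χ) {u : G} (hu : orderOf u = p)
    (hd : 2 * charDegree χ + 1 ≤ p) [Fintype (Subgroup.zpowers u)] (hφ : IsIrrCharacter G φ)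
    (h : classInner (χ * fun g => conj (χ g)) φ ≠ 0) :
    ∃ (n : ℕ) (τ : Representation ℂ G (Fin n → ℂ)), τ.IsIrreducible ∧ τ.character = φ ∧
      Sm (Loc M) τ (Subgroup.zpowers u) := by
  obtain ⟨n, τ, hτ, rfl⟩ := hφ
  obtain ⟨m, ρ, rfl⟩ := hχ
  refine ⟨n, τ, hτ, rfl, ?_⟩
  have h1 : (ρ.character * fun g => conj (ρ.character g)) = (ρ.linHom ρ).character := by
    ext g
    rw [Representation.char_linHom, (isCharacter_of_rep ρ).apply_inv, Pi.mul_apply, mul_comm]
  rw [h1, (isCharacter_of_rep _).classInner_comm (isCharacter_of_rep _), classInner_character,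
    Nat.cast_ne_zero, ← Nat.pos_iff_ne_zero, Module.finrank_pos_iff_exists_ne_zero] at h
  obtain ⟨T, hT⟩ := h
  refine (sm_linHom ρ hu (by simpa [charDegree, Representation.char_one] using hd)).map
    T.toLinearMap ?_ fun g y => T.isIntertwining _ _ g y
  rcases ((isIrreducible_iff τ).1 hτ).2 (LinearMap.range T.toLinearMap) (by
    rintro g _ ⟨y, rfl⟩
    exact ⟨_, T.isIntertwining _ _ g y⟩) with h | h
  · exact absurd (Representation.IntertwiningMap.ext (LinearMap.range_eq_bot.1 h)) hT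
  · exact LinearMap.range_eq_top.1 h

omit hM in
theorem Sm.fix_char [Fintype G] [FiniteDimensional ℂ W] [τ.IsIrreducible] (h : Sm R τ P)
    (h1 : τ.character ≠ fun _ => 1) {N : Subgroup G} [Fintype N] (hP : P ≤ N)
    (hT : ∀ x ∈ P, x ≠ 1 → ∀ g, g * x * g⁻¹ ∈ N → g ∈ N) :
    classInner (fun n : N => τ.character n) (fun _ => 1) = 0 := by
  have a1 := sum_smul_rep_eq_scalar τ (isClassFunction_const 1)
  have a2 := (isIrr_of_rep τ).classInner_of_ne isIrr_one h1
  rw [classInner_one_right, mul_eq_zero, inv_eq_zero, or_iff_right (natCard_ne_zero G)] at a2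
  simp only [one_smul, one_mul, a2, zero_div, zero_smul] at a1
  have a3 := congrArg (LinearMap.trace ℂ W) (h.fix a1 hP hT)
  rw [map_sum, map_zero] at a3
  rw [classInner_one_right]
  exact mul_eq_zero_of_right _ a3

theorem Sm.dich [Fintype G] [FiniteDimensional ℂ W] [τ.IsIrreducible] {u : G} (hu : orderOf u = p)
    [Fintype (Subgroup.zpowers u)] (h : Sm (Loc M) τ (Subgroup.zpowers u)) {V : Subgroup G} [Fintype V]
    (hV : ¬ p ∣ Nat.card V) (hc : ∀ v ∈ V, u * v = v * u)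
    (hm : ∀ g, ¬ p ∣ orderOf g → u * g = g * u → g ∈ V) :
    (∀ v ∈ V, τ.character v = τ.character 1) ∨
      classInner (fun v : V => τ.character v) (fun _ => 1) = 0 := by
  classical
  have hp := PMod.prime M
  obtain ⟨Y, h1, h2, h3, h4⟩ := h
  let ψ : G → ℂ := fun g => if ∃ x, x * g * x⁻¹ ∈ V then 1 else 0
  have hcj : ∀ y g, (∃ x, x * (y * g * y⁻¹) * x⁻¹ ∈ V) ↔ ∃ x, x * g * x⁻¹ ∈ V := fun y g =>
    ⟨fun ⟨x, hx⟩ => ⟨x * y, by simpa [mul_assoc] using hx⟩,
      fun ⟨x, hx⟩ => ⟨x * y⁻¹, by simpa [mul_assoc] using hx⟩⟩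
  have hψ : IsClassFunction G ψ := fun g y => by simp only [ψ, hcj]
  have a1 := sum_smul_rep_eq_scalar τ hψ
  have a2 := mem_Loc_of_isIntegral (M := M) ((isIrr_of_rep τ).isIntegral_central hψ fun g => by
    simp only [ψ]; split_ifs; exacts [isIntegral_one, isIntegral_zero])
  set a := (∑ g, ψ g * τ.character g) / τ.character 1
  set T := Finset.univ.filter fun g => (∃ x, x * g * x⁻¹ ∈ V) ∧ g ∉ V with hT
  set π : End ℂ W := ∑ v : V, τ v with hπ
  have a3 : ∑ t ∈ T, τ t = a • (1 : End ℂ W) - π := by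
    rw [eq_sub_iff_add_eq, hπ, ← Finset.sum_subtype (p := (· ∈ V)) (Finset.univ.filter (· ∈ V)) (by simp)
      fun g => τ g, hT, Finset.sum_filter, Finset.sum_filter, ← Finset.sum_add_distrib]
    refine Eq.trans (Finset.sum_congr rfl fun g _ => ?_) a1
    by_cases hg : g ∈ V
    · have : ∃ x, x * g * x⁻¹ ∈ V := ⟨1, by simpa using hg⟩
      simp [ψ, hg, this]
    · by_cases h : ∃ x, x * g * x⁻¹ ∈ V <;> simp [ψ, hg, h]
  have hπv : ∀ v : V, τ v * π = π := fun v => by
    rw [hπ, Finset.mul_sum, ← Equiv.sum_comp (Equiv.mulLeft v) fun v : V => τ v]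
    simp
  have hππ : π * π = (Nat.card V : ℂ) • π := by
    rw [show π * π = ∑ v : V, τ v * π from Finset.sum_mul _ _ _]
    simp [hπv, Nat.cast_smul_eq_nsmul]
  have hV0 := natCard_ne_zero V
  set w : End ℂ W := (Nat.card V : ℂ)⁻¹ • π with hw
  have hws : w ∈ St Y := St.smul ⟨_, inv_natCast_mem_Loc hV⟩ (sum_mem fun v _ => h3 v)
  have hww : w * w = w := by
    rw [hw, smul_mul_smul_comm, hππ, smul_smul, mul_assoc, inv_mul_cancel₀ hV0, mul_one]
  have hπw : π = (Nat.card V : ℂ) • w := by rw [hw, smul_smul, mul_inv_cancel₀ hV0, one_smul]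
  have hwu : τ u * w = w * τ u := by
    rw [hw, mul_smul_comm, smul_mul_assoc, hπ, Finset.mul_sum, Finset.sum_mul]
    congr 1
    exact Finset.sum_congr rfl fun v _ => by rw [← map_mul, ← map_mul, hc v v.2]
  have cu : ∀ x ∈ Subgroup.zpowers u, ∀ v ∈ V, x * v = v * x := fun x hx v hv => by
    obtain ⟨k, rfl⟩ := hx
    exact ((show Commute u v from hc v hv).zpow_left k).eq
  have hT1 : ∀ x ∈ Subgroup.zpowers u, ∀ t ∈ T, x * t * x⁻¹ ∈ T := fun x hx t ht => by
    simp only [hT, Finset.mem_filter, Finset.mem_univ, true_and] at ht ⊢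
    refine ⟨(hcj x t).2 ht.1, fun h => ht.2 ?_⟩
    have := cu x hx _ h
    rw [inv_mul_cancel_right, mul_right_inj] at this
    rwa [← this]
  have hT2 : ∀ x ∈ Subgroup.zpowers u, ∀ t ∈ T, x * t * x⁻¹ = t → x = 1 := fun x hx t ht h => by
    simp only [hT, Finset.mem_filter, Finset.mem_univ, true_and] at ht
    by_contra hx1
    obtain ⟨⟨y, hy⟩, h5⟩ := ht
    refine h5 (hm t (fun h6 => hV (h6.trans ?_)) ?_)
    · rw [← (MulAut.conj y).orderOf_eq t]
      exact V.orderOf_dvd_natCard hy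
    · haveI := Fact.mk hp
      have b1 : Subgroup.zpowers x = Subgroup.zpowers u := by
        refine Subgroup.eq_of_le_of_card_ge (Subgroup.zpowers_le.2 hx) ?_
        have b0 : orderOf x ∣ p := hu ▸ orderOf_dvd_of_mem_zpowers hx
        rw [Nat.card_zpowers, Nat.card_zpowers, hu, ((Nat.dvd_prime hp).1 b0).resolve_left
          (by simpa using hx1)]
      obtain ⟨k, hk⟩ : u ∈ Subgroup.zpowers x := b1 ▸ Subgroup.mem_zpowers u
      rw [← hk]
      exact ((show Commute x t from mul_inv_eq_iff_eq_mul.1 h).zpow_left k).eq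
  have hup : u ^ p = 1 := hu ▸ pow_orderOf_eq_one u
  by_cases hun : IsUnit (⟨a, a2⟩ : Loc M)
  · left
    have b1 := eq_zero_of_span h2 (kill hp p_mem hup rfl h1 h3 h4 (sub_mem (one_mem _) hws)
      (by rw [mul_sub, sub_mul, sub_mul, hww]; simp) (by rw [mul_sub, sub_mul, hwu]; simp) T hT1 hT2
      hun.unit (by
        rw [a3, hπw]
        simp only [mul_sub, sub_mul, mul_smul_comm, smul_mul_assoc, mul_one, one_mul, hww,
          IsUnit.unit_spec, smul_sub, sub_self, smul_zero, sub_zero]))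
    intro v hv
    rw [character_eq_one_iff]
    have b2 : w = 1 := (sub_eq_zero.1 b1).symm
    have := hπv ⟨v, hv⟩
    rw [hπw, b2, mul_smul_comm, mul_one] at this
    exact smul_right_injective _ hV0 this
  · right
    have hun' : IsUnit ((⟨a, a2⟩ : Loc M) - Nat.card V) := by
      rw [isUnit_Loc_iff] at hun ⊢
      intro h5
      refine hV ((InP_natCast_iff (M := M) _).1 ?_)
      simpa using InP.sub (not_not.1 hun) h5
    have b1 := eq_zero_of_span h2 (kill hp p_mem hup rfl h1 h3 h4 hws hww hwu T hT1 hT2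
      hun'.unit (by
        rw [a3, hπw]
        simp only [mul_sub, sub_mul, mul_smul_comm, smul_mul_assoc, mul_one, hww,
          IsUnit.unit_spec, ← sub_smul]
        simp))
    have b2 := congrArg (LinearMap.trace ℂ W) hπw
    rw [b1, smul_zero, map_zero, hπ, map_sum] at b2
    rw [classInner_one_right]
    exact mul_eq_zero_of_right _ b2

end CfsgH4.Sml
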