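import Cfsg.Agent.H4.Sml
import Cfsg.Agent.H4.Br4

/-! Brauer's theorem on linear groups of degree at most `(p - 1) / 2`. -/

set_option autoImplicit false
open Cfsg MonoidAlgebra CfsgL0 CfsgH1 CfsgH4
open CfsgH3 hiding cj cj_cj
open scoped ComplexConjugate Pointwise

namespace CfsgH4.Sml

local notation "C[" Q "]" => Subgroup.centralizer (SetLike.coe (Q : Subgroup _))
local notation "N[" Q "]" => Subgroup.normalizer (SetLike.coe (Q : Subgroup _))
local notation "Z[" u "]" => Subgroup.zpowers u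
local notation "C1[" u "]" => Subgroup.centralizer (singleton u)

variable {G : Type*} [Group G] [Finite G] {p : ℕ} [hp : Fact p.Prime] {u : G} {χ : G → ℂ}

theorem isIrr_res_of (hχ : IsIrrCharacter G χ) [Fintype G] (H : Subgroup G) [Fintype H]
    (h : ∀ φ, IsIrrCharacter G φ → (φ ≠ fun _ => 1) → classInner (χ * fun g => conj (χ g)) φ ≠ 0 →
      classInner (fun x : H => φ x) (fun _ => 1) = 0) : IsIrrCharacter H fun x : H => χ x := by
  refine (hχ.isCharacter.restrict H).isIrr_of_inner_eq_one ?_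
  obtain ⟨k, hk, hks⟩ := (hχ.isCharacter.mul hχ.isCharacter.conj).exists_eq_sum_irr
  have a1 : ((fun x : H => χ x) * fun x : H => conj (χ x)) =
      ∑ φ : IrrCharacter G, (k φ : ℂ) • fun c : H => φ.1 c := by
    ext u
    have := congrFun hks u
    simpa using this
  rw [← BL.norm_eq_triv, a1, classInner_sum_left, Finset.sum_eq_single ⟨_, isIrr_one⟩,
    classInner_smul_left, isIrr_one.classInner_self, ← hk, mul_one, BL.norm_eq_triv, hχ.classInner_self]
  · intro φ _ hφ
    rw [classInner_smul_left]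
    by_cases h0 : k φ = 0
    · simp [h0]
    · rw [h φ φ.2 (fun h => hφ (Subtype.ext h)) (by rw [hk]; exact_mod_cast h0), mul_zero]
  · simp

theorem mem_of_ord (hs : ¬ p ∣ (Z[u]).index) {x : G} (hx : x ∈ N[Z[u]]) (ho : orderOf x = p) :
    x ∈ Z[u] := by
  haveI : ((Z[u]).subgroupOf N[Z[u]]).Normal := Subgroup.normal_in_normalizer
  have : orderOf (⟨x, hx⟩ : N[Z[u]]) = p := by rw [← Subgroup.orderOf_coe]; exact ho
  obtain ⟨g, hg⟩ := Jor.exists_conj_mem (H := (Z[u]).subgroupOf N[Z[u]]) hp.out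
    (fun h => hs (h.trans (Subgroup.relIndex_dvd_index_of_le Subgroup.le_normalizer))) this
  have := Subgroup.Normal.conj_mem inferInstance _ hg g⁻¹
  simpa [mul_assoc, Subgroup.mem_subgroupOf] using this

theorem isIrr_resN (hu : orderOf u = p) (hs : ¬ p ∣ (Z[u]).index) (hχ : IsIrrCharacter G χ)
    (hd : 2 * charDegree χ + 1 ≤ p) : IsIrrCharacter N[Z[u]] fun x : N[Z[u]] => χ x := by
  haveI := Fintype.ofFinite G
  haveI := Fintype.ofFinite N[Z[u]]
  haveI := Fintype.ofFinite Z[u]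
  obtain ⟨M, hM⟩ := exists_pmod p
  obtain ⟨e, X, y, ε, δ, h⟩ := exists_pb (M := M) hu hs
  refine isIrr_res_of hχ _ fun φ hφ h1 h2 => ?_
  obtain ⟨n, τ, hτ, rfl, hS⟩ := exists_sm (M := M) hχ.isCharacter hu hd hφ h2
  refine hS.fix_char h1 Subgroup.le_normalizer fun x hx x1 g hg => h.mem_norm hx x1 (mem_of_ord hs hg ?_)
  rw [← dvd_ord_of_mem hu hx x1]
  exact (MulAut.conj g).orderOf_eq x

theorem comm_ker (hχ : IsIrrCharacter G χ) {H : Subgroup G} (h : IsIrrCharacter H fun x : H => χ x)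
    (hu : u ∈ H) (hc : ∀ x ∈ H, x * u = u * x) (g : G) : χ (g * u * g⁻¹ * u⁻¹) = χ 1 := by
  have := h.norm_apply_of_mem_center (z := ⟨u, hu⟩)
    (Subgroup.mem_center_iff.2 fun x => Subtype.ext (hc x x.2))
  exact hχ.isCharacter.mem_charKer.1
    (hχ.isCharacter.commutator_mem_charKer (hχ.isCharacter.mem_charCenter.2 this) g)

omit hp in
theorem eq_of_const (hχ : IsCharacter G χ) {g : G}
    (h : ∀ ψ, IsIrrCharacter G ψ → charDegree ψ ≤ charDegree χ → (∀ x, χ x = χ 1 → ψ x = ψ 1) →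
      ψ g = ψ 1) : χ g = χ 1 := by
  haveI := Fintype.ofFinite G
  obtain ⟨m, hm, he⟩ := hχ.exists_eq_sum_irr
  rw [he]
  simp only [Finset.sum_apply, Pi.smul_apply, smul_eq_mul]
  refine Finset.sum_congr rfl fun φ _ => ?_
  by_cases h0 : m φ = 0
  · simp [h0]
  have a : classInner χ φ.1 ≠ 0 := by rw [hm]; exact_mod_cast h0
  rw [h φ φ.2 (hχ.degree_le_of_constituent φ.2 a (coe_charDegree φ.2.isCharacter).symm
    (coe_charDegree hχ).symm) fun x hx => hχ.apply_eq_of_constituent φ.2 a hx]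

theorem center_of_norm (hu : orderOf u = p) (hs : ¬ p ∣ (Z[u]).index) (hχ : IsCharacter G χ)
    (hf : ∀ g, χ g = χ 1 → g = 1) (hd : 2 * charDegree χ + 1 ≤ p)
    (hN : ∀ x ∈ N[Z[u]], x * u = u * x) : u ∈ Subgroup.center G := by
  rw [Subgroup.mem_center_iff]
  intro g
  have := hf _ (eq_of_const hχ (g := g * u * g⁻¹ * u⁻¹) fun ψ hψ h1 _ =>
    comm_ker hψ (isIrr_resN hu hs hψ (by omega)) (Subgroup.le_normalizer (Subgroup.mem_zpowers u)) hN g)
  rwa [mul_inv_eq_one, mul_inv_eq_iff_eq_mul] at this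

theorem cent_of_normal (hu : orderOf u = p) (hs : ¬ p ∣ (Z[u]).index) (hχ : IsCharacter G χ)
    (hf : ∀ g, χ g = χ 1 → g = 1) (hd : 2 * charDegree χ + 1 ≤ p) {K : Subgroup G} [hK : K.Normal]
    (h : ¬ p ∣ Nat.card K) : ∀ k ∈ K, k * u = u * k := by
  set L := K ⊔ Z[u] with hL
  have huL : u ∈ L := Subgroup.mem_sup_right (Subgroup.mem_zpowers u)
  have a1 : Z[(⟨u, huL⟩ : L)] = (Z[u]).subgroupOf L := by
    ext x
    simp only [Subgroup.mem_subgroupOf, Subgroup.mem_zpowers_iff, Subtype.ext_iff,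
      SubgroupClass.coe_zpow]
  have a2 := center_of_norm (G := L) (u := ⟨u, huL⟩) (by rw [← Subgroup.orderOf_coe]; exact hu)
    (by rw [a1]; exact fun h => hs (h.trans (Subgroup.relIndex_dvd_index_of_le le_sup_right)))
    (hχ.restrict L) (fun g hg => Subtype.ext (hf g hg)) hd fun x hx => by
      rw [a1] at hx
      have b1 : (x : G) * u * (x : G)⁻¹ ∈ Z[u] := (hx ⟨u, huL⟩).1 (Subgroup.mem_zpowers u)
      obtain ⟨k, hk, z, hz, e⟩ := Subgroup.mem_sup_of_normal_left.1 x.2
      obtain ⟨j, rfl⟩ := hz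
      have b2 : (x : G) * u * (x : G)⁻¹ * u⁻¹ ∈ K := by
        rw [← e, show k * u ^ j * u * (k * u ^ j)⁻¹ * u⁻¹ = k * (u * k⁻¹ * u⁻¹) by group]
        exact mul_mem hk (hK.conj_mem _ (inv_mem hk) u)
      have b3 : (x : G) * u * (x : G)⁻¹ * u⁻¹ = 1 := by
        by_contra b3
        exact h (dvd_ord_of_mem hu (mul_mem b1 (inv_mem (Subgroup.mem_zpowers u))) b3 ▸
          K.orderOf_dvd_natCard b2)
      rw [mul_inv_eq_one, mul_inv_eq_iff_eq_mul] at b3
      exact Subtype.ext b3
  intro k hk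
  exact congrArg Subtype.val (Subgroup.mem_center_iff.1 a2 ⟨k, Subgroup.mem_sup_left hk⟩)

theorem exists_V (hu : orderOf u = p) (hs : ¬ p ∣ (Z[u]).index) : ∃ V : Subgroup G, ¬ p ∣ Nat.card V ∧
    (∀ v ∈ V, u * v = v * u) ∧ (∀ g, ¬ p ∣ orderOf g → u * g = g * u → g ∈ V) ∧
    ∀ g, u * g = g * u → ∃ v ∈ V, ∃ x ∈ Z[u], v * x = g := by
  have hZ : IsPGroup p Z[u] := IsPGroup.of_card (n := 1) (by rw [Nat.card_zpowers, hu, pow_one])
  have hle : ((hZ.toSylow hs : Sylow p G) : Subgroup G) ≤ C1[u] :=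
    Subgroup.zpowers_le.2 (Subgroup.mem_centralizer_singleton_iff.2 rfl)
  set P := (hZ.toSylow hs).subtype hle with hP
  have hc : N[(P : Subgroup C1[u])] ≤ C[(P : Subgroup C1[u])] := fun g _ x hx => by
    obtain ⟨k, hk⟩ : (x : G) ∈ Z[u] := hx
    apply Subtype.ext
    show (x : G) * g = g * x
    rw [← hk]
    exact ((show Commute (g : G) u from Subgroup.mem_centralizer_singleton_iff.1 g.2).zpow_right k).symm.eq
  refine ⟨(MonoidHom.transferSylow P hc).ker.map (C1[u]).subtype, ?_, ?_, fun g h1 h2 => ?_,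
    fun g h2 => ?_⟩
  · rw [Subgroup.card_map_of_injective (Subgroup.subtype_injective _)]
    exact MonoidHom.not_dvd_card_ker_transferSylow P hc
  · rintro _ ⟨v, -, rfl⟩
    exact (Subgroup.mem_centralizer_singleton_iff.1 v.2).symm
  · refine ⟨⟨g, Subgroup.mem_centralizer_singleton_iff.2 h2.symm⟩, ?_, rfl⟩
    show MonoidHom.transferSylow P hc _ = 1
    obtain ⟨k, hk⟩ := P.isPGroup' (MonoidHom.transferSylow P hc
      ⟨g, Subgroup.mem_centralizer_singleton_iff.2 h2.symm⟩)
    rw [← orderOf_eq_one_iff]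
    refine Nat.eq_one_of_dvd_coprimes (Nat.Coprime.pow_left _ ((Nat.Prime.coprime_iff_not_dvd hp.out).2 h1))
      (orderOf_dvd_of_pow_eq_one hk) ((orderOf_map_dvd _ _).trans ?_)
    rw [Subgroup.orderOf_mk]
  · obtain ⟨⟨v, x⟩, hx⟩ := (MonoidHom.ker_transferSylow_isComplement' P hc).existsUnique
      ⟨g, Subgroup.mem_centralizer_singleton_iff.2 h2.symm⟩
    exact ⟨_, ⟨v, v.2, rfl⟩, _, x.2, congrArg Subtype.val hx.1⟩

theorem mem_of_dvd (hu : orderOf u = p) (hs : ¬ p ∣ (Z[u]).index) {K : Subgroup G} [K.Normal]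
    (h : p ∣ Nat.card K) : u ∈ K := by
  obtain ⟨M, hM⟩ := exists_pmod p
  obtain ⟨e, X, y, ε, δ, h1⟩ := exists_pb (M := M) hu hs
  exact h1.le_of_dvd h (Subgroup.mem_zpowers u)

/-- the centralizer of `u` is `⟨u⟩ Z(G)` -/
theorem cent_eq (hu : orderOf u = p) (hs : ¬ p ∣ (Z[u]).index) (hχ : IsIrrCharacter G χ)
    (hf : ∀ g, χ g = χ 1 → g = 1) (hd : 2 * charDegree χ + 1 ≤ p) (hn : u ∉ Subgroup.center G)
    (hK : ∀ K : Subgroup G, K.Normal → u ∈ K → IsIrrCharacter K fun x : K => χ x) :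
    ∀ g, u * g = g * u → ∃ v ∈ Subgroup.center G, ∃ x ∈ Z[u], v * x = g := by
  haveI := Fintype.ofFinite G
  haveI := Fintype.ofFinite Z[u]
  obtain ⟨V, h1, h2, h3, h4⟩ := exists_V hu hs
  haveI := Fintype.ofFinite V
  obtain ⟨M, hM⟩ := exists_pmod p
  have cen : ∀ {H : Subgroup G} {x : G}, (IsIrrCharacter H fun x : H => χ x) →
      (∀ y ∈ H, y * x = x * y) → x ∈ Subgroup.center G := fun {H x} a b => by
    rw [Subgroup.mem_center_iff]
    intro g
    have c : IsIrrCharacter C1[x] fun y : C1[x] => χ y :=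
      (hχ.isCharacter.restrict C1[x]).isIrr_of_comp (Subgroup.inclusion fun y hy =>
        Subgroup.mem_centralizer_singleton_iff.2 (b y hy)) a
    have := hf _ (comm_ker hχ c (Subgroup.mem_centralizer_singleton_iff.2 rfl)
      (fun y hy => Subgroup.mem_centralizer_singleton_iff.1 hy) g)
    rwa [mul_inv_eq_one, mul_inv_eq_iff_eq_mul] at this
  obtain ⟨φ, hφ, a1, a2, a3⟩ : ∃ φ, IsIrrCharacter G φ ∧ (φ ≠ fun _ => 1) ∧
      classInner (χ * fun g => conj (χ g)) φ ≠ 0 ∧ classInner (fun x : V => φ x) (fun _ => 1) ≠ 0 := by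
    by_contra hc
    push Not at hc
    exact hn (cen (isIrr_res_of hχ V hc) fun y hy => (h2 y hy).symm)
  obtain ⟨n, τ, hτ, rfl, hS⟩ := exists_sm (M := M) hχ.isCharacter hu hd hφ a2
  have a4 := (hS.dich hu h1 h2 h3).resolve_right a3
  haveI := hφ.isCharacter.charKer_normal
  have a5 : ¬ p ∣ Nat.card (charKer τ.character) := fun h => by
    haveI := Fintype.ofFinite (charKer τ.character)
    have b1 := (hK _ inferInstance (mem_of_dvd hu hs h)).classInner_self
    have hw := hχ.isCharacter.mul hχ.isCharacter.conj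
    obtain ⟨k, hk⟩ := hw.exists_nat_classInner isCharacter_one
    have b2 := (hw.sub_of_constituent hφ a2).sub_of_constituent isIrr_one (by
      rw [classInner_sub_left, hφ.classInner_of_ne isIrr_one a1, BL.norm_eq_triv, hχ.classInner_self]
      norm_num)
    obtain ⟨j, hj⟩ := (b2.restrict (charKer τ.character)).exists_nat_classInner isCharacter_one
    have b3 : (fun x : charKer τ.character => ((χ * fun g => conj (χ g)) - τ.character - fun _ => 1 : G → ℂ) x) =
        ((fun x : charKer τ.character => χ x) * fun x : charKer τ.character => conj (χ x)) -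
          (τ.character 1 + 1) • fun _ => 1 := by
      ext x
      simp [hφ.isCharacter.mem_charKer.1 x.2, sub_sub]
    rw [b3, classInner_sub_left, BL.norm_eq_triv, b1, classInner_smul_left, isIrr_one.classInner_self,
      ← coe_charDegree hφ.isCharacter] at hj
    have b4 : ((j + charDegree τ.character : ℕ) : ℂ) = 0 := by push_cast; linear_combination -hj
    have := charDegree_pos hφ
    have := Nat.cast_eq_zero.1 b4
    omega
  have a6 := cent_of_normal hu hs hχ.isCharacter hf hd a5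
  have a7 := hK C[charKer τ.character] inferInstance fun k hk => a6 k hk
  intro g hg
  obtain ⟨v, hv, x, hx, e⟩ := h4 g hg
  exact ⟨v, cen a7 fun y hy => (hy v (hφ.isCharacter.mem_charKer.2 (a4 v hv))).symm, x, hx, e⟩

omit hp in
theorem deg_le_norm [Fintype G] (hχ : IsCharacter G χ) (h : ∀ a b : G, a * b = b * a) :
    ∃ k : ℕ, classInner χ χ = k ∧ charDegree χ ≤ k := by
  obtain ⟨m, hm, he⟩ := hχ.exists_eq_sum_irr
  refine ⟨∑ φ, m φ * m φ, ?_, ?_⟩
  · rw [hχ.isClassFunction.classInner_eq_sum_irr]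
    push_cast
    exact Finset.sum_congr rfl fun φ _ => by rw [φ.2.isCharacter.classInner_comm hχ, hm]
  · have : χ 1 = (∑ φ, m φ : ℕ) := by
      rw [he]; simp [fun φ : IrrCharacter G => φ.2.apply_one_of_comm h]
    rw [charDegree_eq this]
    exact Finset.sum_le_sum fun φ _ => Nat.le_mul_self _

omit hp [Finite G] in
theorem triv_surj {H : Type*} [Group H] [Fintype G] [Fintype H] {a : H → ℂ} (ha : IsCharacter H a)
    (f : G →* H) (hf : Function.Surjective f) :
    classInner (fun g => a (f g)) (fun _ => 1) = classInner a fun _ => 1 := by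
  refine ha.induction_on (P := fun a => classInner (fun g => a (f g)) (fun _ => 1) =
    classInner a fun _ => 1) (by simp [classInner]) (fun ψ hψ => ?_) fun a b ha hb => ?_
  · by_cases h : ψ = fun _ => 1
    · subst h; rw [isIrr_one.classInner_self, isIrr_one.classInner_self]
    · rw [hψ.classInner_of_ne isIrr_one h, (hψ.comp_of_surjective f hf).classInner_of_ne isIrr_one]
      intro h2
      refine h (funext fun x => ?_)
      obtain ⟨g, rfl⟩ := hf x
      exact congrFun h2 g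
  · rw [classInner_add_left, ← ha, ← hb, ← classInner_add_left]
    rfl

theorem ineq {M : Ideal AlgInt} [PMod p M] [Fintype G] {e : ℕ} {X : Finset (IrrCharacter G)}
    {y : (Z[u] →* ℂˣ) → IrrCharacter G} {ε : IrrCharacter G → ℤ} {δ : ℤ} (h : PB M p u e X y ε δ)
    (hC : C[Z[u]] = Z[u]) (hc : commutator G = ⊤) {φ : IrrCharacter G} (hφ : φ ≠ irrOne G) {l : ℕ}
    (hl : φ.1 1 + sS u φ.1 = orderOf u * l) : (p + 1) * l ≤ 2 * charDegree φ.1 := by
  have a1 := charDegree_pos φ.2
  have a2 := mt (eq_one_of_deg hc) hφ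
  have a3 := h.cardY
  have a4 := h.pos'
  have a5 := h.pos
  rw [h.ord, ← coe_deg] at hl
  have b6 : (charDegree φ.1 : ℤ) + (p - 1) = p * l ∨ (charDegree φ.1 : ℤ) - (p - 1) = p * l ∨
      (charDegree φ.1 : ℤ) + e = p * l ∨ (charDegree φ.1 : ℤ) - e = p * l ∨ charDegree φ.1 = p * l := by
    by_cases c : φ ∈ X
    · rw [h.sX c] at hl
      rcases h.sgn φ with e | e <;> rw [e] at hl
      · exact .inl (Int.cast_injective (α := ℂ) (by push_cast at hl ⊢; linear_combination hl))
      · exact .inr (.inl (Int.cast_injective (α := ℂ) (by push_cast at hl ⊢; linear_combination hl)))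
    by_cases d : φ ∈ exc y
    · rw [h.sY d] at hl
      rcases h.sgn' with e | e <;> rw [e] at hl
      · exact .inr (.inr (.inl (Int.cast_injective (α := ℂ) (by push_cast at hl ⊢; linear_combination hl))))
      · exact .inr (.inr (.inr (.inl
          (Int.cast_injective (α := ℂ) (by push_cast at hl ⊢; linear_combination hl)))))
    · rw [h.sOut hC c d, add_zero] at hl
      exact .inr (.inr (.inr (.inr (by exact_mod_cast hl))))
  have a6 : e + 1 = p ∨ 2 * e + 1 ≤ p := by
    rcases Nat.eq_or_lt_of_le a4 with h | h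
    · left; rw [← a3, ← h]; simp
    · right; nlinarith
  generalize charDegree φ.1 = d at *
  rcases l with _ | _ | j
  · omega
  · omega
  · zify
    have : (e : ℤ) + 1 ≤ p := by omega
    rcases b6 with e | e | e | e | e <;> push_cast at e ⊢ <;> nlinarith

theorem main (hu : orderOf u = p) (hs : ¬ p ∣ (Z[u]).index)
    (hg : ∀ K : Subgroup G, K.Normal → u ∈ K → K = ⊤) (hχ : IsIrrCharacter G χ)
    (hf : ∀ g, χ g = χ 1 → g = 1) (hd : 2 * charDegree χ + 1 < p) : u ∈ Subgroup.center G := by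
  classical
  by_contra hn
  have hc : commutator G = ⊤ := by
    by_cases h : p ∣ Nat.card (commutator G)
    · exact hg _ inferInstance (mem_of_dvd hu hs h)
    have a := cent_of_normal hu hs hχ.isCharacter hf hd.le h
    have b := hg (commutator G ⊔ Z[u]) (Subgroup.Normal.of_commutator_le _ le_sup_left)
      (Subgroup.mem_sup_right (Subgroup.mem_zpowers u))
    refine absurd (Subgroup.mem_center_iff.2 fun g => ?_) hn
    obtain ⟨k, hk, _, ⟨j, rfl⟩, rfl⟩ := Subgroup.mem_sup_of_normal_left.1 (b ▸ Subgroup.mem_top g)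
    exact ((show Commute k u from a k hk).mul_left (Commute.zpow_left rfl j)).eq
  have hC := cent_eq hu hs hχ hf hd.le hn fun K h1 h2 => by
    rw [hg K h1 h2]
    exact hχ.comp_equiv Subgroup.topEquiv
  have hZ : ¬ p ∣ Nat.card (Subgroup.center G) := fun h => hn (mem_of_dvd hu hs h)
  obtain ⟨q1, q2⟩ := quot_syl hu hs _ hZ
  obtain ⟨M, hM⟩ := exists_pmod p
  obtain ⟨e, X, y, ε, δ, h⟩ := exists_pb (M := M) q1 q2
  have hC' : C[Z[(u : G ⧸ Subgroup.center G)]] = Z[(u : G ⧸ Subgroup.center G)] := by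
    refine le_antisymm (fun g hg => ?_)
      (Subgroup.le_centralizer_iff_isMulCommutative.2 (inferInstanceAs (IsMulCommutative Z[_])))
    obtain ⟨g, rfl⟩ := QuotientGroup.mk_surjective g
    have a1 := QuotientGroup.eq.1 (hg _ (Subgroup.mem_zpowers _))
    set z := (u * g)⁻¹ * (g * u) with hz
    have a2 : g * u * g⁻¹ = u * z := by
      rw [show g * u * g⁻¹ = u * (g * z * g⁻¹) by rw [hz]; group, Subgroup.mem_center_iff.1 a1 g]; group
    have a3 : z ^ p = 1 := by
      have := congrArg (· ^ p) a2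
      simp only [conj_pow] at this
      rw [(show Commute u z from Subgroup.mem_center_iff.1 a1 u).mul_pow, ← hu, pow_orderOf_eq_one] at this
      simpa [hu] using this.symm
    have a4 : z = 1 := by
      rcases (Nat.dvd_prime hp.out).1 (orderOf_dvd_of_pow_eq_one a3) with a | a
      · exact orderOf_eq_one_iff.1 a
      · exact absurd (a ▸ Subgroup.orderOf_dvd_natCard _ a1) hZ
    obtain ⟨v, hv, _, ⟨j, rfl⟩, rfl⟩ := hC g (inv_mul_eq_one.1 a4)
    rw [QuotientGroup.mk_mul, (QuotientGroup.eq_one_iff v).2 hv, one_mul]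
    exact ⟨j, rfl⟩
  have hc' : commutator (G ⧸ Subgroup.center G) = ⊤ := by
    rw [commutator_def, ← Subgroup.map_top_of_surjective _ (QuotientGroup.mk'_surjective _),
      ← Subgroup.map_commutator, ← commutator_def, hc]
  haveI := Fintype.ofFinite (G ⧸ Subgroup.center G)
  haveI := Fintype.ofFinite G
  haveI := Fintype.ofFinite Z[u]
  haveI := Fintype.ofFinite Z[(u : G ⧸ Subgroup.center G)]
  obtain ⟨w, hw, -, hw1⟩ := (hχ.isCharacter.mul hχ.isCharacter.conj).exists_deflation
    (Subgroup.center G) fun z hz => by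
      simp only [Pi.mul_apply, Complex.mul_conj, Complex.normSq_eq_norm_sq,
        hχ.norm_apply_of_mem_center hz]
  obtain ⟨k, l, h1, h2, h3, h4⟩ := exists_decomp hw (u : G ⧸ Subgroup.center G)
  have h5 : k (irrOne _) = 1 := by
    have := (h1 (irrOne _)).symm.trans
      (triv_surj hw (QuotientGroup.mk' _) (QuotientGroup.mk'_surjective _)).symm
    simp only [QuotientGroup.mk'_apply, hw1] at this
    rw [BL.norm_eq_triv, hχ.classInner_self] at this
    exact_mod_cast this
  have h6 : l (irrOne _) = 1 := by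
    have := h2 (irrOne _)
    rw [h.sX h.one, h.eps_one, q1] at this
    exact_mod_cast mul_left_cancel₀ (Nat.cast_ne_zero.2 hp.out.ne_zero)
      (show (p : ℂ) * l _ = p * 1 by rw [← this]; simp [irrOne])
  obtain ⟨L, hL, hL2⟩ := deg_le_norm (hχ.isCharacter.restrict Z[u])
    fun a b => (inferInstance : IsMulCommutative Z[u]).is_comm.comm a b
  have h7 := triv_surj (hw.restrict Z[(u : G ⧸ Subgroup.center G)])
    (((QuotientGroup.mk' _).comp (Z[u]).subtype).codRestrict _ (by
      rintro ⟨_, j, rfl⟩; exact ⟨j, rfl⟩)) (by rintro ⟨_, j, rfl⟩; exact ⟨⟨_, j, rfl⟩, rfl⟩)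
  simp only [MonoidHom.codRestrict_apply, MonoidHom.comp_apply, QuotientGroup.mk'_apply, hw1,
    Subgroup.coe_subtype] at h7
  rw [show (fun g : Z[u] => (χ * fun g => conj (χ g)) g) =
    (fun g : Z[u] => χ g) * fun g : Z[u] => conj (χ g) from rfl, BL.norm_eq_triv, hL,
    classInner_one_right, ← sS_eq, h4, Nat.card_zpowers, ← mul_assoc,
    inv_mul_cancel₀ (Nat.cast_ne_zero.2 (orderOf_pos _).ne'), one_mul, Nat.cast_inj,
    ← Finset.add_sum_erase _ _ (Finset.mem_univ (irrOne _)), h5, h6] at h7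
  rw [← QuotientGroup.mk_one, hw1, Pi.mul_apply, conj_apply_one hχ.isCharacter,
    ← coe_charDegree hχ.isCharacter, ← Nat.cast_mul, Nat.cast_inj,
    ← Finset.add_sum_erase _ _ (Finset.mem_univ (irrOne _)), h5, deg_irrOne] at h3
  have d5 := Finset.sum_le_sum (s := Finset.univ.erase (irrOne (G ⧸ Subgroup.center G)))
    (f := fun φ => (p + 1) * (k φ * l φ)) (g := fun φ => 2 * (k φ * charDegree φ.1)) fun φ hφ => by
      nlinarith [ineq h hC' hc' (Finset.ne_of_mem_erase hφ) (h2 φ)]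
  rw [← Finset.mul_sum, ← Finset.mul_sum] at d5
  have d1 : charDegree χ ≠ 1 := fun h => by
    rw [charDegree_eq_one hχ.isCharacter] at h
    refine hn (hf u ((lin_comm hχ.isCharacter h (hc ▸ Subgroup.mem_top u)).trans h.symm) ▸ one_mem _)
  have d2 := charDegree_pos hχ
  change charDegree χ ≤ L at hL2
  obtain ⟨d, hd'⟩ : ∃ d, charDegree χ = d + 2 := ⟨charDegree χ - 2, by omega⟩
  rw [hd'] at h3 hL2 hd
  generalize ∑ φ ∈ Finset.univ.erase (irrOne (G ⧸ Subgroup.center G)), k φ * l φ = A at h7 d5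
  generalize ∑ φ ∈ Finset.univ.erase (irrOne (G ⧸ Subgroup.center G)), k φ * charDegree φ.1 = B at h3 d5
  have : (2 * (d + 2) + 3) * (d + 1) ≤ (p + 1) * A := Nat.mul_le_mul (by omega) (by omega)
  nlinarith

universe v in
theorem brauer_lin : ∀ (n : ℕ) (G : Type v) [Group G] [Finite G] (u : G), Nat.card G = n →
    orderOf u = p → ¬ p ∣ (Z[u]).index → ∀ χ : G → ℂ, IsCharacter G χ → (∀ g, χ g = χ 1 → g = 1) →
    2 * charDegree χ + 1 < p → (Z[u]).Normal := by
  intro n
  induction n using Nat.strong_induction_on with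
  | _ n ih =>
  intro G _ _ u hn hu hs χ hχ hf hd
  by_cases hg : ∀ K : Subgroup G, K.Normal → u ∈ K → K = ⊤
  · have : u ∈ Subgroup.center G := by
      rw [Subgroup.mem_center_iff]
      intro g
      have := hf _ (eq_of_const hχ (g := g * u * g⁻¹ * u⁻¹) fun ψ hψ h1 _ => by
        haveI := hψ.isCharacter.charKer_normal
        rw [← hψ.isCharacter.mem_charKer]
        by_cases h : p ∣ Nat.card (charKer ψ)
        · rw [hg _ inferInstance (mem_of_dvd hu hs h)]; trivial
        obtain ⟨q1, q2⟩ := quot_syl hu hs _ h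
        obtain ⟨β, hβ, -, -, h3, h4⟩ := exists_faithful_quot hψ
        have := main q1 q2 (fun K hK h => by
          have := hg _ (hK.comap (QuotientGroup.mk' _)) h
          exact Subgroup.comap_injective (QuotientGroup.mk'_surjective _) (by rw [this]; rfl))
          hβ h4 (by omega)
        rw [← QuotientGroup.eq_one_iff]
        simp [Subgroup.mem_center_iff.1 this g])
      rwa [mul_inv_eq_one, mul_inv_eq_iff_eq_mul] at this
    exact ⟨by
      rintro _ ⟨j, rfl⟩ g
      rw [Subgroup.mem_center_iff.1 (zpow_mem this j) g, mul_inv_cancel_right]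
      exact ⟨j, rfl⟩⟩
  push Not at hg
  obtain ⟨K, hK, huK, hne⟩ := hg
  have hle : Z[u] ≤ K := Subgroup.zpowers_le.2 huK
  have a1 : Z[(⟨u, huK⟩ : K)] = (Z[u]).subgroupOf K := by
    ext x
    simp only [Subgroup.mem_subgroupOf, Subgroup.mem_zpowers_iff, Subtype.ext_iff,
      SubgroupClass.coe_zpow]
  have h1 := ih _ (hn ▸ (K.card_le_card_group.lt_of_ne fun h => hne (Subgroup.eq_top_of_card_eq _ h))) K
    ⟨u, huK⟩ rfl (by rw [← Subgroup.orderOf_coe]; exact hu)
    (by rw [a1]; exact fun h => hs (h.trans (Subgroup.relIndex_dvd_index_of_le hle)))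
    _ (hχ.restrict K) (fun g hg => Subtype.ext (hf g hg)) hd
  rw [a1] at h1
  refine Subgroup.normalizer_eq_top_iff.1 (eq_top_iff.2 fun g _ => ?_)
  obtain ⟨M, hM⟩ := exists_pmod p
  obtain ⟨e, X, y, ε, δ, h⟩ := exists_pb (M := M) hu hs
  refine h.mem_norm (Subgroup.mem_zpowers u) h.ne_one (mem_of_ord hs ?_ ?_)
  · exact (Subgroup.normal_subgroupOf_iff_le_normalizer hle).1 h1 (hK.conj_mem u huK g)
  · rw [← hu]; exact (MulAut.conj g).orderOf_eq u

end CfsgH4.Sml
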