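import Cfsg.Agent.H4.Dg2
import Cfsg.Agent.H3.Pc1

/-! Wielandt's theorem on primitive groups of degree `2p`: the rank three computation. -/

set_option autoImplicit false
open Cfsg CfsgH4 CfsgPc MulAction
open CfsgH3 hiding cj cj_cj
open scoped ComplexConjugate

namespace CfsgH4

variable {G : Type*} [Group G] [Fintype G] {Ω : Type*} [Fintype Ω] [MulAction G Ω] {a b : Ω} {χ : G → ℂ}

open Classical in
/-- The double coset of elements sending `a` into the suborbit of `b`. -/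
noncomputable def dcs (G : Type*) [Group G] [Fintype G] [MulAction G Ω] (a b : Ω) : Finset G :=
  Finset.univ.filter fun g => g • a ∈ orbit (stabilizer G a) b

omit [Fintype Ω] in
theorem mem_dcs {g : G} : g ∈ dcs G a b ↔ g • a ∈ orbit (stabilizer G a) b := by simp [dcs]

omit [Fintype Ω] in
theorem dcs_right (g : G) (h : G) (hh : h ∈ stabilizer G a) : g * h ∈ dcs G a b ↔ g ∈ dcs G a b := by
  simp only [mem_dcs, mul_smul, mem_stabilizer_iff.1 hh]

omit [Fintype Ω] in
theorem dcs_left (g : G) (h : G) (hh : h ∈ stabilizer G a) : h * g ∈ dcs G a b ↔ g ∈ dcs G a b := by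
  simp only [mem_dcs, mul_smul]
  exact ⟨fun c => by simpa [Subgroup.smul_def] using mem_orbit_of_mem_orbit (⟨h, hh⟩⁻¹ : stabilizer G a) c,
    fun c => mem_orbit_of_mem_orbit (⟨h, hh⟩ : stabilizer G a) c⟩

theorem card_dcs [IsPretransitive G Ω] :
    (dcs G a b).card = Nat.card (stabilizer G a) * Nat.card (orbit (stabilizer G a) b) := by
  classical
  rw [Finset.card_eq_sum_card_fiberwise (t := (orbit (stabilizer G a) b).toFinset) (f := fun g => g • a)
    fun g hg => by simpa using mem_dcs.1 hg,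
    Finset.sum_congr rfl (g := fun _ => Nat.card (stabilizer G a)) fun x hx => ?_]
  · simp [mul_comm]
  obtain ⟨g, rfl⟩ := exists_smul_eq G a x
  rw [Nat.card_eq_fintype_card, Fintype.card_subtype]
  refine (Finset.card_equiv (Equiv.mulLeft g) fun k => ?_).symm
  simp only [mem_dcs, Finset.mem_filter, Finset.mem_univ, true_and, Equiv.coe_mulLeft, mul_smul,
    smul_left_cancel_iff, mem_stabilizer_iff]
  exact ⟨fun c => ⟨by rw [c]; exact Set.mem_toFinset.1 hx, c⟩, fun c => c.2⟩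

/-- The spherical function of `χ`. -/
noncomputable def sph (H : Subgroup G) [Fintype H] (χ : G → ℂ) (g : G) : ℂ := ∑ h : H, χ (g * h)

theorem sum_sph_sq (H : Subgroup G) [Fintype H] (hχ : IsIrrCharacter G χ) :
    χ 1 * ∑ g, conj (sph H χ g) * sph H χ g = Nat.card G * Nat.card H * sph H χ 1 := by
  have e : ∀ h k : H, ∑ g, conj (χ (g * h)) * χ (g * k) = Nat.card G / χ 1 * χ (h⁻¹ * k) := fun h k => by
    have := sum_conj_mul hχ hχ.isClassFunction (h⁻¹ * k)
    rw [hχ.classInner_self, mul_one] at this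
    rw [← this, ← Equiv.sum_comp (Equiv.mulRight (h : G)⁻¹)]
    simp [mul_assoc]
  simp only [sph, map_sum, Finset.sum_mul_sum]
  rw [Finset.sum_comm, Finset.sum_congr rfl (g := fun _ => Nat.card G / χ 1 * ∑ k : H, χ (1 * k)) fun h _ => by
    rw [Finset.sum_comm, Finset.mul_sum, ← Equiv.sum_comp (Equiv.mulLeft h)]
    exact Finset.sum_congr rfl fun x _ => (e _ _).trans (by simp)]
  simp only [Finset.sum_const, Finset.card_univ, nsmul_eq_mul, Nat.card_eq_fintype_card]
  field_simp [hχ.apply_one_ne_zero]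

theorem sph_dcs [IsPretransitive G Ω] [Fintype (stabilizer G a)] (hχ : IsClassFunction G χ) {g : G}
    (hg : g ∈ dcs G a b) : Nat.card (orbit (stabilizer G a) b) * sph (stabilizer G a) χ g =
      ∑ g ∈ dcs G a b, χ g := by
  have e : ∀ k ∈ dcs G a b, sph (stabilizer G a) χ k = sph (stabilizer G a) χ g := fun k hk => by
    obtain ⟨h, hh⟩ := orbit_eq_iff.2 (mem_dcs.1 hg) ▸ mem_dcs.1 hk
    have : (h * g)⁻¹ * k ∈ stabilizer G a := by
      rw [mem_stabilizer_iff, mul_smul, inv_smul_eq_iff, mul_smul]; exact hh.symm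
    rw [sph, sph, ← Equiv.sum_comp ((Equiv.mulLeft ⟨_, this⟩).trans (Equiv.mulRight h)) fun x => χ (g * x)]
    refine Finset.sum_congr rfl fun x _ => ?_
    rw [← hχ.conj_inv _ h]
    simp [mul_assoc]
  refine mul_left_cancel₀ (natCard_ne_zero (stabilizer G a)) ?_
  rw [← mul_assoc, ← Nat.cast_mul, ← card_dcs, ← nsmul_eq_mul, ← Finset.sum_const, ← Finset.sum_congr rfl e]
  unfold sph
  rw [Finset.sum_comm, Finset.sum_congr rfl (g := fun _ => ∑ g ∈ dcs G a b, χ g) fun (h : stabilizer G a) _ =>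
    show ∑ x ∈ dcs G a b, χ (x * h) = _ from Finset.sum_equiv (Equiv.mulRight (h : G)) (fun x => (dcs_right x h h.2).symm) fun _ _ => rfl,
    Finset.sum_const, Finset.card_univ, nsmul_eq_mul, Nat.card_eq_fintype_card]

theorem rank3_num {m k l u v : ℤ} (hm : 2 ≤ m) (hk : 2 ≤ k) (hl : 2 ≤ l) (h1 : 1 + k + l = 2 * m)
    (h2 : k + (m - 1) * u + m * v = 0) (h3 : v ^ 2 * l + (1 + v) ^ 2 * k = k * l) :
    ∃ a : ℕ, 0 < a ∧ m = 2 * a ^ 2 + 2 * a + 1 ∧
      (k = a * (2 * a + 1) ∧ l = (a + 1) * (2 * a + 1) ∨ l = a * (2 * a + 1) ∧ k = (a + 1) * (2 * a + 1)) := by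
  have a1 : v ^ 2 ≤ k := by nlinarith [sq_nonneg (1 + v)]
  have a2 : (1 + v) ^ 2 ≤ l := by nlinarith [sq_nonneg v]
  obtain rfl : v = -1 - u := by
    by_contra e
    obtain e | e : 0 ≤ u + v ∨ u + v ≤ -2 := by omega
    · have : k ≤ -v := by nlinarith
      nlinarith
    · have : l ≤ 1 + v := by nlinarith
      nlinarith
  obtain rfl : k = u + m := by linarith
  obtain rfl : l = m - 1 - u := by linarith
  obtain rfl : m = 2 * u ^ 2 + 2 * u + 1 :=
    mul_left_cancel₀ (show m - 1 ≠ 0 by omega) (by linear_combination -h3)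
  obtain ⟨a, rfl | rfl⟩ : ∃ a : ℕ, u = a ∨ u = -1 - a := ⟨if 0 ≤ u then u.toNat else (-1 - u).toNat, by
    split_ifs <;> omega⟩
  all_goals refine ⟨a, Nat.pos_of_ne_zero (by rintro rfl; simp at hm), by ring, ?_⟩
  exacts [.inr ⟨by ring, by ring⟩, .inl ⟨by ring, by ring⟩]

theorem wielandt_rank3 (hprim : IsPreprimitive G Ω) {m : ℕ} (hm : Fintype.card Ω = 2 * m) (a : Ω)
    (hrank : Nat.card (orbitRel.Quotient (stabilizer G a) Ω) = 3) {χ₁ χ₂ : G → ℂ} (h₁ : IsIrrCharacter G χ₁)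
    (h₂ : IsIrrCharacter G χ₂) (hπ : (fun g : G => (Nat.card (fixedBy Ω g) : ℂ)) = fun g => 1 + χ₁ g + χ₂ g)
    (hd₁ : χ₁ 1 = (m : ℂ) - 1) (hd₂ : χ₂ 1 = m) : ∃ c : ℕ, 0 < c ∧ m = 2 * c ^ 2 + 2 * c + 1 ∧ ∀ b : Ω, b ≠ a →
      Nat.card (orbit (stabilizer G a) b) = c * (2 * c + 1) ∨
        Nat.card (orbit (stabilizer G a) b) = (c + 1) * (2 * c + 1) := by
  classical
  have := Fintype.ofFinite (orbitRel.Quotient (stabilizer G a) Ω)
  obtain ⟨q₁, q₂, q0, q⟩ := Finset.card_eq_two.1 (show (Finset.univ.erase (Quotient.mk'' a :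
    orbitRel.Quotient (stabilizer G a) Ω)).card = 2 by simp [← Nat.card_eq_fintype_card, hrank])
  obtain ⟨b₁, rfl⟩ := q₁.exists_rep
  obtain ⟨b₂, rfl⟩ := q₂.exists_rep
  have o0 : ∀ {x}, x ∈ orbit (stabilizer G a) a → x = a := by rintro _ ⟨h, rfl⟩; exact h.2
  have o1 : ∀ x, x ≠ a ↔ x ∈ orbit (stabilizer G a) b₁ ∨ x ∈ orbit (stabilizer G a) b₂ := fun x => by
    have := Finset.ext_iff.1 q (Quotient.mk'' x)
    simp only [Finset.mem_erase, Finset.mem_univ, and_true, Finset.mem_insert, Finset.mem_singleton, ne_eq,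
      Quotient.eq, orbitRel_apply] at this
    exact Iff.trans (not_congr ⟨fun e => e ▸ mem_orbit_self x, o0⟩) this
  have o2 : Disjoint (orbit (stabilizer G a) b₁) (orbit (stabilizer G a) b₂) := (orbit.eq_or_disjoint b₁ b₂).resolve_left fun e =>
    q0 (Quotient.sound (orbit_eq_iff.1 e))
  have o3 : ∀ f : G → ℂ, ∑ g, f g = ∑ h : (stabilizer G a), f h + ∑ g ∈ dcs G a b₁, f g + ∑ g ∈ dcs G a b₂, f g := fun f => by
    rw [add_assoc, ← Finset.sum_union (Finset.disjoint_left.2 fun g h1 h2 =>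
      Set.disjoint_left.1 o2 (mem_dcs.1 h1) (mem_dcs.1 h2)), ← Finset.sum_subtype
      (Finset.univ.filter (· ∈ (stabilizer G a))) (by simp), ← Finset.sum_filter_add_sum_filter_not _ (· ∈ (stabilizer G a))]
    congr 2
    ext g
    simpa [mem_dcs] using o1 (g • a)
  have o4 : ∀ b, b ≠ a → 2 ≤ Nat.card (orbit (stabilizer G a) b) := fun b hb => by
    by_contra! e
    have e1 : (stabilizer G a) ≤ stabilizer G b := fun h hh => (Set.ncard_le_one (Set.toFinite _)).1 (Nat.le_of_lt_succ e) _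
      ⟨⟨h, hh⟩, rfl⟩ _ (mem_orbit_self b)
    have : Nontrivial Ω := ⟨_, _, hb⟩
    have e2 := (isCoatom_stabilizer_iff_preprimitive G a).2 hprim
    have e3 := e2.le_iff.1 e1 |>.resolve_left ((isCoatom_stabilizer_iff_preprimitive G b).2 hprim).1
    obtain ⟨g, rfl⟩ := exists_smul_eq G a b
    have e4 : (stabilizer G a).Normal := Subgroup.normalizer_eq_top_iff.1 (e2.2 _ (Subgroup.le_normalizer.lt_of_ne fun e =>
      hb (e.ge (Subgroup.mem_normalizer_iff''.2 fun h => ?_))))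
    · have e5 : ∀ x y : Ω, x ∈ orbit (stabilizer G a) y → x = y := by
        rintro _ y ⟨h, rfl⟩
        obtain ⟨k, rfl⟩ := exists_smul_eq G a y
        exact smul_eq_iff_eq_inv_smul _ |>.2 (by
          simpa [Subgroup.smul_def, mul_smul, inv_smul_eq_iff, eq_inv_smul_iff] using e4.conj_mem' h h.2 k)
      rw [Nat.card_congr (Equiv.ofBijective (Quotient.mk'' : Ω → _) ⟨fun x y e => e5 x y (Quotient.exact e),
        Quotient.mk''_surjective⟩).symm, Nat.card_eq_fintype_card] at hrank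
      omega
    · conv_lhs => rw [← e3]
      simp [mul_smul, inv_smul_eq_iff]
  have p0 := classInner_fixedBy_one (G := G) Ω
  have : Nonempty Ω := ⟨a⟩
  have := ((pretransitive_iff_unique_quotient_of_nonempty G Ω).1 inferInstance).some
  have hne : χ₁ ≠ χ₂ := fun e => by
    have := hd₁.symm.trans (e ▸ hd₂)
    simp [sub_eq_iff_eq_add] at this
  have hπ' : (fun g : G => (Nat.card (fixedBy Ω g) : ℂ)) = (fun _ => 1) + χ₁ + χ₂ := hπ
  rw [hπ', Nat.card_unique, classInner_add_left, classInner_add_left, isIrr_one.classInner_self,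
    h₁.classInner_eq_ite isIrr_one, h₂.classInner_eq_ite isIrr_one] at p0
  have n1 : χ₁ ≠ fun _ => 1 := fun e => by
    rw [if_pos e] at p0; split_ifs at p0 <;> norm_num at p0
  have n2 : χ₂ ≠ fun _ => 1 := fun e => by
    rw [if_pos e, if_neg n1] at p0; norm_num at p0
  have p1 : ∀ φ, IsIrrCharacter G φ → classInner (fun _ : (stabilizer G a) => (1 : ℂ)) (fun h : (stabilizer G a) => φ h) =
      classInner (fun _ => 1) φ + classInner χ₁ φ + classInner χ₂ φ := fun φ hφ => by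
    rw [← classInner_indFun_left _ hφ.isClassFunction, ← card_fixedBy_eq_indFun, hπ', classInner_add_left,
      classInner_add_left]
  have g2 : ∀ (σ : ℂ ≃+* ℂ) g, σ (χ₂ g) = χ₂ g := fun σ => by
    have e : (fun g => σ (χ₁ g)) + (fun g => σ (χ₂ g)) = χ₁ + χ₂ := funext fun g => by
      have := congrArg σ (congrFun hπ g)
      rw [map_natCast, congrFun hπ g, map_add, map_add, map_one, add_assoc, add_assoc, add_right_inj] at this
      exact this.symm
    have e1 := congrArg (classInner · χ₂) e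
    simp only [classInner_add_left, h₂.classInner_self, h₁.classInner_of_ne h₂ hne] at e1
    rw [show classInner (fun g => σ (χ₁ g)) χ₂ = 0 from (h₁.map (σ : ℂ →+* ℂ)).classInner_of_ne h₂ fun e => by
      simpa [hd₁, hd₂, sub_eq_iff_eq_add] using congrFun e 1] at e1
    exact congrFun ((h₂.map (σ : ℂ →+* ℂ)).eq_of_classInner_ne_zero h₂ fun e =>
      one_ne_zero ((by simpa using e1.symm : 1 = classInner (fun g => σ (χ₂ g)) χ₂).trans e))
  have g1 : ∀ (σ : ℂ ≃+* ℂ) g, σ (χ₁ g) = χ₁ g := fun σ g => by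
    have := congrArg σ (congrFun hπ g)
    rw [map_natCast, congrFun hπ g, map_add, map_add, map_one, g2, add_left_inj, add_right_inj] at this
    exact this.symm
  have w := fun φ (hφ : IsIrrCharacter G φ) => dc_integral hφ.isCharacter (stabilizer G a) (dcs G a b₁) dcs_right dcs_left
  obtain ⟨u, hu⟩ := exists_int_of_fixed (w _ h₁).1 fun σ => by simp [g1]
  obtain ⟨v, hv⟩ := exists_int_of_fixed (w _ h₂).1 fun σ => by simp [g2]
  have H0 := natCard_ne_zero (stabilizer G a)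
  rw [inv_mul_eq_iff_eq_mul₀ H0] at hu hv
  have s0 : ∑ φ : IrrCharacter G, φ.1 1 * ∑ g ∈ dcs G a b₁, φ.1 g = 0 := by
    simp only [Finset.mul_sum]
    rw [Finset.sum_comm, Finset.sum_eq_zero]
    intro g hg
    rw [sum_irr_deg_mul, regChar_of_ne]
    rintro rfl
    exact (o1 _).2 (.inl (mem_dcs.1 hg)) (one_smul G a)
  rw [← Finset.sum_subset (Finset.subset_univ {⟨_, isIrr_one⟩, ⟨_, h₁⟩, ⟨_, h₂⟩}) fun φ _ hφ => by
    simp only [Finset.mem_insert, Finset.mem_singleton, not_or, Subtype.ext_iff] at hφ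
    rw [(w _ φ.2).2 (by rw [p1 _ φ.2, isIrr_one.classInner_of_ne φ.2 (Ne.symm hφ.1), h₁.classInner_of_ne φ.2
      (Ne.symm hφ.2.1), h₂.classInner_of_ne φ.2 (Ne.symm hφ.2.2)]; simp), mul_zero],
    Finset.sum_insert (by simpa [Subtype.ext_iff] using ⟨n1.symm, n2.symm⟩),
    Finset.sum_pair (by simpa [Subtype.ext_iff] using hne)] at s0
  simp only [hu, hv, hd₁, hd₂, Finset.sum_const, card_dcs, nsmul_eq_mul] at s0
  have s1 : ∑ h : (stabilizer G a), χ₂ h = Nat.card (stabilizer G a) := by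
    have := congrArg conj (p1 _ h₂)
    rw [conj_classInner, classInner_one_right, isIrr_one.classInner_of_ne h₂ n2.symm,
      h₁.classInner_of_ne h₂ hne, h₂.classInner_self, inv_mul_eq_iff_eq_mul₀ H0] at this
    simpa using this
  have s2 : ∑ g ∈ dcs G a b₂, χ₂ g = -Nat.card (stabilizer G a) * (1 + v) := by
    have := classInner_one_right χ₂
    rw [h₂.classInner_of_ne isIrr_one n2, o3, s1, hv, eq_comm, inv_mul_eq_iff_eq_mul₀ (natCard_ne_zero G)] at this
    linear_combination this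
  have k1 := o4 b₁ ((o1 _).2 (.inl (mem_orbit_self _)))
  have k2 := o4 b₂ ((o1 _).2 (.inr (mem_orbit_self _)))
  have s3 := o3 fun _ => 1
  have s4 := sum_sph_sq (stabilizer G a) h₂
  have s5 : ∀ b (z : ℤ), ∑ g ∈ dcs G a b, χ₂ g = Nat.card (stabilizer G a) * z → ∑ g ∈ dcs G a b, conj (sph (stabilizer G a) χ₂ g) *
      sph (stabilizer G a) χ₂ g = Nat.card (stabilizer G a) ^ 3 * z ^ 2 / Nat.card (orbit (stabilizer G a) b) := fun b z hz => by
    have : (Nat.card (orbit (stabilizer G a) b) : ℂ) ≠ 0 := Nat.cast_ne_zero.2 (Nat.card_ne_zero.2 ⟨⟨_, mem_orbit_self _⟩, inferInstance⟩)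
    rw [Finset.sum_congr rfl (g := fun _ => ((Nat.card (stabilizer G a) : ℂ) * z /
      Nat.card (orbit (stabilizer G a) b)) ^ 2) fun g hg => by
      rw [eq_div_of_mul_eq this ((mul_comm _ _).trans ((sph_dcs h₂.isClassFunction hg).trans hz))]
      simp [sq]]
    simp only [Finset.sum_const, card_dcs, nsmul_eq_mul, Nat.cast_mul]
    field_simp
  have s6 : ∀ h : (stabilizer G a), sph (stabilizer G a) χ₂ h = Nat.card (stabilizer G a) := fun h => s1 ▸ Equiv.sum_comp (Equiv.mulLeft h) fun x => χ₂ x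
  have s7 : (Nat.card G : ℂ) = 2 * m * Nat.card (stabilizer G a) := by
    rw [CfsgH8.card_eq_mul_stabilizer a, Nat.card_eq_fintype_card, hm]; push_cast; rfl
  have m0 : (m : ℂ) ≠ 0 := hd₂ ▸ h₂.apply_one_ne_zero
  rw [o3, s5 _ _ hv, s5 b₂ (-(1 + v)) (by rw [s2]; push_cast; ring), show sph (stabilizer G a) χ₂ 1 = _ from s6 1, hd₂, s7] at s4
  simp only [s6, map_natCast, Finset.sum_const, Finset.card_univ, nsmul_eq_mul, ← Nat.card_eq_fintype_card,
    card_dcs, s7, mul_one] at s3 s4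
  have c1 : (Nat.card (orbit (stabilizer G a) b₁) : ℂ) ≠ 0 := Nat.cast_ne_zero.2 (Nat.card_ne_zero.2 ⟨⟨_, mem_orbit_self _⟩, inferInstance⟩)
  have c2 : (Nat.card (orbit (stabilizer G a) b₂) : ℂ) ≠ 0 := Nat.cast_ne_zero.2 (Nat.card_ne_zero.2 ⟨⟨_, mem_orbit_self _⟩, inferInstance⟩)
  have t1 : (1 + Nat.card (orbit (stabilizer G a) b₁) + Nat.card (orbit (stabilizer G a) b₂) : ℤ) = 2 * m := Int.cast_injective (α := ℂ)
    (mul_left_cancel₀ H0 (by push_cast at s3 ⊢; linear_combination -s3))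
  obtain ⟨c, c0, c3, c4⟩ := rank3_num (u := u) (v := v) (by omega) (by exact_mod_cast k1) (by exact_mod_cast k2) t1
    (Int.cast_injective (α := ℂ) (mul_left_cancel₀ H0 (by push_cast at s0 ⊢; linear_combination s0)))
    (Int.cast_injective (α := ℂ) (by field_simp at s4; push_cast at s4 ⊢; linear_combination s4))
  refine ⟨c, c0, by exact_mod_cast c3, fun b hb => ?_⟩
  norm_cast at c4
  rcases (o1 b).1 hb with e | e <;> rw [orbit_eq_iff.2 e] <;> tauto

end CfsgH4
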