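import Cfsg.Agent.H4.W2p
import Cfsg.Agent.H8.Gleason
import Cfsg.Agent.H8.MinNormal
import Cfsg.Agent.H5.GrpAux

/-! Wielandt's theorem on primitive groups of degree `2p`: the permutation character. -/

set_option autoImplicit false
open Cfsg CfsgH4 CfsgH1 CfsgL0 MulAction
open CfsgH3 hiding cj cj_cj
open scoped ComplexConjugate

namespace CfsgH4

local notation "C[" Q "]" => Subgroup.centralizer (SetLike.coe (Q : Subgroup _))
local notation "Z[" u "]" => Subgroup.zpowers u

variable {G : Type*} [Group G] [Finite G] {Ω : Type*} [Finite Ω] [MulAction G Ω] {p : ℕ} [hp : Fact p.Prime]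

theorem perfect_2p [FaithfulSMul G Ω] [IsPretransitive G Ω] (hΩ : Nat.card Ω = 2 * p) (h2 : p ≠ 2)
    (hc : commutator G = ⊤) (hs : ¬ p ^ 2 ∣ Nat.card G) :
    IsIrrCharacter G (fun g => (Nat.card (fixedBy Ω g) : ℂ) - 1) ∨ ∃ χ ψ, IsIrrCharacter G χ ∧
      IsIrrCharacter G ψ ∧ χ 1 = p - 1 ∧ ψ 1 = p ∧ ∀ g : G, (Nat.card (fixedBy Ω g) : ℂ) - 1 = χ g + ψ g := by
  classical
  have := Fintype.ofFinite G
  have := Fintype.ofFinite Ω
  have p2 := hp.out.two_le
  have : Nonempty Ω := (Nat.card_pos_iff.1 (by omega)).1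
  obtain ⟨a⟩ := id this
  have a1 := CfsgH8.card_eq_mul_stabilizer (G := G) (Ω := Ω)
  obtain ⟨u, hu⟩ := exists_prime_orderOf_dvd_card' (G := G) p (a1 a ▸ hΩ ▸ (dvd_mul_left p 2).mul_right _)
  have a2 : ¬ p ∣ (Z[u]).index := fun e => hs (by
    rw [← (Z[u]).index_mul_card, Nat.card_zpowers, hu, sq]; exact Nat.mul_dvd_mul_right e p)
  have a3 : ∀ v ∈ Z[u], v ≠ 1 → fixedBy Ω v = ∅ := fun v hv h1 => Set.eq_empty_of_forall_notMem fun x hx => hs (by
    rw [a1 x, hΩ, sq]
    exact Nat.mul_dvd_mul (dvd_mul_left p 2) (dvd_ord_of_mem hu hv h1 ▸ (stabilizer G x).orderOf_dvd_natCard hx))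
  obtain ⟨M, hM⟩ := exists_pmod p
  obtain ⟨e, X, y, ε, δ, h⟩ := exists_pb (M := M) hu a2
  have hC : C[Z[u]] = Z[u] := h.sy.3 (isPGroup_iff_primeFactors_card_subset hp.out.ne_zero |>.2 fun r hr => by
    have hr' := Nat.prime_of_mem_primeFactors hr
    have := Fact.mk hr'
    obtain ⟨⟨g, hg⟩, b1⟩ := exists_prime_orderOf_dvd_card' r (Nat.dvd_of_mem_primeFactors hr)
    rw [Subgroup.orderOf_mk] at b1
    have b2 := CfsgH8.card_modEq_card_fixedBy (Ω := Ω) hr' (k := 1) (g := g) (by simp [← b1])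
    have b3 := CfsgH8.ncard_modEq_fixed hp.out _ h.pgrp (fixedBy Ω g) fun v hv x hx => by
      rw [mem_fixedBy, smul_smul, ← hg v hv, mul_smul, show g • x = x from hx]
    rw [Set.eq_empty_of_forall_notMem (s := _ ∩ fixedPoints Z[u] Ω) fun x hx => (a3 u (Subgroup.mem_zpowers u) h.ne_one).le
      (hx.2 ⟨u, Subgroup.mem_zpowers u⟩), Set.ncard_empty, Nat.modEq_zero_iff_dvd] at b3
    have b4 : (fixedBy Ω g).ncard < 2 * p := by
      rw [← hΩ, ← Set.ncard_univ]
      exact Set.ncard_lt_ncard ⟨Set.subset_univ _, fun e => hr'.one_lt.ne' (by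
        rw [← b1, eq_of_smul_eq_smul fun x : Ω => (e (Set.mem_univ x)).trans (one_smul G x).symm, orderOf_one])⟩
    obtain ⟨j, hj⟩ := b3
    rw [Nat.card_coe_set_eq, hΩ, hj] at b2
    rw [hp.out.primeFactors, Finset.mem_singleton]
    obtain rfl | rfl : j = 0 ∨ j = 1 := by
      have : j < 2 := Nat.lt_of_mul_lt_mul_left (a := p) (by omega)
      omega
    · refine ((hr'.dvd_mul.1 (Nat.modEq_zero_iff_dvd.1 b2)).elim (fun e => ?_) fun e =>
        (Nat.prime_dvd_prime_iff_eq hr' hp.out).1 e)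
      obtain rfl := (Nat.prime_dvd_prime_iff_eq hr' Nat.prime_two).1 e
      have c1 := Equiv.Perm.sign_of_pow_two_eq_one (σ := toPermHom G Ω g) (by rw [← map_pow, ← b1, pow_orderOf_eq_one, map_one])
      rw [show Equiv.Perm.sign (toPermHom G Ω g) = 1 from Abelianization.commutator_subset_ker
        (Equiv.Perm.sign.comp (toPermHom G Ω)) (hc ▸ Subgroup.mem_top g), ← Nat.card_eq_fintype_card,
        ← Nat.card_eq_fintype_card, hΩ, show Nat.card (Function.fixedPoints (toPermHom G Ω g)) = 0 from hj,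
        Nat.sub_zero, Nat.mul_div_cancel_left _ two_pos, (hp.out.odd_of_ne_two h2).neg_one_pow] at c1
      exact absurd c1 (by decide)
    · refine (Nat.prime_dvd_prime_iff_eq hr' hp.out).1 ?_
      simpa [two_mul] using (Nat.modEq_iff_dvd' (by omega)).1 b2.symm)
    (Subgroup.le_centralizer_iff_isMulCommutative.2 (inferInstanceAs (IsMulCommutative Z[u])))
  have hπ := isCharacter_fixedBy (G := G) Ω
  obtain ⟨n, l, a4, a5, a6, a7⟩ := exists_decomp hπ u
  obtain ⟨n', b1, b2⟩ := hπ.exists_eq_sum_irr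
  obtain rfl : n' = n := funext fun φ => Nat.cast_injective (R := ℂ) ((b1 φ).symm.trans (a4 φ))
  have h0 : (p : ℂ) ≠ 0 := Nat.cast_ne_zero.2 hp.out.ne_zero
  have b3 : n' (irrOne G) = 1 := by
    have h := (a4 (irrOne G)).symm.trans (classInner_fixedBy_one Ω)
    have := ((pretransitive_iff_unique_quotient_of_nonempty G Ω).1 inferInstance).some
    rw [Nat.card_unique] at h
    exact_mod_cast h
  simp only [← coe_deg, hu] at a5
  have b4 : l (irrOne G) = 1 := by
    have := a5 (irrOne G)
    rw [h.sX h.one, h.eps_one, deg_irrOne] at this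
    exact_mod_cast mul_left_cancel₀ h0 (show (p : ℂ) * l _ = p * 1 by rw [← this]; push_cast; ring)
  rw [sS_congr (b := fun _ => 0) fun v h1 h2 => by simp [a3 v h1 h2], sS_const, hu] at a7
  simp only [fixedBy_one_eq_univ, Nat.card_coe_set_eq, Set.ncard_univ, hΩ] at a6 a7
  replace a7 : 2 = ∑ φ, n' φ * l φ := Nat.cast_injective (R := ℂ)
    (mul_left_cancel₀ h0 (by rw [← a7]; push_cast; ring))
  rw [Nat.cast_inj, ← Finset.add_sum_erase _ _ (Finset.mem_univ (irrOne G)), b3, deg_irrOne] at a6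
  rw [← Finset.add_sum_erase _ _ (Finset.mem_univ (irrOne G)), b3, b4] at a7
  have b5 : ∀ φ, φ ≠ irrOne G → 2 ≤ charDegree φ.1 := fun φ hφ => by
    have := charDegree_pos φ.2
    have := mt (eq_one_of_deg hc) hφ
    omega
  have b6 : ∀ φ, (charDegree φ.1 : ℤ) + (p - 1) = p * l φ ∨ (charDegree φ.1 : ℤ) - (p - 1) = p * l φ ∨
      φ ∈ exc y ∧ charDegree φ.1 + δ * e = p * l φ ∨ charDegree φ.1 = p * l φ := fun φ => by
    have := a5 φ
    by_cases c : φ ∈ X
    · rw [h.sX c] at this
      rcases h.sgn φ with e | e <;> rw [e] at this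
      · exact .inl (Int.cast_injective (α := ℂ) (by push_cast at this ⊢; linear_combination this))
      · exact .inr (.inl (Int.cast_injective (α := ℂ) (by push_cast at this ⊢; linear_combination this)))
    by_cases d : φ ∈ exc y
    · exact .inr (.inr (.inl ⟨d, by exact_mod_cast h.sY d ▸ this⟩))
    · rw [h.sOut hC c d, add_zero] at this
      exact .inr (.inr (.inr (by exact_mod_cast this)))
  have b7 : ∀ φ ∈ Finset.univ.erase (irrOne G), n' φ ≠ 0 → l φ = 0 → charDegree φ.1 + 1 = p := fun θ c1 c2 c3 => by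
    have c4 := b5 θ (Finset.ne_of_mem_erase c1)
    have c5 := h.cardY
    obtain c | c | ⟨c, d⟩ | c := c3 ▸ b6 θ
    · omega
    · omega
    swap
    · omega
    obtain ⟨rfl, rfl⟩ : δ = -1 ∧ e = charDegree θ.1 := by rcases h.sgn' with rfl | rfl <;> omega
    by_contra c6
    have c7 : 2 * charDegree θ.1 + 1 ≤ p := by
      have := h.pos'
      have : (exc y).card ≠ 1 := fun e => c6 (by simpa [e] using c5)
      nlinarith [show 2 ≤ (exc y).card by omega]
    have hΦ := θ.2.isCharacter.mul θ.2.isCharacter.conj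
    obtain ⟨k, l', h1, h2, h3, h4⟩ := exists_decomp hΦ u
    obtain rfl : l = l' := funext fun φ => Nat.cast_injective (R := ℂ)
      (mul_left_cancel₀ h0 ((a5 φ).symm.trans (by rw [coe_deg, h2, hu])))
    have h5 : k (irrOne G) = 1 := by
      have := h1 (irrOne G)
      rw [← classInner_mul_right, show θ.1 * (irrOne G).1 = θ.1 from mul_one _, θ.2.classInner_self] at this
      exact_mod_cast this.symm
    simp only [Pi.mul_apply, ← coe_deg, map_natCast] at h3 h4
    rw [show (θ.1 * fun g => conj (θ.1 g)) = fun g => θ.1 g * conj (θ.1 g) from rfl, h.sYY c c, if_pos rfl,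
      add_sub_cancel, hu, mul_right_inj' h0, Nat.cast_inj] at h4
    rw [← Nat.cast_mul, Nat.cast_inj] at h3
    rw [← Finset.add_sum_erase _ _ (Finset.mem_univ (irrOne G)), h5] at h3 h4
    obtain ⟨φ, d1, d2, d3⟩ : ∃ φ ∈ Finset.univ.erase (irrOne G), k φ ≠ 0 ∧ n' φ ≠ 0 := by
      by_contra! d
      have := Fintype.ofFinite (stabilizer G a)
      have e1 := classInner_indFun_right (H := stabilizer G a) (fun _ => 1) hΦ.isClassFunction
      have e2 := classInner_indFun_left (H := stabilizer G a) (fun _ => 1) θ.2.isClassFunction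
      rw [← card_fixedBy_eq_indFun] at e1 e2
      rw [b2, classInner_sum_right, ← Finset.add_sum_erase _ _ (Finset.mem_univ (irrOne G)),
        Finset.sum_eq_zero fun φ hφ => by
          rw [classInner_smul_right, h1]; by_cases e : k φ = 0 <;> simp [e, d φ hφ],
        classInner_smul_right, h1, h5, b3] at e1
      have e3 := (θ.2.isCharacter.restrict (stabilizer G a)).isIrr_iff.2 (by
        simpa [classInner] using e1.symm)
      have e4 := congrFun (isIrr_one.eq_of_classInner_ne_zero e3 (by rw [← e2, a4]; simpa using c2)) 1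
      rw [OneMemClass.coe_one, ← coe_deg, eq_comm, Nat.cast_eq_one] at e4
      omega
    have d4 : ∀ φ ∈ Finset.univ.erase (irrOne G), (p + 1) * l φ ≤ 2 * charDegree φ.1 ∧
        (l φ ≤ 1 → (p + 1) * l φ < 2 * charDegree φ.1) := fun φ hφ => by
      have := b5 φ (Finset.ne_of_mem_erase hφ)
      have := b6 φ
      generalize l φ = j at *
      generalize charDegree φ.1 = d at *
      rcases j with _ | _ | j
      · omega
      · omega
      · refine ⟨?_, by omega⟩
        zify
        rcases this with e | e | ⟨-, e⟩ | e <;> push_cast at e ⊢ <;> nlinarith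
    have d5 := Finset.sum_lt_sum (s := Finset.univ.erase (irrOne G)) (f := fun φ => (p + 1) * (k φ * l φ))
      (g := fun φ => 2 * (k φ * charDegree φ.1)) (fun φ hφ => by nlinarith [(d4 φ hφ).1]) ⟨φ, d1, by
        have := Finset.single_le_sum (f := fun φ => n' φ * l φ) (fun _ _ => Nat.zero_le _) d1
        have := (d4 φ d1).2 (by nlinarith [Nat.pos_of_ne_zero d3])
        nlinarith [Nat.pos_of_ne_zero d2]⟩
    rw [← Finset.mul_sum, ← Finset.mul_sum] at d5
    rw [b4] at h4
    rw [deg_irrOne] at h3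
    nlinarith
  obtain ⟨ψ, c1, c2⟩ := Finset.exists_ne_zero_of_sum_ne_zero (s := Finset.univ.erase (irrOne G))
    (f := fun φ => n' φ * l φ) (by omega)
  rw [← Finset.add_sum_erase _ _ c1] at a6 a7
  have c3 : n' ψ = 1 := Nat.eq_one_of_mul_eq_one_right (show _ * l ψ = 1 by omega)
  rw [Finset.sum_congr rfl (g := fun φ => (p - 1) * n' φ) fun φ hφ => by
    by_cases e : n' φ = 0
    · simp [e]
    · rw [← b7 φ (Finset.mem_of_mem_erase hφ) e ((Nat.mul_eq_zero.1 (Finset.sum_eq_zero_iff.1 (show ∑ φ ∈ _,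
        n' φ * l φ = 0 by omega) φ hφ)).resolve_left e), mul_comm, Nat.add_sub_cancel], ← Finset.mul_sum, c3] at a6
  have c4 := b5 ψ (Finset.ne_of_mem_erase c1)
  have c5 : ∀ g, (Nat.card (fixedBy Ω g) : ℂ) - 1 = ∑ φ ∈ (Finset.univ.erase (irrOne G)).erase ψ,
      n' φ * φ.1 g + ψ.1 g := fun g => by
    rw [congrFun b2 g, ← Finset.add_sum_erase _ _ (Finset.mem_univ (irrOne G)), ← Finset.add_sum_erase _ _ c1,
      b3, c3]
    simp [show (irrOne G).1 g = 1 from rfl, add_comm]
  generalize (Finset.univ.erase (irrOne G)).erase ψ = S at *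
  obtain ⟨p, rfl⟩ : ∃ q, p = q + 1 := ⟨p - 1, by omega⟩
  obtain c | c : ∑ φ ∈ S, n' φ = 0 ∨ ∑ φ ∈ S, n' φ = 1 := by
    have : ∑ φ ∈ S, n' φ < 2 := Nat.lt_of_mul_lt_mul_left (a := p + 1 - 1) (by omega)
    omega
  · refine .inl (by
      convert ψ.2 with g
      rw [c5, Finset.sum_eq_zero fun φ hφ => by simp [Finset.sum_eq_zero_iff.1 c φ hφ], zero_add])
  obtain ⟨χ, d1, d2⟩ := Finset.exists_ne_zero_of_sum_ne_zero (c ▸ one_ne_zero)
  have d3 : charDegree ψ.1 = p + 1 := by rw [c] at a6; omega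
  rw [← Finset.add_sum_erase _ _ d1] at c
  have d4 : ∀ g, (Nat.card (fixedBy Ω g) : ℂ) - 1 = χ.1 g + ψ.1 g := fun g => by
    rw [c5, ← Finset.add_sum_erase _ _ d1, Finset.sum_eq_zero fun φ hφ => by
      simp [Finset.sum_eq_zero_iff.1 (show ∑ φ ∈ S.erase χ, n' φ = 0 by omega) φ hφ], show n' χ = 1 by omega]
    simp
  refine .inr ⟨_, _, χ.2, ψ.2, ?_, by rw [← coe_deg, d3], d4⟩
  have := d4 1
  simp only [fixedBy_one_eq_univ, Nat.card_coe_set_eq, Set.ncard_univ, hΩ, ← coe_deg ψ, d3] at this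
  push_cast at this ⊢
  linear_combination -this

omit hp in
theorem two_trans_of_prime_fix {α : Type*} [Fintype α] [DecidableEq α] {G : Subgroup (Equiv.Perm α)}
    (hG : IsPreprimitive G α) {a : α} {r : ℕ} (hr : r.Prime) (h1 : r ∣ Nat.card (stabilizer G a))
    (h2 : Fintype.card α ≤ 2 * r) : IsMultiplyPretransitive G α 2 := by
  have := Fact.mk hr
  obtain ⟨⟨⟨g, hg⟩, ha⟩, h⟩ := exists_prime_orderOf_dvd_card' r h1
  simp only [Subgroup.orderOf_mk] at h
  have h3 := Finset.card_add_card_compl g.support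
  have h4 : 0 < g.supportᶜ.card := Finset.card_pos.2 ⟨a, by simpa using ha⟩
  have h5 := Equiv.Perm.isCycle_of_prime_order (h ▸ hr) (by omega)
  have h6 := h5.two_le_card_support
  exact hG.is_two_pretransitive (n := g.supportᶜ.card - 1) (by
    rw [← Finset.coe_compl, Set.ncard_coe_finset]; omega) (by rw [Nat.card_eq_fintype_card]; omega)
    (Equiv.Perm.isPretransitive_of_isCycle_mem h5 hg)

theorem wielandt_2p {α : Type*} [Fintype α] [DecidableEq α] (hα : Fintype.card α = 2 * p)
    (G : Subgroup (Equiv.Perm α)) (hG : IsPreprimitive G α) (a : α) (h : ¬ IsMultiplyPretransitive G α 2) :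
    Nat.card (orbitRel.Quotient (stabilizer G a) α) = 3 ∧ ∃ χ ψ, IsIrrCharacter G χ ∧ IsIrrCharacter G ψ ∧
      χ 1 = p - 1 ∧ ψ 1 = p ∧ (fun g : G => (Nat.card (fixedBy α g) : ℂ)) = fun g => 1 + χ g + ψ g := by
  classical
  have := Fintype.ofFinite G
  have p2 := hp.out.two_le
  have hc := Nat.card_eq_fintype_card.trans hα
  have a0 : ∀ (K : Subgroup G) [K.Normal], K ≠ ⊥ → IsPretransitive K α := fun K _ hK =>
    IsQuasiPreprimitive.isPretransitive_of_normal fun e => hK
      (eq_bot_iff.2 fun g hg => eq_of_smul_eq_smul fun x : α => (e.ge trivial ⟨g, hg⟩).trans (one_smul G x).symm)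
  have a1 := CfsgH8.card_eq_mul_stabilizer (G := G) a
  have : Nontrivial G := Finite.one_lt_card_iff_nontrivial.1 (by
    have := Nat.card_pos (α := stabilizer G a); nlinarith)
  obtain ⟨N, _, b1, b2⟩ := exists_minimal_normal (G := G)
  have := a0 N b1
  have a2 : p ≠ 2 := by
    rintro rfl
    have : IsPGroup 2 G := isPGroup_iff_primeFactors_card_subset two_ne_zero |>.2 fun r hr => by
      have hr' := Nat.prime_of_mem_primeFactors hr
      rcases hr'.dvd_mul.1 (a1 ▸ Nat.dvd_of_mem_primeFactors hr) with e | e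
      · simpa [Nat.prime_two.primeFactors] using (Nat.prime_dvd_prime_iff_eq hr' Nat.prime_two).1
          (hr'.dvd_of_dvd_pow (n := 2) (hc ▸ e :))
      · exact (h (two_trans_of_prime_fix hG hr' e (by have := hr'.two_le; omega))).elim
    obtain ⟨z, hz⟩ := exists_prime_orderOf_dvd_card' (G := Subgroup.center G) 2
      ((this.to_subgroup _).card_eq_or_dvd.resolve_left (Finite.one_lt_card_iff_nontrivial.2 this.center_nontrivial).ne')
    rw [← Subgroup.orderOf_coe] at hz
    have : (Z[z.1]).Normal := ⟨fun x hx g => by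
      rwa [Subgroup.mem_center_iff.1 (Subgroup.zpowers_le.2 z.2 hx) g, mul_inv_cancel_right]⟩
    have := a0 Z[z.1] (by rw [Ne, Subgroup.zpowers_eq_bot, ← orderOf_eq_one_iff, hz]; decide)
    have := CfsgH8.card_eq_mul_stabilizer (G := Z[z.1]) a
    rw [Nat.card_zpowers, hz, hc] at this
    omega
  have a3 : ¬ p ^ 2 ∣ Nat.card N := fun e => by
    rw [CfsgH8.card_eq_mul_stabilizer (G := N) a, hc, sq, mul_comm 2, mul_assoc,
      Nat.mul_dvd_mul_iff_left hp.out.pos, hp.out.dvd_mul, Nat.prime_dvd_prime_iff_eq hp.out Nat.prime_two] at e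
    exact h (two_trans_of_prime_fix hG hp.out ((e.resolve_left a2).trans
      (Subgroup.card_comap_dvd_of_injective (stabilizer G a) N.subtype N.subtype_injective)) hα.le)
  have a4 : commutator N = ⊤ := CfsgH5.commutator_eq_top_iff_subtype.2 ((b2 _ inferInstance
    (Subgroup.commutator_le_left N N)).resolve_left fun e => by
      obtain ⟨r, hr, c⟩ := CfsgH8.elementary_of_minimal_normal_comm N b1 b2
        (Subgroup.le_centralizer_iff_isMulCommutative.1 (Subgroup.commutator_eq_bot_iff_le_centralizer.1 e))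
      have := Fact.mk hr
      obtain ⟨k, hk⟩ := IsPGroup.exists_card_eq (p := r) (G := N) fun g => ⟨1, Subtype.ext (by simpa using c g g.2)⟩
      rw [CfsgH8.card_eq_mul_stabilizer (G := N) a, hc] at hk
      exact a2 (((Nat.prime_dvd_prime_iff_eq hp.out hr).1 (hp.out.dvd_of_dvd_pow (hk ▸
        (dvd_mul_left p 2).mul_right _))).trans ((Nat.prime_dvd_prime_iff_eq Nat.prime_two hr).1
          (Nat.prime_two.dvd_of_dvd_pow (hk ▸ (dvd_mul_right 2 p).mul_right _))).symm))
  have hπ := isCharacter_fixedBy (G := G) α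
  have c0 : classInner (fun g : G => (Nat.card (fixedBy α g) : ℂ)) (fun _ => 1) = 1 := by
    have : Nonempty α := ⟨a⟩
    have := ((pretransitive_iff_unique_quotient_of_nonempty G α).1 inferInstance).some
    rw [classInner_fixedBy_one, Nat.card_unique, Nat.cast_one]
  have c1 := hπ.sub_of_constituent isIrr_one (c0.trans_ne one_ne_zero)
  have c2 := mt (Cfsg.Agent.S0157.result (G := G) α (by omega)).1 h
  obtain c | ⟨χ, ψ, hχ, hψ, d1, d2, d3⟩ := perfect_2p (G := N) hc a2 a4 a3
  · exact (c2 (c1.isIrr_of_restrict N c)).elim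
  obtain ⟨A, hA, e1⟩ := c1.isClassFunction.exists_constituent fun e => by
    have := congrFun e 1
    simp only [Pi.sub_apply, fixedBy_one_eq_univ, Nat.card_coe_set_eq, Set.ncard_univ, hc, Pi.zero_apply,
      sub_eq_zero, Nat.cast_eq_one] at this
    omega
  have hB := c1.sub_of_constituent hA e1
  set B := (fun g : G => (Nat.card (fixedBy α g) : ℂ)) - (fun _ => 1) - A with eB
  have := Fintype.ofFinite N
  have hne : χ ≠ ψ := fun e => by
    have := d1.symm.trans (e ▸ d2)
    simp [sub_eq_iff_eq_add] at this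
  have e2 : (fun x : N => A x) + (fun x : N => B x) = χ + ψ := funext fun x =>
    (add_sub_cancel _ _).trans (d3 x)
  have rA := hA.isCharacter.restrict N
  have rB := hB.restrict N
  obtain ⟨i, hi⟩ := rA.exists_nat_classInner rA
  obtain ⟨j, hj⟩ := rA.exists_nat_classInner rB
  obtain ⟨k, hk⟩ := rB.exists_nat_classInner rB
  have e3 := congrArg₂ classInner e2 e2
  simp only [classInner_add_left, classInner_add_right, hi, hj, hk, rB.classInner_comm rA, hχ.classInner_self,
    hψ.classInner_self, hχ.classInner_of_ne hψ hne, hψ.classInner_of_ne hχ hne.symm] at e3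
  have e4 : i ≠ 0 := fun e => hA.apply_one_ne_zero (congrFun (classInner_self_eq_zero.1 (hi.trans (by simp [e]))) 1)
  have e5 : k ≠ 0 := fun e => c2 (by
    have : B 1 = 0 := congrFun (classInner_self_eq_zero.1 (show classInner (fun x : N => B x) _ = 0 by
      simp [hk, e])) 1
    exact (congrArg _ (c1.eq_of_constituent_of_apply_one hA e1 (sub_eq_zero.1 this))).mpr hA)
  obtain ⟨rfl, rfl, rfl⟩ : i = 1 ∧ j = 0 ∧ k = 1 := by norm_cast at e3; omega
  have iB := hB.isIrr_of_restrict N (rB.isIrr_iff.2 (by simpa using hk))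
  have iA := rA.isIrr_iff.2 (by simpa using hi)
  have e6 : ∀ g : G, (Nat.card (fixedBy α g) : ℂ) = 1 + A g + B g := fun g => by simp [eB]
  have e7 := congrFun e2 1
  simp only [Pi.add_apply, OneMemClass.coe_one, d1, d2] at e7
  have e8 : A 1 = p - 1 ∨ A 1 = p := by
    have := congrArg (classInner fun x : N => A x) e2
    rw [classInner_add_right, classInner_add_right, hi, hj] at this
    by_cases c : classInner (fun x : N => A x) χ = 0
    · exact .inr ((congrFun (iA.eq_of_classInner_ne_zero hψ fun e => by simp [c, e] at this) 1).trans d2)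
    · exact .inl ((congrFun (iA.eq_of_classInner_ne_zero hχ c) 1).trans d1)
  refine ⟨?_, e8.elim (fun e => ⟨A, B, hA, iB, e, by linear_combination e7 - e, funext e6⟩)
    fun e => ⟨B, A, iB, hA, by linear_combination e7 - e, e, funext fun g => (e6 g).trans (by ring)⟩⟩
  have := Fintype.ofFinite (stabilizer G a)
  have f1 := classInner_fixedBy_one (G := stabilizer G a) α
  have f2 := classInner_indFun_right (H := stabilizer G a) (fun _ => 1) hπ.isClassFunction
  have f3 : A ≠ B := fun e => by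
    rw [← e, hi] at hj
    simp at hj
  have f4 : classInner ((fun g : G => (Nat.card (fixedBy α g) : ℂ)) - fun _ => 1) (fun _ => 1) = 0 := by
    rw [classInner_sub_left, c0, isIrr_one.classInner_self, sub_self]
  have f5 : (fun g : G => (Nat.card (fixedBy α g) : ℂ)) - (fun _ => 1) = A + B := by simp [eB]
  have f6 := congrArg₂ classInner f5 f5
  rw [← card_fixedBy_eq_indFun] at f2
  simp only [classInner_sub_left, classInner_sub_right, c0, isCharacter_one.classInner_comm hπ,
    isIrr_one.classInner_self, classInner_add_left, classInner_add_right, hA.classInner_self, iB.classInner_self,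
    hA.classInner_of_ne iB f3, iB.classInner_of_ne hA f3.symm] at f6
  exact Nat.cast_injective (R := ℂ) (by push_cast; linear_combination f6 - (f2.trans f1))

end CfsgH4
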